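import Mathlib
import Cfsg.Agent.Lib.A7S.Gen
import Cfsg.Agent.Lib.A6S.Defs

/-! The group `T`: normal forms and orders (side 1; use `F.sw` for side 2). -/

set_option autoImplicit false

namespace H25.A6

open Subgroup H69 H36.SW

export H25.A7 (syl_of_norm card_orbit ret exists_odd odd_cent syl_sup_odd frat_odd odd_norm_cent dih2 burnside
  mem_of_P2_norm isP_sup mem_adj card_adj exists_two_inv thompson)

variable {G : Type*} [Group G] [Finite G]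

namespace B1

/-- exponent vectors -/
abbrev V5 := Fin 2 × Fin 2 × Fin 2 × Fin 2 × Fin 2

/-- the product of two normal forms -/
def ml (x y : V5) : V5 := (x.1 + y.1, x.2.1 + y.2.1, x.2.2.1 + y.2.2.1,
  x.2.2.2.1 + y.2.2.2.1 + x.2.2.1 * y.2.1, x.2.2.2.2 + y.2.2.2.2)

/-- the inverse of a normal form -/
def iv (x : V5) : V5 := (x.1, x.2.1, x.2.2.1, x.2.2.2.1 + x.2.1 * x.2.2.1, x.2.2.2.2)

/-- the normal form -/
def nf (F : Fr G) (x : V5) : G :=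
  F.t ^ (x.1 : ℕ) * F.v1 ^ (x.2.1 : ℕ) * F.v2 ^ (x.2.2.1 : ℕ) * F.z ^ (x.2.2.2.1 : ℕ) * F.u1 ^ (x.2.2.2.2 : ℕ)

omit [Finite G] in
theorem eqns : True := by
  have := @ml.eq_1
  have := @iv.eq_1
  have := @nf.eq_1.{0}
  trivial

omit [Finite G] in
theorem pw {x : G} (h : x * x = 1) (a b : Fin 2) : x ^ ((a + b : Fin 2) : ℕ) = x ^ (a : ℕ) * x ^ (b : ℕ) := by
  fin_cases a <;> fin_cases b <;> simp [h]

omit [Finite G] in
theorem iv' {x : G} (h : x * x = 1) : x⁻¹ = x := inv_eq_of_mul_eq_one_right h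

end B1

open B1

namespace Fr
variable (F : Fr G)

set_option linter.unusedSectionVars false

theorem zv1 : F.z * F.v1 = F.v1 * F.z := by
  calc F.z * F.v1 = F.v1 * F.v2 * F.v1 * F.v2 * F.v1 := by rw [F.hz]
    _ = F.v1 * (F.v2 * F.v1 * F.v2 * F.v1) := by group
    _ = F.v1 * F.z := by rw [F.hz']

theorem zt : F.z * F.t = F.t * F.z := by
  have a : Commute F.t F.v1 := F.tv1
  have b : Commute F.t F.v2 := F.tv2
  rw [← F.hz]
  exact (((a.mul_right b).mul_right a).mul_right b).eq.symm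

theorem zu1 : F.z * F.u1 = F.u1 * F.z := by
  have a : Commute F.u1 F.v1 := F.u1v1
  have b : Commute F.u1 F.v2 := F.u1v2
  rw [← F.hz]
  exact (((a.mul_right b).mul_right a).mul_right b).eq.symm

theorem u12 : F.u1 * F.u2 = F.u2 * F.u1 := by
  rcases F.hu with ⟨h, -⟩ | ⟨h, -⟩
  · rw [h, one_mul, mul_one]
  · rw [h, ← mul_assoc, F.zu1]

theorem v121 : F.v1 * F.v2 * F.v1 = F.z * F.v2 := by
  rw [← F.hz, mul_assoc _ F.v2 F.v2, F.v22, mul_one]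

theorem v21 : F.v2 * F.v1 = F.z * (F.v1 * F.v2) := by
  rw [← F.hz']
  calc F.v2 * F.v1 = F.v2 * F.v1 * (F.v2 * (F.v1 * F.v1) * F.v2) := by
        rw [F.v11, mul_one, F.v22, mul_one]
    _ = _ := by group

theorem t1 : F.t ≠ 1 := fun h => F.tD (h ▸ one_mem _)

theorem zE : F.z ∈ F.E := by
  rw [← F.hz]
  exact mul_mem (mul_mem (mul_mem F.v1E F.v2E) F.v1E) F.v2E

theorem u2_eq (h : F.u1 ≠ 1) : F.u2 = F.z * F.u1 := (F.hu.resolve_left fun k => h k.1).1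

theorem u2_ne (h : F.u1 ≠ 1) : F.u2 ≠ 1 := fun k =>
  (F.hu.resolve_left fun k => h k.1).2.2.2 (k ▸ one_mem _)

theorem y1z' : F.y1 * (F.z * F.v1) * F.y1⁻¹ = F.z := by
  calc F.y1 * (F.z * F.v1) * F.y1⁻¹ = (F.y1 * F.z * F.y1⁻¹) * (F.y1 * F.v1 * F.y1⁻¹) := by group
    _ = F.z := by rw [F.y1z, F.y1v, ← mul_assoc, ← F.zv1, mul_assoc, F.v11, mul_one]

theorem B1zv2 : F.z * F.v2 = F.v2 * F.z := F.sw.zv1

theorem B1nc : F.v1 * F.v2 ≠ F.v2 * F.v1 := fun h => F.z1 (by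
  have := F.v21
  rw [← h] at this
  exact (mul_right_cancel (this.symm.trans (one_mul _).symm)))

theorem y1nz : F.y1 * F.z ≠ F.z * F.y1 := fun h => F.B1nc (by
  rw [← F.y1z, h, mul_inv_cancel_right, F.B1zv2])

theorem B1mul (x y : V5) : nf F (ml x y) = nf F x * nf F y := by
  obtain ⟨a, b, c, d, e⟩ := x
  obtain ⟨a', b', c', d', e'⟩ := y
  have k : F.v2 ^ (c : ℕ) * F.v1 ^ (b' : ℕ) =
      F.v1 ^ (b' : ℕ) * F.v2 ^ (c : ℕ) * F.z ^ ((c * b' : Fin 2) : ℕ) := by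
    fin_cases c <;> fin_cases b' <;> simp
    rw [F.v21, ← mul_assoc, F.zv1, mul_assoc, F.B1zv2, mul_assoc]
  have c1 : ∀ m n : ℕ, F.v1 ^ m * F.t ^ n = F.t ^ n * F.v1 ^ m := fun m n =>
    ((show Commute F.t F.v1 from F.tv1).symm.pow_pow m n).eq
  have c2 : ∀ m n : ℕ, F.v2 ^ m * F.t ^ n = F.t ^ n * F.v2 ^ m := fun m n =>
    ((show Commute F.t F.v2 from F.tv2).symm.pow_pow m n).eq
  have c3 : ∀ m n : ℕ, F.z ^ m * F.t ^ n = F.t ^ n * F.z ^ m := fun m n =>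
    ((show Commute F.z F.t from F.zt).pow_pow m n).eq
  have c4 : ∀ m n : ℕ, F.u1 ^ m * F.t ^ n = F.t ^ n * F.u1 ^ m := fun m n =>
    ((show Commute F.t F.u1 from F.tu1).symm.pow_pow m n).eq
  have c5 : ∀ m n : ℕ, F.z ^ m * F.v1 ^ n = F.v1 ^ n * F.z ^ m := fun m n =>
    ((show Commute F.z F.v1 from F.zv1).pow_pow m n).eq
  have c6 : ∀ m n : ℕ, F.u1 ^ m * F.v1 ^ n = F.v1 ^ n * F.u1 ^ m := fun m n =>
    ((show Commute F.u1 F.v1 from F.u1v1).pow_pow m n).eq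
  have c7 : ∀ m n : ℕ, F.z ^ m * F.v2 ^ n = F.v2 ^ n * F.z ^ m := fun m n =>
    ((show Commute F.z F.v2 from F.B1zv2).pow_pow m n).eq
  have c8 : ∀ m n : ℕ, F.u1 ^ m * F.v2 ^ n = F.v2 ^ n * F.u1 ^ m := fun m n =>
    ((show Commute F.u1 F.v2 from F.u1v2).pow_pow m n).eq
  have c9 : ∀ m n : ℕ, F.u1 ^ m * F.z ^ n = F.z ^ n * F.u1 ^ m := fun m n =>
    ((show Commute F.z F.u1 from F.zu1).symm.pow_pow m n).eq
  have cz : ∀ m n : ℕ, F.z ^ m * F.z ^ n = F.z ^ n * F.z ^ m := fun m n =>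
    ((Commute.refl F.z).pow_pow m n).eq
  have l : ∀ {p q r s : G}, p * q = r * s → ∀ w, p * (q * w) = r * (s * w) := fun h w => by
    rw [← mul_assoc, h, mul_assoc]
  have k' : ∀ w, F.v2 ^ (c : ℕ) * (F.v1 ^ (b' : ℕ) * w) =
      F.v1 ^ (b' : ℕ) * (F.v2 ^ (c : ℕ) * (F.z ^ ((c * b' : Fin 2) : ℕ) * w)) := fun w => by
    rw [← mul_assoc, k, mul_assoc, mul_assoc]
  simp only [nf, ml, pw F.tt, pw F.v11, pw F.v22, pw F.zz, pw F.u11, mul_assoc]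
  rw [l (c4 _ _), l (c3 _ _), l (c2 _ _), l (c1 _ _), l (c6 _ _), l (c5 _ _), k', l (c8 _ _),
    l (c7 (d : ℕ) _), l (c7 _ (c' : ℕ)), l (c9 _ _), l (cz ((c * b' : Fin 2) : ℕ) (d : ℕ)),
    l (cz ((c * b' : Fin 2) : ℕ) (d' : ℕ))]

theorem B1one : nf F 0 = 1 := by simp [nf]

theorem B1inv (x : V5) : nf F (iv x) = (nf F x)⁻¹ := by
  rw [eq_inv_iff_mul_eq_one, ← F.B1mul, show ml (iv x) x = 0 by revert x; decide, F.B1one]

theorem B1z {H : Subgroup G} (h1 : F.v1 ∈ H) (h2 : F.v2 ∈ H) : F.z ∈ H := by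
  rw [← F.hz]
  exact mul_mem (mul_mem (mul_mem h1 h2) h1) h2

theorem ind {a b c d e : Fin 2}
    (h : F.t ^ (a : ℕ) * F.v1 ^ (b : ℕ) * F.v2 ^ (c : ℕ) * F.z ^ (d : ℕ) * F.u1 ^ (e : ℕ) = 1) :
    a = 0 ∧ b = 0 ∧ c = 0 ∧ d = 0 ∧ (e = 0 ∨ F.u1 = 1) := by
  have ha : a = 0 := by
    by_contra k
    obtain rfl : a = 1 := by omega
    apply F.tD
    have m1 : F.v1 ∈ closure ({F.v1, F.v2, F.u1, F.u2} : Set G) := subset_closure (by simp)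
    have m2 : F.v2 ∈ closure ({F.v1, F.v2, F.u1, F.u2} : Set G) := subset_closure (by simp)
    have m3 : F.u1 ∈ closure ({F.v1, F.v2, F.u1, F.u2} : Set G) := subset_closure (by simp)
    have : F.t = (F.v1 ^ (b : ℕ) * F.v2 ^ (c : ℕ) * F.z ^ (d : ℕ) * F.u1 ^ (e : ℕ))⁻¹ := by
      rw [eq_inv_iff_mul_eq_one, ← h]
      simp [mul_assoc]
    rw [this]
    exact inv_mem (mul_mem (mul_mem (mul_mem (pow_mem m1 _) (pow_mem m2 _)) (pow_mem (F.B1z m1 m2) _))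
      (pow_mem m3 _))
  subst ha
  have he : e = 0 ∨ F.u1 = 1 := by
    by_contra k
    rw [not_or] at k
    obtain rfl : e = 1 := by omega
    apply (F.hu.resolve_left fun k' => k.2 k'.1).2.2.1
    have m1 : F.v1 ∈ closure ({F.t, F.v1, F.v2} : Set G) := subset_closure (by simp)
    have m2 : F.v2 ∈ closure ({F.t, F.v1, F.v2} : Set G) := subset_closure (by simp)
    have : F.u1 = (F.v1 ^ (b : ℕ) * F.v2 ^ (c : ℕ) * F.z ^ (d : ℕ))⁻¹ := by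
      rw [eq_comm, inv_eq_iff_mul_eq_one, ← h]
      simp [mul_assoc]
    rw [this]
    exact inv_mem (mul_mem (mul_mem (pow_mem m1 _) (pow_mem m2 _)) (pow_mem (F.B1z m1 m2) _))
  have h' : nf F (0, b, c, d, 0) = 1 := by
    rw [← h]
    rcases he with rfl | k
    · rfl
    · simp [nf, k]
  have zz : ∀ i : Fin 2, nf F (0, 0, 0, i, 0) = 1 → i = 0 := fun i k => by
    by_contra k'
    obtain rfl : i = 1 := by omega
    exact F.z1 (by simpa [nf] using k)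
  have cm : ∀ x, nf F (ml (ml (ml (0, b, c, d, 0) x) (iv (0, b, c, d, 0))) (iv x)) = 1 := fun x => by
    rw [F.B1mul, F.B1mul, F.B1mul, F.B1inv, F.B1inv, h']
    group
  have hc : c = 0 := zz c (by
    rw [← cm (0, 1, 0, 0, 0)]
    congr 1
    clear * -
    revert b c d
    decide)
  have hb : b = 0 := zz b (by
    rw [← cm (0, 0, 1, 0, 0)]
    congr 1
    clear * -
    revert b c d
    decide)
  subst hb hc
  exact ⟨rfl, rfl, rfl, zz d h', he⟩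

theorem B1eq {x y : V5} (h : nf F x = nf F y) : x.1 = y.1 ∧ x.2.1 = y.2.1 ∧ x.2.2.1 = y.2.2.1 ∧
    x.2.2.2.1 = y.2.2.2.1 ∧ (x.2.2.2.2 = y.2.2.2.2 ∨ F.u1 = 1) := by
  have k : nf F (ml x (iv y)) = 1 := by rw [F.B1mul, F.B1inv, h, mul_inv_cancel]
  obtain ⟨h1, h2, h3, h4, h5⟩ := F.ind k
  have a : ∀ x y : V5, (ml x (iv y)).1 = 0 → (ml x (iv y)).2.1 = 0 → (ml x (iv y)).2.2.1 = 0 →
      (ml x (iv y)).2.2.2.1 = 0 →
      x.1 = y.1 ∧ x.2.1 = y.2.1 ∧ x.2.2.1 = y.2.2.1 ∧ x.2.2.2.1 = y.2.2.2.1 := by decide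
  have b : ∀ x y : V5, (ml x (iv y)).2.2.2.2 = 0 → x.2.2.2.2 = y.2.2.2.2 := by decide
  obtain ⟨a1, a2, a3, a4⟩ := a x y h1 h2 h3 h4
  exact ⟨a1, a2, a3, a4, h5.imp_left (b x y)⟩

theorem B1t : F.t = nf F (1, 0, 0, 0, 0) := by simp [nf]
theorem B1v1 : F.v1 = nf F (0, 1, 0, 0, 0) := by simp [nf]
theorem B1v2 : F.v2 = nf F (0, 0, 1, 0, 0) := by simp [nf]
theorem B1zz : F.z = nf F (0, 0, 0, 1, 0) := by simp [nf]
theorem B1u1 : F.u1 = nf F (0, 0, 0, 0, 1) := by simp [nf]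
theorem B1u2 : ∃ d : Fin 2, F.u2 = nf F (0, 0, 0, d, d) := by
  rcases F.hu with ⟨-, h⟩ | ⟨h, -⟩
  exacts [⟨0, by simp [nf, h]⟩, ⟨1, by simp [nf, h]⟩]

/-- The subgroup of the normal forms whose exponents vanish where `s` does. -/
theorem B1mem {S : Set G} (s : V5) (hs : s.2.2.2.1 = 1 := by rfl)
    (h1 : ∀ g ∈ S, ∃ a : V5, (a.1 ≤ s.1 ∧ a.2.1 ≤ s.2.1 ∧ a.2.2.1 ≤ s.2.2.1 ∧ a.2.2.2.2 ≤ s.2.2.2.2) ∧
      g = nf F a)
    (h2 : (s.1 = 0 ∨ F.t ∈ closure S) ∧ (s.2.1 = 0 ∨ F.v1 ∈ closure S) ∧ (s.2.2.1 = 0 ∨ F.v2 ∈ closure S) ∧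
      F.z ∈ closure S ∧ (s.2.2.2.2 = 0 ∨ F.u1 ∈ closure S)) {x : G} :
    x ∈ closure S ↔ ∃ a : V5, (a.1 ≤ s.1 ∧ a.2.1 ≤ s.2.1 ∧ a.2.2.1 ≤ s.2.2.1 ∧ a.2.2.2.2 ≤ s.2.2.2.2) ∧
      x = nf F a := by
  have := hs
  have q : ∀ a b c : Fin 2, a ≤ c → b ≤ c → a + b ≤ c := by decide
  constructor
  · intro hx
    induction hx using closure_induction with
    | mem g hg => exact h1 g hg
    | one => exact ⟨0, ⟨Fin.zero_le _, Fin.zero_le _, Fin.zero_le _, Fin.zero_le _⟩, F.B1one.symm⟩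
    | mul g k _ _ hg hk =>
      obtain ⟨a, ha, rfl⟩ := hg
      obtain ⟨b, hb, rfl⟩ := hk
      exact ⟨ml a b, ⟨q _ _ _ ha.1 hb.1, q _ _ _ ha.2.1 hb.2.1, q _ _ _ ha.2.2.1 hb.2.2.1,
        q _ _ _ ha.2.2.2 hb.2.2.2⟩, (F.B1mul a b).symm⟩
    | inv g _ hg =>
      obtain ⟨a, ha, rfl⟩ := hg
      exact ⟨iv a, ha, (F.B1inv a).symm⟩
  · rintro ⟨a, ha, rfl⟩
    have r : ∀ (g : G) (i j : Fin 2), i ≤ j → j = 0 ∨ g ∈ closure S → g ^ (i : ℕ) ∈ closure S := by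
      rintro g i j h (rfl | k)
      · obtain rfl : i = 0 := le_antisymm h (Fin.zero_le _)
        simp
      · exact pow_mem k _
    exact mul_mem (mul_mem (mul_mem (mul_mem (r _ _ _ ha.1 h2.1) (r _ _ _ ha.2.1 h2.2.1))
      (r _ _ _ ha.2.2.1 h2.2.2.1)) (pow_mem h2.2.2.2.1 _)) (r _ _ _ ha.2.2.2 h2.2.2.2.2)

theorem B1u {H : Subgroup G} (h1 : F.z ∈ H) (h2 : F.u2 ∈ H) : F.u1 ∈ H := by
  rcases F.hu with ⟨h, -⟩ | ⟨-, h, -⟩
  · exact h ▸ one_mem _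
  · exact h ▸ mul_mem h1 h2

theorem B1T {x : G} : x ∈ F.T ↔ ∃ a, x = nf F a := by
  obtain ⟨d, hd⟩ := F.B1u2
  have m1 : F.v1 ∈ F.T := subset_closure (by simp)
  have m2 : F.v2 ∈ F.T := subset_closure (by simp)
  refine (F.B1mem (1, 1, 1, 1, 1) rfl ?_ ⟨.inr (subset_closure (by simp)), .inr m1, .inr m2, F.B1z m1 m2,
    .inr (subset_closure (by simp))⟩).trans (exists_congr fun a => and_iff_right (by revert a; decide))
  rintro g (rfl | rfl | rfl | rfl | rfl)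
  exacts [⟨_, by decide, F.B1t⟩, ⟨_, by decide, F.B1v1⟩, ⟨_, by decide, F.B1v2⟩, ⟨_, by decide, F.B1u1⟩,
    ⟨_, by clear hd; revert d; decide, hd⟩]

theorem B1W1 {x : G} : x ∈ F.W1 ↔ ∃ a : V5, a.2.2.1 = 0 ∧ x = nf F a := by
  refine (F.B1mem (1, 1, 0, 1, 1) rfl ?_ ⟨.inr (subset_closure (by simp)), .inr (subset_closure (by simp)),
    .inl rfl, subset_closure (by simp), .inr (subset_closure (by simp))⟩).trans
    (exists_congr fun a => and_congr_left' (by revert a; decide))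
  rintro g (rfl | rfl | rfl | rfl)
  exacts [⟨_, by decide, F.B1t⟩, ⟨_, by decide, F.B1zz⟩, ⟨_, by decide, F.B1v1⟩, ⟨_, by decide, F.B1u1⟩]

theorem B1W2 {x : G} : x ∈ F.W2 ↔ ∃ a : V5, a.2.1 = 0 ∧ x = nf F a := by
  obtain ⟨d, hd⟩ := F.B1u2
  refine (F.B1mem (1, 0, 1, 1, 1) rfl ?_ ⟨.inr (subset_closure (by simp)), .inl rfl,
    .inr (subset_closure (by simp)), subset_closure (by simp),
    .inr (F.B1u (subset_closure (by simp)) (subset_closure (by simp)))⟩).trans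
    (exists_congr fun a => and_congr_left' (by revert a; decide))
  rintro g (rfl | rfl | rfl | rfl)
  exacts [⟨_, by decide, F.B1t⟩, ⟨_, by decide, F.B1zz⟩, ⟨_, by decide, F.B1v2⟩,
    ⟨_, by clear hd; revert d; decide, hd⟩]

theorem B1X1 {x : G} : x ∈ F.X1 ↔ ∃ a : V5, (a.1 = 0 ∧ a.2.2.1 = 0) ∧ x = nf F a := by
  refine (F.B1mem (0, 1, 0, 1, 1) rfl ?_ ⟨.inl rfl, .inr (subset_closure (by simp)),
    .inl rfl, subset_closure (by simp), .inr (subset_closure (by simp))⟩).trans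
    (exists_congr fun a => and_congr_left' (by revert a; decide))
  rintro g (rfl | rfl | rfl)
  exacts [⟨_, by decide, F.B1zz⟩, ⟨_, by decide, F.B1v1⟩, ⟨_, by decide, F.B1u1⟩]

theorem B1V1 {x : G} : x ∈ F.V1 ↔ ∃ a : V5, (a.1 = 0 ∧ a.2.2.1 = 0 ∧ a.2.2.2.2 = 0) ∧ x = nf F a := by
  refine (F.B1mem (0, 1, 0, 1, 0) rfl ?_ ⟨.inl rfl, .inr (subset_closure (by simp)),
    .inl rfl, subset_closure (by simp), .inl rfl⟩).trans
    (exists_congr fun a => and_congr_left' (by revert a; decide))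
  rintro g (rfl | rfl)
  exacts [⟨_, by decide, F.B1zz⟩, ⟨_, by decide, F.B1v1⟩]

theorem B1F0 {x : G} : x ∈ F.F0 ↔ ∃ a : V5, (a.1 = 0 ∧ a.2.1 = 0 ∧ a.2.2.1 = 0) ∧ x = nf F a := by
  obtain ⟨d, hd⟩ := F.B1u2
  refine (F.B1mem (0, 0, 0, 1, 1) rfl ?_ ⟨.inl rfl, .inl rfl,
    .inl rfl, subset_closure (by simp), .inr (subset_closure (by simp))⟩).trans
    (exists_congr fun a => and_congr_left' (by revert a; decide))
  rintro g (rfl | rfl | rfl)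
  exacts [⟨_, by decide, F.B1zz⟩, ⟨_, by decide, F.B1u1⟩, ⟨_, by clear hd; revert d; decide, hd⟩]

theorem B1ZT {x : G} : x ∈ F.ZT ↔ ∃ a : V5, (a.2.1 = 0 ∧ a.2.2.1 = 0) ∧ x = nf F a := by
  obtain ⟨d, hd⟩ := F.B1u2
  refine (F.B1mem (1, 0, 0, 1, 1) rfl ?_ ⟨.inr (subset_closure (by simp)), .inl rfl,
    .inl rfl, subset_closure (by simp), .inr (subset_closure (by simp))⟩).trans
    (exists_congr fun a => and_congr_left' (by revert a; decide))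
  rintro g (rfl | rfl | rfl | rfl)
  exacts [⟨_, by decide, F.B1t⟩, ⟨_, by decide, F.B1zz⟩, ⟨_, by decide, F.B1u1⟩,
    ⟨_, by clear hd; revert d; decide, hd⟩]

theorem memT {x : G} : x ∈ F.T ↔ ∃ a b c d e : Fin 2,
    x = F.t ^ (a : ℕ) * F.v1 ^ (b : ℕ) * F.v2 ^ (c : ℕ) * F.z ^ (d : ℕ) * F.u1 ^ (e : ℕ) :=
  F.B1T.trans ⟨fun ⟨a, h⟩ => ⟨_, _, _, _, _, h⟩, fun ⟨a, b, c, d, e, h⟩ => ⟨(a, b, c, d, e), h⟩⟩

theorem memW1 {x : G} : x ∈ F.W1 ↔ ∃ a b d e : Fin 2,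
    x = F.t ^ (a : ℕ) * F.v1 ^ (b : ℕ) * F.z ^ (d : ℕ) * F.u1 ^ (e : ℕ) := by
  refine F.B1W1.trans ⟨?_, fun ⟨a, b, d, e, h⟩ => ⟨(a, b, 0, d, e), rfl, by simp [nf, h]⟩⟩
  rintro ⟨⟨a, b, c, d, e⟩, rfl, rfl⟩
  exact ⟨a, b, d, e, by simp [nf]⟩

theorem memX1 {x : G} : x ∈ F.X1 ↔ ∃ b d e : Fin 2, x = F.v1 ^ (b : ℕ) * F.z ^ (d : ℕ) * F.u1 ^ (e : ℕ) := by
  refine F.B1X1.trans ⟨?_, fun ⟨b, d, e, h⟩ => ⟨(0, b, 0, d, e), ⟨rfl, rfl⟩, by simp [nf, h]⟩⟩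
  rintro ⟨⟨a, b, c, d, e⟩, ⟨rfl, rfl⟩, rfl⟩
  exact ⟨b, d, e, by simp [nf]⟩

theorem memV1 {x : G} : x ∈ F.V1 ↔ x = 1 ∨ x = F.z ∨ x = F.v1 ∨ x = F.z * F.v1 := by
  refine F.B1V1.trans ⟨?_, ?_⟩
  · rintro ⟨⟨a, b, c, d, e⟩, ⟨rfl, rfl, rfl⟩, rfl⟩
    fin_cases b <;> fin_cases d <;> simp [nf, F.zv1]
  · rintro (rfl | rfl | rfl | rfl)
    exacts [⟨0, by decide, F.B1one.symm⟩, ⟨_, by decide, F.B1zz⟩, ⟨_, by decide, F.B1v1⟩,
      ⟨(0, 1, 0, 1, 0), by decide, by simp [nf, F.zv1]⟩]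

theorem memF0 {x : G} : x ∈ F.F0 ↔ x = 1 ∨ x = F.z ∨ x = F.u1 ∨ x = F.z * F.u1 := by
  refine F.B1F0.trans ⟨?_, ?_⟩
  · rintro ⟨⟨a, b, c, d, e⟩, ⟨rfl, rfl, rfl⟩, rfl⟩
    fin_cases d <;> fin_cases e <;> simp [nf]
  · rintro (rfl | rfl | rfl | rfl)
    exacts [⟨0, by decide, F.B1one.symm⟩, ⟨_, by decide, F.B1zz⟩, ⟨_, by decide, F.B1u1⟩,
      ⟨(0, 0, 0, 1, 1), by decide, by simp [nf]⟩]

theorem B1tm {x : G} {a : V5} (h : F.t * x = nf F a) : x = nf F (ml (1, 0, 0, 0, 0) a) := by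
  rw [F.B1mul, ← F.B1t, ← h, ← mul_assoc, F.tt, one_mul]

theorem memZT {x : G} : x ∈ F.ZT ↔ x ∈ F.F0 ∨ F.t * x ∈ F.F0 := by
  rw [F.B1ZT, F.B1F0, F.B1F0]
  constructor
  · rintro ⟨a, h, rfl⟩
    by_cases k : a.1 = 0
    · exact .inl ⟨a, ⟨k, h⟩, rfl⟩
    · exact .inr ⟨ml (1, 0, 0, 0, 0) a, by revert a; decide, by rw [F.B1mul, ← F.B1t]⟩
  · rintro (⟨a, h, rfl⟩ | ⟨a, h, k⟩)
    · exact ⟨a, h.2, rfl⟩
    · exact ⟨_, by clear k; revert a; decide, F.B1tm k⟩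

theorem memW1' {x : G} : x ∈ F.W1 ↔ x ∈ F.X1 ∨ F.t * x ∈ F.X1 := by
  rw [F.B1W1, F.B1X1, F.B1X1]
  constructor
  · rintro ⟨a, h, rfl⟩
    by_cases k : a.1 = 0
    · exact .inl ⟨a, ⟨k, h⟩, rfl⟩
    · exact .inr ⟨ml (1, 0, 0, 0, 0) a, by revert a; decide, by rw [F.B1mul, ← F.B1t]⟩
  · rintro (⟨a, h, rfl⟩ | ⟨a, h, k⟩)
    · exact ⟨a, h.2, rfl⟩
    · exact ⟨_, by clear k; revert a; decide, F.B1tm k⟩

theorem T_eq : F.T = closure {F.t, F.v1, F.v2, F.u1} := by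
  refine le_antisymm ((closure_le _).2 ?_) (closure_mono (by simp [Set.insert_subset_iff]))
  have m1 : F.v1 ∈ closure ({F.t, F.v1, F.v2, F.u1} : Set G) := subset_closure (by simp)
  have m2 : F.v2 ∈ closure ({F.t, F.v1, F.v2, F.u1} : Set G) := subset_closure (by simp)
  have m3 : F.u1 ∈ closure ({F.t, F.v1, F.v2, F.u1} : Set G) := subset_closure (by simp)
  rintro g (rfl | rfl | rfl | rfl | rfl)
  exacts [subset_closure (by simp), m1, m2, m3, F.sw.B1u (F.B1z m1 m2) m3]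

theorem tX1 : F.t ∉ F.X1 := fun h => by
  obtain ⟨a, ⟨k, -⟩, e⟩ := F.B1X1.1 h
  have := (F.B1eq (F.B1t.symm.trans e)).1
  rw [k] at this
  exact absurd this (by decide)

theorem u2X1 : F.u2 ∈ F.X1 := F.sw.B1u (subset_closure (by simp [sw])) (subset_closure (by simp [sw]))

theorem F0X1 : F.F0 ≤ F.X1 := fun _ h =>
  let ⟨a, k, e⟩ := F.B1F0.1 h
  F.B1X1.2 ⟨a, ⟨k.1, k.2.2⟩, e⟩

theorem V1X1 : F.V1 ≤ F.X1 := fun _ h =>
  let ⟨a, k, e⟩ := F.B1V1.1 h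
  F.B1X1.2 ⟨a, ⟨k.1, k.2.1⟩, e⟩

theorem X1W1 : F.X1 ≤ F.W1 := fun _ h => F.memW1'.2 (.inl h)

theorem ZTW1 : F.ZT ≤ F.W1 := fun _ h =>
  let ⟨a, k, e⟩ := F.B1ZT.1 h
  F.B1W1.2 ⟨a, k.2, e⟩

theorem W1T : F.W1 ≤ F.T := fun _ h =>
  let ⟨a, _, e⟩ := F.B1W1.1 h
  F.B1T.2 ⟨a, e⟩

theorem sqW1 {x : G} (h : x ∈ F.W1) : x * x = 1 := by
  obtain ⟨a, k, rfl⟩ := F.B1W1.1 h
  rw [← F.B1mul, show ml a a = 0 by clear h; revert a; decide, F.B1one]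

theorem B1card {H : Subgroup G} (p : V5 → Prop) [DecidablePred p] (hp : ∀ a, p a → p (a.1, a.2.1, a.2.2.1, a.2.2.2.1, 0))
    (h : ∀ {x}, x ∈ H ↔ ∃ a, p a ∧ x = nf F a) :
    (F.u1 = 1 → Nat.card H = (Finset.univ.filter fun a => p a ∧ a.2.2.2.2 = 0).card) ∧
      (F.u1 ≠ 1 → Nat.card H = (Finset.univ.filter p).card) := by
  constructor
  · intro hu
    have : (H : Set G) = nf F '' (Finset.univ.filter fun a => p a ∧ a.2.2.2.2 = 0 : Finset V5) := by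
      ext x
      simp only [SetLike.mem_coe, h, Set.mem_image, Finset.coe_filter, Finset.mem_univ, true_and,
        Set.mem_ofPred_eq]
      exact ⟨fun ⟨a, k, e⟩ => ⟨_, ⟨hp a k, rfl⟩, by simp [e, nf, hu]⟩, fun ⟨a, k, e⟩ => ⟨a, k.1, e.symm⟩⟩
    rw [← SetLike.coe_sort_coe, Nat.card_coe_set_eq, this, Set.InjOn.ncard_image, Set.ncard_coe_finset]
    intro a ha b hb e
    obtain ⟨e1, e2, e3, e4, -⟩ := F.B1eq e
    simp only [Finset.coe_filter, Finset.mem_univ, true_and, Set.mem_ofPred_eq] at ha hb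
    exact Prod.ext e1 (Prod.ext e2 (Prod.ext e3 (Prod.ext e4 (ha.2.trans hb.2.symm))))
  · intro hu
    have : (H : Set G) = nf F '' (Finset.univ.filter p : Finset V5) := by
      ext x
      simp only [SetLike.mem_coe, h, Set.mem_image, Finset.coe_filter, Finset.mem_univ, true_and,
        Set.mem_ofPred_eq]
      exact ⟨fun ⟨a, k, e⟩ => ⟨a, k, e.symm⟩, fun ⟨a, k, e⟩ => ⟨a, k, e.symm⟩⟩
    rw [← SetLike.coe_sort_coe, Nat.card_coe_set_eq, this, Set.InjOn.ncard_image, Set.ncard_coe_finset]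
    intro a _ b _ e
    obtain ⟨e1, e2, e3, e4, e5⟩ := F.B1eq e
    exact Prod.ext e1 (Prod.ext e2 (Prod.ext e3 (Prod.ext e4 (e5.resolve_right hu))))

theorem cardF0 : (F.u1 = 1 ∧ Nat.card F.F0 = 2) ∨ (F.u1 ≠ 1 ∧ Nat.card F.F0 = 4) := by
  have := F.B1card _ (by decide) F.B1F0
  by_cases h : F.u1 = 1
  exacts [.inl ⟨h, (this.1 h).trans (by decide)⟩, .inr ⟨h, (this.2 h).trans (by decide)⟩]

theorem cardX1 : Nat.card F.X1 = 2 * Nat.card F.F0 := by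
  have := F.B1card _ (by decide) F.B1X1
  rcases F.cardF0 with ⟨h, k⟩ | ⟨h, k⟩ <;> rw [k]
  exacts [(this.1 h).trans (by decide), (this.2 h).trans (by decide)]

theorem cardW1 : Nat.card F.W1 = 4 * Nat.card F.F0 := by
  have := F.B1card _ (by decide) F.B1W1
  rcases F.cardF0 with ⟨h, k⟩ | ⟨h, k⟩ <;> rw [k]
  exacts [(this.1 h).trans (by decide), (this.2 h).trans (by decide)]

theorem cardT : Nat.card F.T = 8 * Nat.card F.F0 := by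
  have := F.B1card (H := F.T) (fun _ => True) (by decide) (F.B1T.trans (by simp))
  rcases F.cardF0 with ⟨h, k⟩ | ⟨h, k⟩ <;> rw [k]
  exacts [(this.1 h).trans (by decide), (this.2 h).trans (by decide)]

theorem B1cm {a b : V5} : nf F a * nf F b = nf F b * nf F a ↔ a.2.2.1 * b.2.1 = b.2.2.1 * a.2.1 := by
  rw [← F.B1mul, ← F.B1mul]
  constructor
  · intro h
    have := (F.B1eq h).2.2.2.1
    clear h
    revert a b
    decide
  · intro h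
    rw [show ml a b = ml b a by revert a b; decide]

theorem cenT {x : G} (h : x ∈ F.T) : x ∈ 𝐂(F.T) ↔ x ∈ F.ZT := by
  obtain ⟨a, rfl⟩ := F.B1T.1 h
  rw [mem_centralizer_iff_commute]
  constructor
  · intro k
    have k1 := F.B1cm.1 (k _ (F.B1T.2 ⟨(0, 1, 0, 0, 0), rfl⟩))
    have k2 := F.B1cm.1 (k _ (F.B1T.2 ⟨(0, 0, 1, 0, 0), rfl⟩))
    exact F.B1ZT.2 ⟨a, by clear k h; revert a; decide, rfl⟩
  · intro k y hy
    obtain ⟨b, rfl⟩ := F.B1T.1 hy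
    obtain ⟨c, hc, e⟩ := F.B1ZT.1 k
    rw [e, F.B1cm, hc.1, hc.2, mul_zero, zero_mul]

theorem cenv1 {x : G} (h : x ∈ F.T) : x * F.v1 = F.v1 * x ↔ x ∈ F.W1 := by
  obtain ⟨a, rfl⟩ := F.B1T.1 h
  rw [F.B1v1, F.B1cm]
  constructor
  · intro k
    exact F.B1W1.2 ⟨a, by clear h; revert a; decide, rfl⟩
  · intro k
    obtain ⟨c, hc, e⟩ := F.B1W1.1 k
    rw [(F.B1eq e).2.2.1, hc]
    simp

theorem invT {x : G} (h : x ∈ F.T) (h2 : x * x = 1) : x ∈ F.W1 ∨ x ∈ F.W2 := by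
  obtain ⟨a, rfl⟩ := F.B1T.1 h
  rw [← F.B1mul, ← F.B1one] at h2
  have k := (F.B1eq h2).2.2.2.1
  have : a.2.2.1 = 0 ∨ a.2.1 = 0 := by clear h h2; revert a; decide
  exact this.imp (fun e => F.B1W1.2 ⟨a, e, rfl⟩) fun e => F.B1W2.2 ⟨a, e, rfl⟩

theorem sqT {x : G} (h : x ∈ F.T) : x * x = 1 ∨ x * x = F.z := by
  obtain ⟨a, rfl⟩ := F.B1T.1 h
  rw [← F.B1mul, ← F.B1one, F.B1zz]
  have : ml a a = 0 ∨ ml a a = (0, 0, 0, 1, 0) := by clear h; revert a; decide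
  exact this.imp (congrArg _) (congrArg _)

theorem TN1 : F.T ≤ 𝐍(F.W1) := le_normalizer_of_cj_le fun g hg x hx => by
  obtain ⟨y, hy, rfl⟩ := mem_cj'.1 hx
  obtain ⟨a, rfl⟩ := F.B1T.1 hg
  obtain ⟨b, hb, rfl⟩ := F.B1W1.1 hy
  rw [← F.B1inv, ← F.B1mul, ← F.B1mul]
  exact F.B1W1.2 ⟨_, by clear hg hx hy; revert a b; decide, rfl⟩

theorem y1N : F.y1 ∈ 𝐍(F.W1) := by
  refine mem_normalizer_of_cj_le ?_
  rw [W1, MonoidHom.map_closure, closure_le]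
  have m1 : F.z ∈ F.W1 := subset_closure (by simp)
  have m2 : F.v1 ∈ F.W1 := subset_closure (by simp)
  rintro _ ⟨g, rfl | rfl | rfl | rfl, rfl⟩ <;> change F.y1 * _ * F.y1⁻¹ ∈ F.W1
  · rw [F.y1t, mul_inv_cancel_right]; exact subset_closure (by simp)
  · rw [F.y1z]; exact m2
  · rw [F.y1v]; exact mul_mem m1 m2
  · rw [F.y1u, mul_inv_cancel_right]; exact subset_closure (by simp)

theorem B1y (a : V5) (h : a.2.2.1 = 0) :
    F.y1 * nf F a * F.y1⁻¹ = nf F (a.1, a.2.1 + a.2.2.2.1, 0, a.2.1, a.2.2.2.2) := by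
  obtain ⟨a, b, c, d, e⟩ := a
  obtain rfl : c = 0 := h
  have k : ∀ x y, (MulAut.conj F.y1) x = y ↔ F.y1 * x * F.y1⁻¹ = y := fun _ _ => Iff.rfl
  rw [← k]
  simp only [nf, map_mul, map_pow]
  rw [(k _ _).2 F.y1z, (k _ _).2 F.y1v, (k F.t F.t).2 (by rw [F.y1t, mul_inv_cancel_right]),
    (k F.u1 F.u1).2 (by rw [F.y1u, mul_inv_cancel_right])]
  congr 1
  rw [mul_assoc, mul_assoc, mul_assoc, mul_assoc]
  congr 1
  fin_cases b <;> fin_cases d <;> simp [F.zv1]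
  rw [← F.zv1, mul_assoc, F.v11, mul_one]

theorem toZT {x : G} (h : x ∈ F.W1) : ∃ i : ℕ, F.y1 ^ i * x * (F.y1 ^ i)⁻¹ ∈ F.ZT := by
  obtain ⟨a, k, rfl⟩ := F.B1W1.1 h
  by_cases h1 : a.2.1 = 0
  · exact ⟨0, by simpa using F.B1ZT.2 ⟨a, ⟨h1, k⟩, rfl⟩⟩
  by_cases h2 : a.2.2.2.1 = 1
  · refine ⟨1, ?_⟩
    rw [pow_one, F.B1y a k]
    exact F.B1ZT.2 ⟨_, by clear h; revert a; decide, rfl⟩
  · refine ⟨2, ?_⟩
    rw [show F.y1 ^ 2 * nf F a * (F.y1 ^ 2)⁻¹ = F.y1 * (F.y1 * nf F a * F.y1⁻¹) * F.y1⁻¹ by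
      rw [pow_two]; group, F.B1y a k, F.B1y _ rfl]
    exact F.B1ZT.2 ⟨_, by clear h; revert a; decide, rfl⟩

theorem eaT {X : Subgroup G} (hX : X ≤ F.T) (h2 : ∀ x ∈ X, x * x = 1) : X ≤ F.W1 ∨ X ≤ F.W2 := by
  by_contra k
  rw [not_or, SetLike.not_le_iff_exists, SetLike.not_le_iff_exists] at k
  obtain ⟨⟨x, hx, x1⟩, y, hy, y2⟩ := k
  obtain ⟨a, ha, rfl⟩ := F.B1W2.1 ((F.invT (hX hx) (h2 x hx)).resolve_left x1)
  obtain ⟨b, hb, rfl⟩ := F.B1W1.1 ((F.invT (hX hy) (h2 y hy)).resolve_right y2)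
  have ha' : a.2.2.1 ≠ 0 := fun e => x1 (F.B1W1.2 ⟨a, e, rfl⟩)
  have hb' : b.2.1 ≠ 0 := fun e => y2 (F.B1W2.2 ⟨b, e, rfl⟩)
  have := F.B1cm.1 (comm_of_sq h2 hx hy)
  clear hx hy x1 y2
  revert a b
  decide

theorem B1q (a : G) : haveI := F.En
    (a : G ⧸ F.E) = 1 ∨ (a : G ⧸ F.E) = F.t := by
  haveI := F.En
  refine (F.top a).imp (QuotientGroup.eq_one_iff _).2 fun h => ?_
  have := (QuotientGroup.eq_one_iff _).2 h
  rw [QuotientGroup.mk_mul, mul_eq_one_iff_eq_inv, ← QuotientGroup.mk_inv, iv' F.tt] at this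
  exact this

theorem comm_mem (a b : G) : a * b * a⁻¹ * b⁻¹ ∈ F.E := by
  haveI := F.En
  rw [← QuotientGroup.eq_one_iff]
  simp only [QuotientGroup.mk_mul, QuotientGroup.mk_inv]
  rcases F.B1q a with h | h <;> rcases F.B1q b with k | k <;> rw [h, k] <;> group

theorem sq_mem (a : G) : a * a ∈ F.E := by
  haveI := F.En
  rw [← QuotientGroup.eq_one_iff, QuotientGroup.mk_mul]
  rcases F.B1q a with h | h <;> rw [h]
  · exact one_mul _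
  · rw [← QuotientGroup.mk_mul, F.tt, QuotientGroup.mk_one]

theorem odd_mem {a : G} {n : ℕ} (hn : Odd n) (h : a ^ n ∈ F.E) : a ∈ F.E := by
  obtain ⟨k, rfl⟩ := hn
  rw [pow_succ, pow_mul, pow_two] at h
  exact (F.E.mul_mem_cancel_left (pow_mem (F.sq_mem a) k)).1 h

theorem ncE : ¬ F.E ≤ 𝐂(F.E) := fun h =>
  F.B1nc (mem_centralizer_iff_commute.1 (h F.v2E) _ F.v1E)

end Fr

end H25.A6
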