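import Mathlib
import Cfsg.Agent.Lib.A6S.Bas1

/-! Consequences of Sylow theory (side 1; use `F.sw` for side 2). -/

set_option autoImplicit false
set_option linter.unusedSectionVars false

namespace H25.A6

open Subgroup H69 H36.SW

variable {G : Type*} [Group G] [Finite G]

namespace B2

theorem norm_gen {s : Set G} {g : G} (h : ∀ x ∈ s, g * x * g⁻¹ ∈ closure s) : g ∈ 𝐍(closure s) :=
  mem_normalizer_of_cj_le (by
    rw [MonoidHom.map_closure, closure_le]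
    rintro _ ⟨x, hx, rfl⟩
    exact h x hx)

omit [Finite G] in
theorem cent_gen {s : Set G} {g : G} (h : ∀ x ∈ s, x * g = g * x) : g ∈ 𝐂(closure s) := by
  rw [centralizer_closure]; exact h

omit [Finite G] in
theorem cj_of_comm {g x : G} (h : g * x = x * g) : g * x * g⁻¹ = x := by rw [h, mul_inv_cancel_right]

omit [Finite G] in
theorem comm_of_cj {g x : G} (h : g * x * g⁻¹ = x) : g * x = x * g := mul_inv_eq_iff_eq_mul.1 h

omit [Finite G] in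
theorem cj_mul (g a b : G) : g * (a * b) * g⁻¹ = g * a * g⁻¹ * (g * b * g⁻¹) := by group

omit [Finite G] in
theorem cj_inj' {g a b : G} (h : g * a * g⁻¹ = g * b * g⁻¹) : a = b := mul_left_cancel (mul_right_cancel h)

omit [Finite G] in
theorem comm_cj {y x : G} (g : G) (h : y * x = x * y) :
    g * y * g⁻¹ * (g * x * g⁻¹) = g * x * g⁻¹ * (g * y * g⁻¹) := by rw [← cj_mul, h, cj_mul]

omit [Finite G] in
theorem odd_cj {o : G} (h : Odd (orderOf o)) (g : G) : Odd (orderOf (g * o * g⁻¹)) := by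
  rwa [← MulAut.conj_apply, MulEquiv.orderOf_eq]

omit [Finite G] in
theorem odd_comm {o v : G} (ho : Odd (orderOf o)) (h : o * o * v = v * (o * o)) : o * v = v * o := by
  obtain ⟨n, hn⟩ := ho
  have e : (o * o) ^ (n + 1) = o := by
    rw [← pow_two, ← pow_mul, show 2 * (n + 1) = orderOf o + 1 by omega, pow_succ, pow_orderOf_eq_one, one_mul]
  have := (Commute.pow_left (show Commute (o * o) v from h) (n + 1)).eq
  rwa [e] at this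

theorem split (g : G) : ∃ m : ℕ, P2 (g ^ m) ∧ Odd (orderOf ((g ^ m)⁻¹ * g)) := by
  obtain ⟨a, n, hn, e⟩ := Nat.exists_eq_pow_mul_and_not_dvd (orderOf_pos g).ne' 2 (by decide)
  obtain ⟨m, K, h1, h2⟩ := exists_ppart g Nat.prime_two a
  refine ⟨m, ⟨K, h2⟩, Odd.of_dvd_nat (Nat.odd_iff.2 (by omega) : Odd n) (orderOf_dvd_of_pow_eq_one ?_)⟩
  rw [((Commute.refl g).pow_left m).inv_left.mul_pow, inv_pow, ← pow_mul, inv_mul_eq_one,
    pow_eq_pow_iff_modEq, e]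
  simpa using h1.mul_right' n

omit [Finite G] in
theorem norm_cj {A B : Subgroup G} {g y : G} (e : A ^ᶜ g = B) (h : y ∈ 𝐍(A)) : g * y * g⁻¹ ∈ 𝐍(B) := by
  rw [← e, ← cj_normalizer]; exact cj_mem g h

end B2

open B2

namespace Fr
variable (F : Fr G)

theorem sylTD : IsSylowIn 2 F.TD (centralizer {F.t}) := F.syl

theorem TTD : F.T ≤ F.TD := closure_mono (by simp [Set.insert_subset_iff])

theorem dlTD : F.dl ∈ F.TD := subset_closure (by simp)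

theorem TC : F.T ≤ centralizer {F.t} := F.TTD.trans F.sylTD.le

theorem isPT : IsPGroup 2 F.T := F.syl.isP.to_le F.TTD

theorem om_t : F.Om F.t := ⟨1, by simp⟩

theorem Om.cj {F : Fr G} {s : G} (h : F.Om s) (g : G) : F.Om (g * s * g⁻¹) := by
  obtain ⟨k, rfl⟩ := h
  exact ⟨g * k, by group⟩

theorem Om.of_cj {F : Fr G} {s : G} (g : G) (h : F.Om (g * s * g⁻¹)) : F.Om s := by
  have := h.cj g⁻¹
  rwa [show g⁻¹ * (g * s * g⁻¹) * g⁻¹⁻¹ = s by group] at this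

theorem Om.sq {F : Fr G} {s : G} (h : F.Om s) : s * s = 1 ∧ s ≠ 1 := by
  obtain ⟨k, rfl⟩ := h
  exact ⟨cjsq F.tt k, cjne F.t1 k⟩

theorem b2_zV : F.z ∈ F.V1 := subset_closure (by simp)
theorem b2_vV : F.v1 ∈ F.V1 := subset_closure (by simp)
theorem b2_uX : F.u1 ∈ F.X1 := subset_closure (by simp)
theorem b2_tW : F.t ∈ F.W1 := subset_closure (by simp)
theorem b2_zX : F.z ∈ F.X1 := F.V1X1 F.b2_zV
theorem b2_vX : F.v1 ∈ F.X1 := F.V1X1 F.b2_vV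
theorem b2_vW : F.v1 ∈ F.W1 := F.X1W1 F.b2_vX
theorem b2_v1T : F.v1 ∈ F.T := F.W1T F.b2_vW
theorem b2_W2T : F.W2 ≤ F.T := F.sw_T ▸ F.sw.W1T
theorem b2_v2T : F.v2 ∈ F.T := F.b2_W2T F.sw.b2_vW
theorem b2_tZ : F.t ∈ F.ZT := subset_closure (by simp)
theorem b2_zZ : F.z ∈ F.ZT := subset_closure (by simp)
theorem b2_uZ : F.u1 ∈ F.ZT := subset_closure (by simp)
theorem b2_card : Nat.card F.W2 = Nat.card F.W1 := by
  have := F.sw.cardW1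
  rw [F.sw_F0, F.sw_W1] at this
  rw [this, F.cardW1]
theorem b2_v1 : F.v1 ≠ 1 := F.y1z ▸ cjne F.z1 F.y1
theorem b2_vz : F.v1 ≠ F.z := fun e => F.y1nz (comm_of_cj (F.y1z.trans e))
theorem b2_tt (x : G) : F.t * (F.t * x) = x := by rw [← mul_assoc, F.tt, one_mul]
theorem b2_zz (x : G) : F.z * (F.z * x) = x := by rw [← mul_assoc, F.zz, one_mul]
theorem b2_v2i : F.v2⁻¹ = F.v2 := inv_eq_of_mul_eq_one_right F.v22
theorem b2_v2v : F.v2 * F.v1 * F.v2⁻¹ = F.z * F.v1 := by rw [F.b2_v2i]; exact F.sw.v121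

theorem b2_uT : F.u1 ∈ F.T := F.W1T (F.X1W1 F.b2_uX)
theorem b2_u2T : F.u2 ∈ F.T := F.W1T (F.X1W1 F.u2X1)
theorem b2_tT : F.t ∈ F.T := F.W1T F.b2_tW
theorem card16 : Nat.card F.W1 = 16 := by rw [F.cardW1, (F.cardF0.resolve_left fun e => F.hu1 e.1).2]
theorem card32 : Nat.card F.T = 32 := by rw [F.cardT, (F.cardF0.resolve_left fun e => F.hu1 e.1).2]

theorem dlz : F.dl * F.z * F.dl⁻¹ = F.z := by
  rcases F.hdl with e | ⟨a, b, -⟩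
  · simp [e]
  · conv_lhs => rw [← F.hz]
    rw [cj_mul, cj_mul, cj_mul, a, b, F.hz']

theorem dlT : F.dl ∈ 𝐍(F.T) := norm_gen (by
  rcases F.hdl with e | ⟨a, b, c, d, -⟩
  · intro x hx
    simpa [e] using subset_closure hx
  · rintro x (rfl | rfl | rfl | rfl | rfl)
    · rw [cj_of_comm F.dlt]; exact F.b2_tT
    · rw [a]; exact F.b2_v2T
    · rw [b]; exact F.b2_v1T
    · rw [c]; exact F.b2_u2T
    · rw [d]; exact F.b2_uT)

theorem dl2 : F.dl * F.dl ∈ F.T := by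
  rcases F.hdl with e | ⟨-, -, -, -, e | e⟩ <;> rw [e]
  exacts [by simp, one_mem _, F.b2_tT]

theorem TD_eq : F.TD = F.T ⊔ zpowers F.dl := le_antisymm ((closure_le _).2 (by
    rintro x (rfl | rfl | rfl | rfl | rfl | rfl)
    exacts [mem_sup_left F.b2_tT, mem_sup_left F.b2_v1T, mem_sup_left F.b2_v2T, mem_sup_left F.b2_uT,
      mem_sup_left F.b2_u2T, mem_sup_right (mem_zpowers _)]))
  (sup_le F.TTD (zpowers_le.2 F.dlTD))

theorem memTD {x : G} (h : x ∈ F.TD) : x ∈ F.T ∨ (F.dl ≠ 1 ∧ ∃ τ ∈ F.T, x = F.dl * τ) := by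
  by_cases e : F.dl = 1
  · rw [F.TD_eq, e] at h
    exact .inl (by simpa using h)
  rw [F.TD_eq] at h
  exact ((mem_adj F.dlT F.dl2).1 h).imp_right fun k =>
    ⟨e, _, conj_mem_of_mem_normalizer' F.dlT k, by group⟩

theorem TDN : F.TD ≤ 𝐍(F.T) := F.TD_eq ▸ sup_le le_normalizer (zpowers_le.2 F.dlT)

theorem dlnT (h : F.dl ≠ 1) : F.dl ∉ F.T := fun k => F.nd h 1 (by simp) 1 (one_mem _) (by rw [mul_one, one_mul, inv_one, mul_one]; exact k)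

theorem cardTD (h : F.dl ≠ 1) : Nat.card F.TD = 64 := by
  rw [F.TD_eq, card_adj F.dlT F.dl2 (F.dlnT h), F.card32]

theorem TD1 (h : F.dl = 1) : F.TD = F.T := by rw [F.TD_eq, h]; simp

theorem cardTD_le : Nat.card F.TD ≤ 64 := by
  by_cases h : F.dl = 1
  · rw [F.TD1 h, F.card32]; decide
  · rw [F.cardTD h]

theorem dlW (h : F.dl ≠ 1) : F.W1 ^ᶜ F.dl = F.W2 := by
  obtain ⟨a, -, c, -⟩ := F.hdl.resolve_left h
  refine eq_of_le_of_card_ge ?_ (by rw [card_cj, F.b2_card])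
  rw [W1, MonoidHom.map_closure, closure_le]
  rintro _ ⟨x, hx, rfl⟩
  change F.dl * x * F.dl⁻¹ ∈ F.W2
  rcases hx with rfl | rfl | rfl | rfl
  · rw [cj_of_comm F.dlt]; exact F.sw.b2_tW
  · rw [F.dlz]; exact F.sw.X1W1 F.sw.b2_zX
  · rw [a]; exact F.sw.b2_vW
  · rw [c]; exact F.sw.X1W1 F.sw.b2_uX

theorem W1ne : F.W1 ≠ F.W2 := fun e =>
  F.B1nc (comm_of_sq (fun _ => F.sqW1) F.b2_vW (e ▸ F.sw.b2_vW : F.v2 ∈ F.W1))

/-- an element of `dl T` swaps `W1` and `W2` -/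
theorem swW (h : F.dl ≠ 1) {τ : G} (hτ : τ ∈ F.T) : F.W1 ^ᶜ (F.dl * τ) = F.W2 ∧ F.W2 ^ᶜ (F.dl * τ) = F.W1 :=
  ⟨by rw [← cj_cj, cj_eq_of_mem_normalizer (F.TN1 hτ), F.dlW h],
    by rw [← cj_cj, show F.W2 ^ᶜ τ = F.W2 from cj_eq_of_mem_normalizer (F.sw.TN1 (F.sw_T ▸ hτ))]; exact F.sw.dlW h⟩

theorem TDW {x : G} (h : x ∈ F.TD) (hn : x ∈ 𝐍(F.W1) ∨ x ∈ 𝐍(F.W2)) : x ∈ F.T :=
  (F.memTD h).resolve_right fun ⟨d, τ, hτ, e⟩ => F.W1ne (by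
    subst e
    rcases hn with k | k
    · rw [← (F.swW d hτ).1, cj_eq_of_mem_normalizer k]
    · rw [← (F.swW d hτ).2, cj_eq_of_mem_normalizer k])

/-- an element of `T` that commutes with an element of `dl T` and lies in `W1` or `W2` lies in `⟨t, z⟩` -/
theorem cenD (d : F.dl ≠ 1) {τ w : G} (hτ : τ ∈ F.T) (hw : w ∈ F.W1) (c : F.dl * τ * w = w * (F.dl * τ)) :
    w ∈ closure ({F.t, F.z} : Set G) := by
  have w2 : w ∈ F.W2 := (F.swW d hτ).1 ▸ (cj_of_comm c) ▸ cj_mem _ hw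
  have wZ : w ∈ F.ZT := (F.cenT (F.W1T hw)).1 (by
    rw [F.T_eq]
    refine cent_gen ?_
    rintro x (rfl | rfl | rfl | rfl)
    exacts [comm_of_sq (fun _ => F.sqW1) F.b2_tW hw, comm_of_sq (fun _ => F.sqW1) F.b2_vW hw,
      comm_of_sq (fun _ => F.sw.sqW1) F.sw.b2_vW w2, comm_of_sq (fun _ => F.sqW1) (F.X1W1 F.b2_uX) hw])
  have k : ∀ x ∈ F.ZT, F.dl * τ * x * (F.dl * τ)⁻¹ = F.dl * x * F.dl⁻¹ := fun x hx => by
    have := mem_centralizer_iff_commute.1 ((F.cenT (F.W1T (F.ZTW1 hx))).2 hx) τ hτ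
    rw [show F.dl * τ * x * (F.dl * τ)⁻¹ = F.dl * (τ * x * τ⁻¹) * F.dl⁻¹ by group, cj_of_comm this]
  have c' := (k w wZ).symm.trans (cj_of_comm c)
  obtain ⟨-, -, du, -⟩ := F.hdl.resolve_left d
  have mt : F.t ∈ closure ({F.t, F.z} : Set G) := subset_closure (by simp)
  have mz : F.z ∈ closure ({F.t, F.z} : Set G) := subset_closure (by simp)
  have n : ∀ a, F.dl * a * F.dl⁻¹ = a → F.dl * (a * F.u1) * F.dl⁻¹ ≠ a * F.u1 := fun a ha e => F.z1 (by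
    rw [cj_mul, ha, du, F.u2_eq F.hu1] at e
    simpa using e)
  have f : ∀ x ∈ F.F0, F.dl * x * F.dl⁻¹ = x → x ∈ closure ({F.t, F.z} : Set G) := fun x hx e => by
    rcases F.memF0.1 hx with rfl | rfl | rfl | rfl
    exacts [one_mem _, mz, (n 1 (by simp) (by simpa using e)).elim, (n _ F.dlz e).elim]
  rcases F.memZT.1 wZ with m | m
  · exact f w m c'
  · exact (mul_mem_cancel_left mt).1 (f _ m (by rw [cj_mul, c', cj_of_comm F.dlt]))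

theorem card_tz : Nat.card (closure ({F.t, F.z} : Set G)) ≤ 4 := by
  classical
  have : (closure ({F.t, F.z} : Set G) : Set G) ⊆ ({1, F.t, F.z, F.t * F.z} : Finset G) := fun x hx => by
    induction hx using closure_induction with
    | mem x hx => rcases hx with rfl | rfl <;> simp
    | one => simp
    | mul x y _ _ hx hy =>
      have e1 : F.z * (F.t * F.z) = F.t := by rw [← mul_assoc, F.zt, mul_assoc, F.zz, mul_one]
      have e2 : F.t * F.z * F.t = F.z := by rw [← F.zt, mul_assoc, F.tt, mul_one]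
      have e3 : F.t * F.z * F.z = F.t := by rw [mul_assoc, F.zz, mul_one]
      have e4 : F.t * F.z * (F.t * F.z) = 1 := by rw [← mul_assoc, e2, F.zz]
      simp only [Finset.coe_insert, Finset.coe_singleton, Set.mem_insert_iff, Set.mem_singleton_iff] at hx hy ⊢
      rcases hx with rfl | rfl | rfl | rfl <;> rcases hy with rfl | rfl | rfl | rfl <;>
        simp [F.tt, F.zz, F.zt, F.b2_tt, e1, e2, e3, e4]
    | inv x _ hx =>
      simp only [Finset.coe_insert, Finset.coe_singleton, Set.mem_insert_iff, Set.mem_singleton_iff] at hx ⊢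
      rcases hx with rfl | rfl | rfl | rfl
      · simp
      · simp [inv_eq_of_mul_eq_one_right F.tt]
      · simp [inv_eq_of_mul_eq_one_right F.zz]
      · simp [inv_eq_of_mul_eq_one_right F.tt, inv_eq_of_mul_eq_one_right F.zz, F.zt]
  refine (Set.ncard_le_ncard this (Finset.finite_toSet _)).trans ?_
  rw [Set.ncard_coe_finset]
  exact Finset.card_le_four

/-- the elementary abelian subgroups of `TD` -/
theorem eaTD {X : Subgroup G} (hX : X ≤ F.TD) (h2 : ∀ x ∈ X, x * x = 1) :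
    X ≤ F.W1 ∨ X ≤ F.W2 ∨ Nat.card X ≤ 8 := by
  by_cases h : X ≤ F.T
  · exact (F.eaT h h2).imp_right .inl
  obtain ⟨x, hx, xT⟩ := SetLike.not_le_iff_exists.1 h
  obtain ⟨d, τ, hτ, rfl⟩ := (F.memTD (hX hx)).resolve_left xT
  have le : X ⊓ F.T ≤ closure ({F.t, F.z} : Set G) := fun w hw => by
    rcases F.invT hw.2 (h2 w hw.1) with m | m
    · exact F.cenD d hτ m (comm_of_sq h2 hx hw.1)
    · exact F.sw.cenD d (F.sw_T ▸ hτ) m (comm_of_sq h2 hx hw.1)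
  have n : F.dl * τ ∈ 𝐍(X ⊓ F.T) := le_normalizer_inf le_normalizer (le_trans hX F.TDN) hx
  have le2 : X ≤ (X ⊓ F.T) ⊔ zpowers (F.dl * τ) := fun y hy => by
    refine (mem_adj n (h2 _ hx ▸ one_mem _)).2 ?_
    rcases F.memTD (hX hy) with m | ⟨-, τ', hτ', rfl⟩
    · exact .inl ⟨hy, m⟩
    · refine .inr ⟨X.mul_mem hy (X.inv_mem hx), ?_⟩
      have := conj_mem_of_mem_normalizer F.dlT (mul_mem hτ' (inv_mem hτ))
      rwa [show F.dl * (τ' * τ⁻¹) * F.dl⁻¹ = F.dl * τ' * (F.dl * τ)⁻¹ by group] at this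
  refine .inr (.inr ((card_le_of_le le2).trans ?_))
  rw [card_adj n (h2 _ hx ▸ one_mem _) fun k => xT k.2]
  have := (card_le_of_le le).trans F.card_tz
  omega

theorem b2_into {s : G} (h : F.Om s) {P : Subgroup G} (hP : IsPGroup 2 P) (hs : P ≤ centralizer {s}) :
    ∃ k, k * F.t * k⁻¹ = s ∧ P ^ᶜ k⁻¹ ≤ F.TD := by
  obtain ⟨g, rfl⟩ := h
  rw [← cj_centralizer_singleton, le_cj_iff] at hs
  obtain ⟨c, hc, e⟩ := F.sylTD.exists_cj_le (isPGroup_cj hP _) hs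
  refine ⟨g * c⁻¹, ?_, by rwa [mul_inv_rev, inv_inv, ← cj_cj]⟩
  have := cj_of_comm (mem_centralizer_singleton_iff.1 (inv_mem hc))
  conv_rhs => rw [← this]
  group

theorem two_le' {s : G} (h : F.Om s) {P : Subgroup G} (hP : IsPGroup 2 P) (hs : P ≤ centralizer {s}) :
    Nat.card P ≤ Nat.card F.TD := by
  obtain ⟨k, -, e⟩ := F.b2_into h hP hs
  rw [← card_cj P k⁻¹]
  exact card_le_of_le e

theorem two_le {s : G} (h : F.Om s) {P : Subgroup G} (hP : IsPGroup 2 P) (hs : P ≤ centralizer {s}) :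
    Nat.card P ≤ 64 := (F.two_le' h hP hs).trans F.cardTD_le

theorem b2_ea {X : Subgroup G} (h2 : ∀ x ∈ X, x * x = 1) {k : G} (e : X ^ᶜ k ≤ F.TD) :
    X ^ᶜ k ≤ F.W1 ∨ X ^ᶜ k ≤ F.W2 ∨ Nat.card (X ^ᶜ k) ≤ 8 := F.eaTD e fun x hx => by
  obtain ⟨a, ha, rfl⟩ := mem_cj'.1 hx
  exact cjsq (h2 a ha) k

theorem ea_le {s : G} (h : F.Om s) {X : Subgroup G} (h2 : ∀ x ∈ X, x * x = 1) (hs : X ≤ centralizer {s}) :
    Nat.card X ≤ Nat.card F.W1 := by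
  obtain ⟨k, -, e⟩ := F.b2_into h (isP_of_P2 fun x hx => .of_sq (h2 x hx)) hs
  rw [← card_cj X k⁻¹]
  rcases F.b2_ea h2 e with e | e | e
  exacts [card_le_of_le e, (card_le_of_le e).trans F.b2_card.le, e.trans (by rw [F.card16]; decide)]

theorem b2_ea' {X : Subgroup G} (h2 : ∀ x ∈ X, x * x = 1) (hc : Nat.card F.W1 ≤ Nat.card X) {k : G}
    (e : X ^ᶜ k ≤ F.TD) : X ^ᶜ k = F.W1 ∨ X ^ᶜ k = F.W2 := by
  rcases F.b2_ea h2 e with e | e | e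
  · exact .inl (eq_of_le_of_card_ge e (by rwa [card_cj]))
  · exact .inr (eq_of_le_of_card_ge e (by rwa [card_cj, F.b2_card]))
  · rw [card_cj] at e
    rw [F.card16] at hc
    omega

theorem ea_cj {s : G} (h : F.Om s) {X : Subgroup G} (h2 : ∀ x ∈ X, x * x = 1) (hs : X ≤ centralizer {s})
    (hc : Nat.card F.W1 ≤ Nat.card X) : ∃ k, k * F.t * k⁻¹ = s ∧ (F.W1 ^ᶜ k = X ∨ F.W2 ^ᶜ k = X) := by
  obtain ⟨k, hk, e⟩ := F.b2_into h (isP_of_P2 fun x hx => .of_sq (h2 x hx)) hs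
  exact ⟨k, hk, (F.b2_ea' h2 hc e).imp (fun e => by rw [← e, cj_inv_cj]) fun e => by rw [← e, cj_inv_cj]⟩

/-- `T` is weakly closed in `TD` -/
theorem wcT {k : G} (e : F.T ^ᶜ k ≤ F.TD) : k ∈ 𝐍(F.T) := by
  have a : F.W1 ^ᶜ k ≤ F.T := (F.b2_ea' (fun _ => F.sqW1) le_rfl ((cj_mono k F.W1T).trans e)).elim
    (fun e => e.le.trans F.W1T) fun e => e.le.trans F.b2_W2T
  have b : F.W2 ^ᶜ k ≤ F.T := (F.b2_ea' (fun _ => F.sw.sqW1) F.b2_card.ge ((cj_mono k F.b2_W2T).trans e)).elim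
    (fun e => e.le.trans F.W1T) fun e => e.le.trans F.b2_W2T
  refine norm_gen ?_
  rintro x (rfl | rfl | rfl | rfl | rfl)
  exacts [a (cj_mem k F.b2_tW), a (cj_mem k F.b2_vW), b (cj_mem k F.sw.b2_vW), a (cj_mem k (F.X1W1 F.b2_uX)),
    a (cj_mem k (F.X1W1 F.u2X1))]

theorem burn {s : G} (h : F.Om s) (hs : s ∈ F.ZT) : ∃ g ∈ 𝐍(F.T), g * F.t * g⁻¹ = s := by
  obtain ⟨k, e, le⟩ := F.b2_into h F.isPT fun x hx => mem_centralizer_singleton_iff.2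
    (mem_centralizer_iff_commute.1 ((F.cenT (F.W1T (F.ZTW1 hs))).2 hs) x hx)
  exact ⟨k, inv_mem_iff.1 (F.wcT le), e⟩

theorem sylT1 : IsSylowIn 2 F.T (centralizer {F.t} ⊓ 𝐍(F.W1)) := by
  refine ⟨le_inf F.TC F.TN1, F.isPT, fun R h1 h2 hR => (eq_of_le_of_card_ge h1 ?_).symm⟩
  obtain ⟨c, -, e⟩ := F.sylTD.exists_cj_le hR (h2.trans inf_le_left)
  have e1 := F.b2_ea' (fun _ => F.sqW1) le_rfl ((cj_mono c (F.W1T.trans h1)).trans e)
  rw [← card_cj R c]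
  refine card_le_of_le fun x hx => F.TDW (e hx) ?_
  obtain ⟨a, ha, rfl⟩ := mem_cj'.1 hx
  exact e1.imp (fun k => norm_cj k (h2 ha).2) fun k => norm_cj k (h2 ha).2

theorem Nz {g : G} (hg : g ∈ 𝐍(F.T)) : g * F.z = F.z * g := by
  have e : g * F.z * g⁻¹ = g * (F.v1 * F.v2) * g⁻¹ * (g * (F.v1 * F.v2) * g⁻¹) := by
    rw [← cj_mul, ← mul_assoc (F.v1 * F.v2), F.hz]
  exact comm_of_cj (e ▸ (F.sqT (conj_mem_of_mem_normalizer hg (mul_mem F.b2_v1T F.b2_v2T))).resolve_left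
    (e ▸ cjne F.z1 g))

theorem NZT {g : G} (hg : g ∈ 𝐍(F.T)) : g ∈ 𝐍(F.ZT) := by
  have e : F.ZT = F.T ⊓ 𝐂(F.T) := le_antisymm
    (fun x hx => ⟨F.W1T (F.ZTW1 hx), (F.cenT (F.W1T (F.ZTW1 hx))).2 hx⟩) fun x hx => (F.cenT hx.1).1 hx.2
  rw [e]
  exact le_normalizer_inf le_rfl (normalizer_le_normalizer_centralizer _) hg

theorem nz : ¬ F.Om F.z := fun h => by
  obtain ⟨g, hg, e⟩ := F.burn h F.b2_zZ
  exact F.tX1 (cj_inj' (e.trans (cj_of_comm (F.Nz hg)).symm) ▸ F.b2_zX)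

theorem nV1 {s : G} (hs : s ∈ F.V1) : ¬ F.Om s := fun h => by
  have n : ¬ F.Om F.v1 := fun h => F.nz (.of_cj F.y1 (F.y1z ▸ h))
  rcases F.memV1.1 hs with rfl | rfl | rfl | rfl
  exacts [h.sq.2 rfl, F.nz h, n h, n (.of_cj F.y1 (F.y1v ▸ h))]

theorem b2_y1V : F.y1 ∈ 𝐍(F.V1) := (F.nW1 F.y1 F.y1t F.y1N).2

theorem b2_NX {g : G} (hV : g ∈ 𝐍(F.V1)) (hu : g * F.u1 = F.u1 * g) : g ∈ 𝐍(F.X1) := norm_gen (by
  rintro x (rfl | rfl | rfl)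
  · exact F.V1X1 (conj_mem_of_mem_normalizer hV F.b2_zV)
  · exact F.V1X1 (conj_mem_of_mem_normalizer hV F.b2_vV)
  · exact (cj_of_comm hu).symm ▸ F.b2_uX)

/-- move an element of `W1` into `Z(T)` -/
theorem b2_red {s : G} (hs : s ∈ F.W1) : ∃ a, a * F.t * a⁻¹ = F.t ∧ a * F.u1 * a⁻¹ = F.u1 ∧ a ∈ 𝐍(F.V1) ∧
    a ∈ 𝐍(F.X1) ∧ a * s * a⁻¹ ∈ F.ZT := by
  obtain ⟨i, hi⟩ := F.toZT hs
  exact ⟨F.y1 ^ i, cj_of_comm (Commute.pow_left F.y1t i).eq, cj_of_comm (Commute.pow_left F.y1u i).eq,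
    pow_mem F.b2_y1V i, pow_mem (F.b2_NX F.b2_y1V F.y1u) i, hi⟩

theorem b2_tX {x : G} (h : x ∈ F.X1) : F.t * x ∉ F.X1 := fun k => F.tX1 ((mul_mem_cancel_right h).1 k)

theorem b2_nF (h1 : ¬ F.Om F.u1) (h2 : ¬ F.Om F.u2) {s : G} (hs : s ∈ F.F0) : ¬ F.Om s := fun h => by
  rcases F.memF0.1 hs with rfl | rfl | rfl | rfl
  · exact h.sq.2 rfl
  · exact F.nz h
  · exact h1 h
  · by_cases e : F.u1 = 1
    · exact F.nz (by rwa [e, mul_one] at h)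
    · exact h2 (F.u2_eq e ▸ h)

theorem nX1 (h1 : ¬ F.Om F.u1) (h2 : ¬ F.Om F.u2) {s : G} (hs : s ∈ F.X1) : ¬ F.Om s := fun h => by
  obtain ⟨a, -, -, -, hX, hZ⟩ := F.b2_red (F.X1W1 hs)
  exact (F.memZT.1 hZ).elim (fun k => F.b2_nF h1 h2 k (h.cj a)) fun k =>
    F.b2_tX (conj_mem_of_mem_normalizer hX hs) (F.F0X1 k)

theorem permW {g : G} (hg : g ∈ 𝐍(F.T)) : (g ∈ 𝐍(F.W1) ∧ g ∈ 𝐍(F.W2)) ∨ (F.W1 ^ᶜ g = F.W2 ∧ F.W2 ^ᶜ g = F.W1) := by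
  have ne := F.W1ne
  rcases F.b2_ea' (fun _ => F.sqW1) le_rfl ((cj_le_of_mem_normalizer F.W1T hg).trans F.TTD) with a | a <;>
    rcases F.b2_ea' (fun _ => F.sw.sqW1) F.b2_card.ge ((cj_le_of_mem_normalizer F.b2_W2T hg).trans F.TTD) with b | b
  · exact (ne (cj_inj.1 (a.trans b.symm))).elim
  · exact .inl ⟨cj_eq_self_iff.1 a, cj_eq_self_iff.1 b⟩
  · exact .inr ⟨a, b⟩
  · exact (ne (cj_inj.1 (a.trans b.symm))).elim

theorem mem_NN {g : G} (hg : g ∈ 𝐍(F.T)) (hn : g ∈ 𝐍(F.W1)) : g ∈ F.NN :=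
  ⟨hg, (F.permW hg).resolve_right fun k => F.W1ne ((cj_eq_of_mem_normalizer hn).symm.trans k.1)⟩

theorem TNN : F.T ≤ F.NN := fun _ h => F.mem_NN (le_normalizer h) (F.TN1 h)

/-- with `dl ≠ 1`, `N(T) = NN ⟨dl⟩` -/
theorem toNN (d : F.dl ≠ 1) {g : G} (hg : g ∈ 𝐍(F.T)) : g ∈ F.NN ∨ g * F.dl ∈ F.NN :=
  (F.permW hg).imp (fun k => ⟨hg, k⟩) fun k => F.mem_NN (mul_mem hg F.dlT) (cj_eq_self_iff.1 (by
    rw [← cj_cj, F.dlW d, k.2]))

theorem b2_WC : F.W1 ≤ 𝐂(F.W1) := fun _ hx =>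
  mem_centralizer_iff_commute.2 fun _ ha => comm_of_sq (fun _ => F.sqW1) ha hx

theorem sylW1 : IsSylowIn 2 F.W1 𝐂(F.W1) := by
  refine ⟨F.b2_WC, F.isPT.to_le F.W1T, fun R h1 h2 hR => le_antisymm ?_ h1⟩
  obtain ⟨c, hc, e⟩ := F.sylT1.exists_cj_le hR fun x hx => ⟨mem_centralizer_singleton_iff.2
    (mem_centralizer_iff_commute.1 (h2 hx) _ F.b2_tW).symm, centralizer_le_normalizer _ (h2 hx)⟩
  have e1 := cj_eq_of_mem_normalizer hc.2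
  have e2 := cj_mono c h2
  rw [cj_centralizer, e1] at e2
  rw [← cj_le_cj_iff (g := c), e1]
  exact fun x hx => (F.cenv1 (e hx)).1 (mem_centralizer_iff_commute.1 (e2 hx) _ F.b2_vW).symm

theorem p2W1 {x : G} (h : x ∈ 𝐂(F.W1)) (h2 : P2 x) : x ∈ F.W1 :=
  mem_of_P2_norm F.sylW1 h h2 (le_normalizer_of_le_centralizer le_rfl h)

theorem b2_normO {P O : Subgroup G} (h : ∀ o, o ∈ O ↔ o ∈ 𝐂(P) ∧ Odd (orderOf o)) : 𝐍(P) ≤ 𝐍(O) :=
  le_normalizer_of_cj_le fun g hg x hx => by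
    obtain ⟨a, ha, rfl⟩ := mem_cj'.1 hx
    exact (h _).2 ⟨conj_mem_of_mem_normalizer (normalizer_le_normalizer_centralizer _ hg) ((h a).1 ha).1,
      odd_cj ((h a).1 ha).2 g⟩

theorem exO1 : ∃ O : Subgroup G, (∀ o, o ∈ O ↔ o ∈ 𝐂(F.W1) ∧ Odd (orderOf o)) ∧
    (∀ c ∈ 𝐂(F.W1), ∃ w ∈ F.W1, ∃ o ∈ O, c = w * o) ∧ 𝐍(F.W1) ≤ 𝐍(O) := by
  obtain ⟨O, h1, h2⟩ := exists_odd F.sylW1 (le_centralizer_iff.1 le_rfl)
  exact ⟨O, h1, h2, b2_normO h1⟩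

theorem p2T {x : G} (h : x * F.t = F.t * x) (hn : x ∈ 𝐍(F.T)) (hW : x ∈ 𝐍(F.W1)) (h2 : P2 x) : x ∈ F.T :=
  mem_of_P2_norm F.sylT1 ⟨mem_centralizer_singleton_iff.2 h, hW⟩ h2 hn

theorem fixu {g : G} (h : g * F.t = F.t * g) (hn : g ∈ 𝐍(F.W1)) : g * F.u1 = F.u1 * g := (F.nW1 g h hn).1

theorem b2_vc {g : G} (hz : g * F.z = F.z * g) (hV : g ∈ 𝐍(F.V1)) :
    g * F.v1 * g⁻¹ = F.v1 ∨ g * F.v1 * g⁻¹ = F.z * F.v1 := by
  rcases F.memV1.1 (conj_mem_of_mem_normalizer hV F.b2_vV) with e | e | e | e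
  · exact (cjne F.b2_v1 g e).elim
  · exact (F.b2_vz (cj_inj' (e.trans (cj_of_comm hz).symm))).elim
  · exact .inl e
  · exact .inr e

theorem b2_ov {o : G} (ho : Odd (orderOf o)) (h : o * F.t = F.t * o) (hn : o ∈ 𝐍(F.T)) (hW : o ∈ 𝐍(F.W1)) :
    o * F.v1 = F.v1 * o := by
  refine (F.b2_vc (F.Nz hn) (F.nW1 o h hW).2).elim comm_of_cj fun e => odd_comm ho (comm_of_cj ?_)
  rw [show o * o * F.v1 * (o * o)⁻¹ = o * (o * F.v1 * o⁻¹) * o⁻¹ by group, e, cj_mul, e, cj_of_comm (F.Nz hn),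
    F.b2_zz]

theorem nHT {g : G} (h : g * F.t = F.t * g) (hn : g ∈ F.NN) :
    ∃ τ ∈ F.T, ∃ o ∈ 𝐂(F.T), Odd (orderOf o) ∧ g = τ * o := by
  obtain ⟨m, h2, ho⟩ := split g
  have c : Commute g F.t := h
  have ct : Commute ((g ^ m)⁻¹ * g) F.t := (c.pow_left m).inv_left.mul_left c
  have on : (g ^ m)⁻¹ * g ∈ F.NN := mul_mem (inv_mem (pow_mem hn m)) hn
  refine ⟨g ^ m, F.p2T (c.pow_left m).eq (pow_mem hn m).1 (pow_mem hn m).2.1 h2, _, cent_gen ?_, ho, (mul_inv_cancel_left _ _).symm⟩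
  rintro x (rfl | rfl | rfl | rfl | rfl)
  exacts [ct.eq.symm, (F.b2_ov ho ct on.1 on.2.1).symm, (F.sw.b2_ov ho ct (F.sw_T ▸ on.1) on.2.2).symm,
    (F.fixu ct on.2.1).symm, (F.sw.fixu ct on.2.2).symm]

theorem exOP {P : Subgroup G} (hP : IsPGroup 2 P) (hT : F.T ≤ P) (hC : P ⊓ centralizer {F.t} ≤ F.T) :
    ∃ O : Subgroup G, (∀ o, o ∈ O ↔ o ∈ 𝐂(P) ∧ Odd (orderOf o)) ∧ 𝐍(P) ≤ 𝐍(O) ∧
      ∀ g ∈ 𝐍(P), g * F.t = F.t * g → g ∈ 𝐍(F.W1) → ∃ τ ∈ F.T, ∃ o ∈ O, g = τ * o := by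
  obtain ⟨O, h1, -, -⟩ := F.exO1
  have h : ∀ o, o ∈ O ⊓ 𝐂(P) ↔ o ∈ 𝐂(P) ∧ Odd (orderOf o) := fun o =>
    ⟨fun k => ⟨k.2, ((h1 o).1 k.1).2⟩, fun k => ⟨(h1 o).2 ⟨centralizer_anti (F.W1T.trans hT) k.1, k.2⟩, k.1⟩⟩
  refine ⟨O ⊓ 𝐂(P), h, b2_normO h, fun g hg ht hW => ?_⟩
  have eT : F.T = P ⊓ centralizer {F.t} := le_antisymm (le_inf hT F.TC) hC
  have gT : g ∈ 𝐍(F.T) := by
    rw [eT, ← cj_eq_self_iff, cj_inf, cj_eq_of_mem_normalizer hg, cj_centralizer_singleton, cj_of_comm ht]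
  obtain ⟨τ, hτ, o, oC, ho, rfl⟩ := F.nHT ht (F.mem_NN gT hW)
  refine ⟨τ, hτ, o, (h o).2 ⟨?_, ho⟩, rfl⟩
  have oN : o ∈ 𝐍(P) := (mul_mem_cancel_left (le_normalizer (hT hτ))).1 hg
  have TC : F.T ≤ P ⊓ centralizer {o} := le_inf hT fun x hx =>
    mem_centralizer_singleton_iff.2 (mem_centralizer_iff_commute.1 oC x hx)
  by_contra ne
  have lt : P ⊓ centralizer {o} < P := lt_of_le_of_ne inf_le_left fun e => ne
    (mem_centralizer_iff_commute.2 fun a ha => mem_centralizer_singleton_iff.1 (e.ge ha).2)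
  refine (lt_inf_normalizer_of_lt hP lt).2 fun x hx => ⟨hx.1, mem_centralizer_singleton_iff.2
    (mem_centralizer_iff_commute.1 (odd_cent (P := P ⊓ 𝐍(P ⊓ centralizer {o})) (hP.to_le inf_le_left) ho
      (mem_centralizer_iff_commute.2 fun a (ha : a ∈ P ⊓ centralizer {o}) =>
        mem_centralizer_singleton_iff.1 ha.2) fun y hy => ?_) x hx)⟩
  refine TC (hC ⟨P.mul_mem (P.inv_mem hy.1) (conj_mem_of_mem_normalizer oN hy.1),
    mem_centralizer_singleton_iff.2 (comm_of_cj ?_)⟩)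
  have tC := TC (F.W1T F.b2_tW)
  have a := cj_of_comm (mem_centralizer_singleton_iff.1 tC.2).symm
  have b := cj_of_comm (mem_centralizer_singleton_iff.1 (conj_mem_of_mem_normalizer hy.2 tC).2).symm
  calc _ = y⁻¹ * (o * (y * (o⁻¹ * (o * F.t * o⁻¹) * o) * y⁻¹) * o⁻¹) * y := by rw [a]; group
    _ = y⁻¹ * (o * (y * F.t * y⁻¹) * o⁻¹) * y := by group
    _ = _ := by rw [b]; group

theorem b2_pure {g : G} (hz : g * F.z = F.z * g) (hV : g ∈ 𝐍(F.V1)) :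
    g * F.v1 = F.v1 * g ∨ (g * F.v2 * F.v1 = F.v1 * (g * F.v2) ∧ F.v2⁻¹ * g * F.v1 = F.v1 * (F.v2⁻¹ * g)) := by
  refine (F.b2_vc hz hV).imp comm_of_cj fun e => ⟨comm_of_cj ?_, comm_of_cj ?_⟩
  · rw [show g * F.v2 * F.v1 * (g * F.v2)⁻¹ = g * (F.v2 * F.v1 * F.v2⁻¹) * g⁻¹ by group, F.b2_v2v, cj_mul, e,
      cj_of_comm hz, F.b2_zz]
  · rw [show F.v2⁻¹ * g * F.v1 * (F.v2⁻¹ * g)⁻¹ = F.v2⁻¹ * (g * F.v1 * g⁻¹) * F.v2 by group, e, ← F.b2_v2v]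
    group

theorem S3 {g : G} (h : g * F.t = F.t * g) (hn : g ∈ 𝐍(F.W1)) :
    ∃ i e : ℕ, (F.y1 ^ i * F.v2 ^ e)⁻¹ * g ∈ 𝐂(F.W1) := by
  obtain ⟨hu, hV⟩ := F.nW1 g h hn
  obtain ⟨i, hi⟩ : ∃ i : ℕ, F.y1 ^ i * F.z * (F.y1 ^ i)⁻¹ = g * F.z * g⁻¹ := by
    rcases F.memV1.1 (conj_mem_of_mem_normalizer hV F.b2_zV) with e | e | e | e
    · exact (cjne F.z1 g e).elim
    · exact ⟨0, by simp [e]⟩
    · exact ⟨1, by rw [pow_one, e, F.y1z]⟩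
    · exact ⟨2, by rw [e, ← F.y1v, ← F.y1z]; simp only [pow_two]; group⟩
  have kz : Commute ((F.y1 ^ i)⁻¹ * g) F.z := comm_of_cj (by
    rw [show (F.y1 ^ i)⁻¹ * g * F.z * ((F.y1 ^ i)⁻¹ * g)⁻¹ = (F.y1 ^ i)⁻¹ * (g * F.z * g⁻¹) * F.y1 ^ i by group, ← hi]
    group)
  have kt : Commute ((F.y1 ^ i)⁻¹ * g) F.t := (Commute.pow_left F.y1t i).inv_left.mul_left h
  have ku : Commute ((F.y1 ^ i)⁻¹ * g) F.u1 := (Commute.pow_left F.y1u i).inv_left.mul_left hu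
  rcases F.b2_pure kz (mul_mem (inv_mem (pow_mem F.b2_y1V i)) hV) with e | ⟨-, e⟩
  · refine ⟨i, 0, cent_gen ?_⟩
    rw [pow_zero, mul_one]
    rintro x (rfl | rfl | rfl | rfl)
    exacts [kt.eq.symm, kz.eq.symm, e.symm, ku.eq.symm]
  · refine ⟨i, 1, cent_gen ?_⟩
    rw [pow_one, mul_inv_rev, mul_assoc]
    rintro x (rfl | rfl | rfl | rfl)
    exacts [((Commute.symm F.tv2).inv_left.mul_left kt).eq.symm,
      ((Commute.symm F.sw.zv1).inv_left.mul_left kz).eq.symm, e.symm,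
      ((Commute.symm F.u1v2).inv_left.mul_left ku).eq.symm]

theorem PT {g : G} (hn : g ∈ 𝐍(F.W1)) (h : g * F.t * g⁻¹ = F.t * F.u1) (hu : g * F.u1 = F.u1 * g) : g ∈ 𝐍(F.V1) := by
  have yN := norm_cj (cj_eq_of_mem_normalizer hn) F.y1N
  have a : Commute _ _ := comm_cj g F.y1t
  have b : Commute _ _ := comm_cj g F.y1u
  rw [h] at a
  rw [cj_of_comm hu] at b
  have c : Commute (g * F.y1 * g⁻¹) F.t := by simpa using a.mul_right b.inv_right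
  have yV := (F.nW1 _ c yN).2
  generalize hy : g * F.y1 * g⁻¹ = y at yN b c yV
  have key : ∀ w ∈ F.W1, y * w * y⁻¹ * w ∈ F.V1 := fun w hw => by
    induction hw using closure_induction with
    | mem x hx =>
      rcases hx with rfl | rfl | rfl | rfl
      · rw [cj_of_comm c, F.tt]; exact one_mem _
      · exact mul_mem (conj_mem_of_mem_normalizer yV F.b2_zV) F.b2_zV
      · exact mul_mem (conj_mem_of_mem_normalizer yV F.b2_vV) F.b2_vV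
      · rw [cj_of_comm b, F.u11]; exact one_mem _
    | one => simp
    | mul p q hp hq ip iq =>
      have := comm_of_sq (fun _ => F.sqW1) (conj_mem_of_mem_normalizer yN hq) hp
      rw [cj_mul, mul_assoc, ← mul_assoc (y * q * y⁻¹), this, mul_assoc p, ← mul_assoc _ p]
      exact mul_mem ip iq
    | inv p hp ip => rwa [inv_eq_of_mul_eq_one_right (F.sqW1 hp)]
  have k2 : ∀ w ∈ F.W1, g * (F.y1 * w * F.y1⁻¹ * w) * g⁻¹ ∈ F.V1 := fun w hw => by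
    have := key _ (conj_mem_of_mem_normalizer hn hw)
    rw [← hy] at this
    convert this using 1
    group
  refine norm_gen ?_
  rintro x (rfl | rfl)
  · have := k2 _ F.b2_vW
    rwa [F.y1v, mul_assoc F.z, F.v11, mul_one] at this
  · have := k2 _ (F.X1W1 (mul_mem F.b2_zX F.b2_vX))
    rwa [F.y1z', F.b2_zz] at this

theorem pure {g : G} (hz : g * F.z = F.z * g) (hu : g * F.u1 = F.u1 * g) (hV : g ∈ 𝐍(F.V1)) :
    g ∈ 𝐂(F.X1) ∨ g * F.v2 ∈ 𝐂(F.X1) := by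
  refine (F.b2_pure hz hV).imp (fun e => cent_gen ?_) fun e => cent_gen ?_
  · rintro x (rfl | rfl | rfl)
    exacts [hz.symm, e.symm, hu.symm]
  · rintro x (rfl | rfl | rfl)
    exacts [(Commute.mul_left hz (Commute.symm F.sw.zv1)).eq.symm, e.1.symm,
      (Commute.mul_left hu (Commute.symm F.u1v2)).eq.symm]

theorem b2_exZ {s : G} (hs : s ∈ F.W1) (h : F.Om s) (ne : s ≠ F.t) : ∃ s ∈ F.ZT, F.Om s ∧ s ≠ F.t := by
  obtain ⟨a, ht, -, -, -, hZ⟩ := F.b2_red hs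
  exact ⟨_, hZ, h.cj a, fun e => ne (cj_inj' (e.trans ht.symm))⟩

theorem b2_uV (h : F.u1 ≠ 1) : F.u1 ∉ F.V1 := fun k => by
  refine (F.hu.resolve_left fun e => h e.1).2.2.1 ((closure_le _).2 ?_ k)
  have a : F.v1 ∈ closure ({F.t, F.v1, F.v2} : Set G) := subset_closure (by simp)
  have b : F.v2 ∈ closure ({F.t, F.v1, F.v2} : Set G) := subset_closure (by simp)
  rintro x (rfl | rfl)
  exacts [F.hz ▸ mul_mem (mul_mem (mul_mem a b) a) b, a]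

omit [Finite G] in
theorem b2_iff {A : Subgroup G} {a s : G} (ht : a * F.t * a⁻¹ = F.t) (ha : a ∈ 𝐍(A)) :
    F.t * (a * s * a⁻¹) ∈ A ↔ F.t * s ∈ A := by
  rw [(mem_normalizer_iff.1 ha) (F.t * s), cj_mul, ht]

theorem b2_om (a : G) {s : G} : F.Om (a * s * a⁻¹) ↔ F.Om s := ⟨.of_cj a, fun h => h.cj a⟩

theorem b2_tF {r : G} (h : F.t * r ∈ F.F0) : r = F.t ∨ r = F.t * F.z ∨
    F.u1 ≠ 1 ∧ (r = F.t * F.u1 ∨ r = F.t * F.u2) := by
  rw [← F.b2_tt r]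
  rcases F.memF0.1 h with e | e | e | e <;> rw [e]
  · exact .inl (mul_one _)
  · exact .inr (.inl rfl)
  · by_cases u : F.u1 = 1
    · exact .inl (by rw [u, mul_one])
    · exact .inr (.inr ⟨u, .inl rfl⟩)
  · by_cases u : F.u1 = 1
    · exact .inr (.inl (by rw [u, mul_one]))
    · exact .inr (.inr ⟨u, .inr (by rw [F.u2_eq u])⟩)

theorem CA.omW1 {F : Fr G} (c : F.CA) {s : G} (hs : s ∈ F.W1) : F.Om s ↔ F.t * s ∈ F.X1 := by
  obtain ⟨a, ht, -, -, hX, hZ⟩ := F.b2_red hs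
  rw [← F.b2_om a, ← F.b2_iff ht hX]
  rcases F.memZT.1 hZ with k | k
  · exact iff_of_false (F.b2_nF c.n1 c.n2 k) (F.b2_tX (F.F0X1 k))
  refine iff_of_true ?_ (F.F0X1 k)
  rcases F.b2_tF k with e | e | ⟨u, e | e⟩ <;> rw [e]
  exacts [F.om_t, c.oz, c.o1, c.o2]

theorem b2_ynz {g : G} (hg : g ∈ 𝐍(F.T)) : ¬ Commute (g * F.y1 * g⁻¹) F.z := fun k => F.y1nz (cj_inj' (g := g) (by
  rw [cj_mul, cj_mul, cj_of_comm (F.Nz hg)]; exact k))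

theorem b2_swu (u : F.u1 ≠ 1) {g : G} (hg : g ∈ 𝐍(F.T)) (hu : g * F.u1 = F.u1 * g) (e : F.W1 ^ᶜ g = F.W2) :
    g * F.t * g⁻¹ ≠ F.t * F.u1 := fun tg => by
  have a : Commute _ _ := comm_cj g F.y1t
  have b : Commute _ _ := comm_cj g F.y1u
  rw [tg] at a
  rw [cj_of_comm hu] at b
  have c : Commute (g * F.y1 * g⁻¹) F.t := by simpa using a.mul_right b.inv_right
  have d : Commute _ _ := (F.nW2 _ c (norm_cj e F.y1N)).1
  rw [F.u2_eq u] at d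
  exact F.b2_ynz hg (by simpa using d.mul_right b.inv_right)

/-- `t V1` lies in the orbit of `t` under `N(W1)` -/
theorem orbV {σ : G} (hσ : σ ∈ 𝐍(F.W1)) (e : σ * F.t * σ⁻¹ = F.t * F.z) {x : G} (hx : x ∈ F.V1) :
    ∃ n ∈ 𝐍(F.W1), n * F.t * n⁻¹ = F.t * x := by
  have y : ∀ n s, n * F.t * n⁻¹ = F.t * s → F.y1 * n * F.t * (F.y1 * n)⁻¹ = F.t * (F.y1 * s * F.y1⁻¹) :=
    fun n s k => by
      rw [show F.y1 * n * F.t * (F.y1 * n)⁻¹ = F.y1 * (n * F.t * n⁻¹) * F.y1⁻¹ by group, k, cj_mul, cj_of_comm F.y1t]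
  rcases F.memV1.1 hx with rfl | rfl | rfl | rfl
  · exact ⟨1, one_mem _, by simp⟩
  · exact ⟨σ, hσ, e⟩
  · exact ⟨_, mul_mem F.y1N hσ, by rw [y _ _ e, F.y1z]⟩
  · exact ⟨_, mul_mem F.y1N (mul_mem F.y1N hσ), by rw [y _ _ (y _ _ e), F.y1z, F.y1v]⟩

/-- in case `CI`, `N(W1)` leaves `t V1` invariant -/
theorem CI.cjV {F : Fr G} (c : F.CI) {g x : G} (hg : g ∈ 𝐍(F.W1)) (hx : x ∈ F.V1) :
    F.t * (g * (F.t * x) * g⁻¹) ∈ F.V1 := by
  obtain ⟨σ, hσ, e⟩ := c.sz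
  obtain ⟨n, hn, k⟩ := F.orbV hσ.2.1 e hx
  have := c.orb1 _ (mul_mem hg hn)
  rwa [show g * n * F.t * (g * n)⁻¹ = g * (n * F.t * n⁻¹) * g⁻¹ by group, k] at this

theorem CI.omV {F : Fr G} (c : F.CI) {x : G} (hx : x ∈ F.V1) : F.Om (F.t * x) := by
  obtain ⟨σ, hσ, e⟩ := c.sz
  obtain ⟨n, -, k⟩ := F.orbV hσ.2.1 e hx
  exact ⟨n, k⟩

theorem CI.tz {F : Fr G} (c : F.CI) {g : G} (hg : g ∈ F.NN) :
    g * F.t * g⁻¹ = F.t ∨ g * F.t * g⁻¹ = F.t * F.z := by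
  have m := conj_mem_of_mem_normalizer (F.NZT hg.1) F.b2_tZ
  have k := c.orb1 g hg.2.1
  rcases F.b2_tF ((F.memZT.1 m).resolve_left fun k => F.b2_nF c.n1 c.n2 k ⟨g, rfl⟩) with e | e | ⟨u, e | e⟩
  · exact .inl e
  · exact .inr e
  · rw [e, F.b2_tt] at k
    exact (F.b2_uV u k).elim
  · rw [e, F.b2_tt, F.u2_eq u, mul_mem_cancel_left F.b2_zV] at k
    exact (F.b2_uV u k).elim

theorem IIa.omW1 {F : Fr G} (c : F.IIa) {s : G} (hs : s ∈ F.W1) : F.Om s ↔ F.t * s ∈ F.V1 := by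
  obtain ⟨a, ht, -, hV, -, hZ⟩ := F.b2_red hs
  rw [← F.b2_om a, ← F.b2_iff ht hV]
  rcases F.memZT.1 hZ with k | k
  · exact iff_of_false (F.b2_nF c.ci.n1 c.ci.n2 k) fun m => F.b2_tX (F.F0X1 k) (F.V1X1 m)
  rcases F.b2_tF k with e | e | ⟨u, e | e⟩ <;> rw [e]
  · exact iff_of_true F.om_t (F.tt ▸ one_mem _)
  · exact iff_of_true c.ci.oz ((F.b2_tt _).symm ▸ F.b2_zV)
  · exact iff_of_false c.n3 ((F.b2_tt _).symm ▸ F.b2_uV u)
  · refine iff_of_false c.n4 ?_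
    rw [F.b2_tt, F.u2_eq u, mul_mem_cancel_left F.b2_zV]
    exact F.b2_uV u

theorem IIa.sw {F : Fr G} (c : F.IIa) : F.sw.IIa := ⟨c.ci.sw, c.d1, c.n4, c.n3⟩

/-- every conjugate of `t` in `W1` lies in `t X1` -/
theorem omX1 (h1 : ¬ F.Om F.u1) (h2 : ¬ F.Om F.u2) {s : G} (hs : s ∈ F.W1) (o : F.Om s) : F.t * s ∈ F.X1 :=
  (F.memW1'.1 hs).resolve_left fun k => F.nX1 h1 h2 k o

end Fr

end H25.A6
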