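import Mathlib
import Cfsg.Agent.Lib.A6S.Bas3

/-! The twist `u ↦ t u`, and the action of `NN` on `Z(T)`. -/

set_option autoImplicit false

namespace H25.A6

open Subgroup H69 H36.SW H25.A7

namespace Del0H

/-- coordinates on `Z(T)` -/
abbrev V := Fin 2 × Fin 2 × Fin 2

/-- the linear map with `t ↦ p`, `z ↦ z`, `u ↦ q` -/
def act (p q x : V) : V :=
  (x.1 * p.1 + x.2.2 * q.1, x.1 * p.2.1 + x.2.1 + x.2.2 * q.2.1, x.1 * p.2.2 + x.2.2 * q.2.2)

/-- the conditions on one element -/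
def ok (a : V × V) : Prop := (∀ x, act a.1 a.2 x = 0 → x = 0) ∧ (a.1 = (1, 0, 0) → a.2 = (0, 0, 1)) ∧
  ¬ (a.1 = (1, 1, 1) ∧ a.2 = (0, 1, 1))

instance decOk (a : V × V) : Decidable (ok a) := by unfold ok; infer_instance

/-- composition -/
def cp (a b : V × V) : V × V := (act a.1 a.2 b.1, act a.1 a.2 b.2)

/-- the element moving `t` to `t z` -/
def sg : V × V := ((1, 1, 0), (0, 0, 1))

theorem dA : ∀ a : V × V, ok a → ok (cp sg a) → ok (cp sg (cp a a)) → ok (cp a (cp sg a)) →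
    ok (cp a (cp sg (cp a a))) → ok (cp a (cp a (cp sg a))) → a.2 = (0, 0, 1) := by decide +kernel

theorem act_eq : ∀ p q x : V, act p q x = (if x.1 = 0 then 0 else p) + (0, x.2.1, 0) + if x.2.2 = 0 then 0 else q := by
  decide +kernel

variable {G : Type*} [Group G]

/-- the element with given coordinates -/
def e (F : Fr G) (x : V) : G := F.t ^ (x.1 : ℕ) * F.z ^ (x.2.1 : ℕ) * F.u1 ^ (x.2.2 : ℕ)

/-- the pair is induced by `NN` -/
def R (F : Fr G) (a : V × V) : Prop := ∃ g ∈ F.NN, g * F.t * g⁻¹ = e F a.1 ∧ g * F.u1 * g⁻¹ = e F a.2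

theorem eqns : True := by
  have := @act.eq_1
  have := @ok.eq_1
  have := @cp.eq_1
  have := @sg.eq_1
  have := @e.eq_1.{0}
  have := @R.eq_1.{0}
  trivial

theorem pw_add {a : G} (h : a * a = 1) (i j : Fin 2) : a ^ ((i + j : Fin 2) : ℕ) = a ^ (i : ℕ) * a ^ (j : ℕ) := by
  fin_cases i <;> fin_cases j <;> simp [h]

theorem cl_le {S S' : Set G} {t : G} (tt : t * t = 1) (ht : t ∈ S') (h : ∀ x ∈ S, x ∈ S' ∨ t * x ∈ S') :
    closure S ≤ closure S' := (closure_le _).2 fun x hx => (h x hx).elim (fun k => subset_closure k) fun k => by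
  have := mul_mem (subset_closure ht) (subset_closure k)
  rwa [← mul_assoc, tt, one_mul] at this

variable [Finite G] {F : Fr G}

theorem e_add (x y : V) : e F (x + y) = e F x * e F y := by
  have c1 : Commute F.z F.t := F.zt
  have c2 : Commute F.u1 F.t := F.tu1.symm
  have c3 : Commute F.u1 F.z := F.zu1.symm
  simp only [e, Prod.fst_add, Prod.snd_add, pw_add F.tt, pw_add F.zz, pw_add F.u11]
  rw [((c2.pow_pow _ _).mul_right (c3.pow_pow _ _)).mul_mul_mul_comm, (c1.pow_pow _ _).mul_mul_mul_comm]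

theorem e_zero {x : V} (hu : F.u1 ≠ 1) (h : e F x = 1) : x = 0 := by
  obtain ⟨h1, -, -, h2, h3⟩ := F.ind (a := x.1) (b := 0) (c := 0) (d := x.2.1) (e := x.2.2) (by simpa [e] using h)
  exact Prod.ext h1 (Prod.ext h2 (h3.resolve_right hu))

theorem exists_e {x : G} (h : x ∈ F.ZT) : ∃ p, x = e F p := by
  have k : ∀ y ∈ F.F0, ∃ p, y = e F p := fun y hy => by
    rcases F.memF0.1 hy with rfl | rfl | rfl | rfl
    exacts [⟨0, by simp [e]⟩, ⟨(0, 1, 0), by simp [e]⟩, ⟨(0, 0, 1), by simp [e]⟩, ⟨(0, 1, 1), by simp [e]⟩]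
  rcases F.memZT.1 h with h | h
  · exact k x h
  · obtain ⟨p, hp⟩ := k _ h
    refine ⟨(1, 0, 0) + p, ?_⟩
    rw [e_add, ← hp]
    simp [e, ← mul_assoc, F.tt]

theorem cj_e {g : G} (hg : g ∈ 𝐍(F.T)) {p q : V} (hp : g * F.t * g⁻¹ = e F p) (hq : g * F.u1 * g⁻¹ = e F q)
    (x : V) : g * e F x * g⁻¹ = e F (act p q x) := by
  have hz : g * F.z * g⁻¹ = F.z := by rw [F.Nz hg, mul_inv_cancel_right]
  have k : ∀ (i : Fin 2) (y : V), e F (if i = 0 then 0 else y) = e F y ^ (i : ℕ) := fun i y => by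
    fin_cases i <;> simp [e]
  rw [act_eq, e_add, e_add, k, k, ← hp, ← hq, e, ← conj_mul, ← conj_mul, ← conj_pow, ← conj_pow, ← conj_pow, hz]
  simp [e]

theorem R.comp {a b : V × V} (h : R F a) (h' : R F b) : R F (cp a b) := by
  obtain ⟨g, hg, hp, hq⟩ := h
  obtain ⟨g', hg', hp', hq'⟩ := h'
  refine ⟨g * g', mul_mem hg hg', ?_, ?_⟩
  · rw [cp, ← cj_e hg.1 hp hq, ← hp']; group
  · rw [cp, ← cj_e hg.1 hp hq, ← hq']; group

theorem nzu (F : Fr G) {g : G} (hg : g ∈ 𝐍(F.W1)) (h1 : g * F.u1 * g⁻¹ = F.u2) (hz : g * F.z = F.z * g) :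
    g * F.t * g⁻¹ ≠ F.t * F.u2 := fun tg => by
  have a : Commute _ _ := B2.comm_cj g F.y1t
  have b : Commute _ _ := B2.comm_cj g F.y1u
  rw [tg] at a
  rw [h1] at b
  have c : Commute (g * F.y1 * g⁻¹) F.t := by simpa using a.mul_right b.inv_right
  have d : Commute _ _ := F.fixu c (mul_mem (mul_mem hg F.y1N) (inv_mem hg))
  rw [F.u2_eq F.hu1] at b
  have k : Commute (g * F.y1 * g⁻¹) F.z := by simpa using b.mul_right d.inv_right
  rw [← B2.cj_of_comm hz] at k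
  exact F.y1nz (B2.cj_inj' (g := g) (by rw [B2.cj_mul, B2.cj_mul]; exact k))

theorem R.ok {a : V × V} (h : R F a) : ok a := by
  obtain ⟨g, hg, hp, hq⟩ := h
  have hu := F.hu1
  refine ⟨fun x hx => e_zero hu ?_, fun h1 => ?_, fun ⟨h1, h2⟩ => nzu F hg.2.1 ?_ (F.Nz hg.1) ?_⟩
  · have := cj_e hg.1 hp hq x
    rw [hx] at this
    simpa [e] using this
  · have h2 : g * F.t = F.t * g := by
      rw [← mul_inv_eq_iff_eq_mul, hp, h1]
      simp [e]
    rw [F.fixu h2 hg.2.1, mul_inv_cancel_right] at hq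
    have h3 : a.2 + (0, 0, 1) = 0 := e_zero hu (by
      rw [e_add, ← hq]
      simp [e, F.u11])
    exact (by decide : ∀ q : V, q + (0, 0, 1) = 0 → q = (0, 0, 1)) _ h3
  · rw [hq, h2]; simp [e, F.u2_eq hu]
  · rw [hp, h1]; simp [e, F.u2_eq hu, mul_assoc]

end Del0H

open Del0H

variable {G : Type*} [Group G] [Finite G]

namespace Fr

theorem exists_tw (F : Fr G) : ∃ F' : Fr G, F.Same F' ∧ F'.u1 = F.t * F.u1 ∧ F'.u2 = F.t * F.u2 ∧ F'.T = F.T ∧
    F'.W1 = F.W1 ∧ F'.W2 = F.W2 ∧ F'.NN = F.NN := by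
  have hu := F.hu1
  have tt := F.tt
  have hh := F.hu.resolve_left fun k => hu k.1
  have cm : ∀ {a u : G}, a * F.t = F.t * a → a * u = u * a → a * (F.t * u) = F.t * u * a := fun h1 h2 =>
    Commute.mul_right h1 h2
  have sq : ∀ {u : G}, u * u = 1 → F.t * u = u * F.t → F.t * u * (F.t * u) = 1 := fun {u} h1 h2 => by
    rw [mul_assoc, ← mul_assoc u, ← h2, mul_assoc, h1, mul_one, tt]
  have eT : closure ({F.t, F.v1, F.v2, F.t * F.u1, F.t * F.u2} : Set G) = closure {F.t, F.v1, F.v2, F.u1, F.u2} :=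
    le_antisymm (cl_le tt (by simp) (by simp [← mul_assoc, tt])) (cl_le tt (by simp) (by simp))
  have eW : ∀ v u : G, closure ({F.t, F.z, v, F.t * u} : Set G) = closure {F.t, F.z, v, u} := fun v u =>
    le_antisymm (cl_le tt (by simp) (by simp [← mul_assoc, tt])) (cl_le tt (by simp) (by simp))
  have eD : closure ({F.t, F.v1, F.v2, F.t * F.u1, F.t * F.u2, F.dl} : Set G) =
      closure {F.t, F.v1, F.v2, F.u1, F.u2, F.dl} :=
    le_antisymm (cl_le tt (by simp) (by simp [← mul_assoc, tt])) (cl_le tt (by simp) (by simp))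
  have dc : ∀ {u u' : G}, F.dl * u * F.dl⁻¹ = u' → F.dl * (F.t * u) * F.dl⁻¹ = F.t * u' := fun h => by
    rw [B2.cj_mul, B2.cj_of_comm F.dlt, h]
  have nm : ∀ {u : G}, u ∉ closure ({F.t, F.v1, F.v2} : Set G) → F.t * u ∉ closure ({F.t, F.v1, F.v2} : Set G) :=
    fun h k => h ((mul_mem_cancel_left (subset_closure (by simp))).1 k)
  have tD : F.t ∉ closure ({F.v1, F.v2, F.t * F.u1, F.t * F.u2} : Set G) := fun k => by
    have hn : F.t * F.u1 ∈ 𝐍(closure ({F.v1, F.v2} : Set G)) := centralizer_le_normalizer _ (by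
      rw [centralizer_closure]
      rintro _ (rfl | rfl)
      exacts [cm F.tv1.symm F.u1v1.symm, cm F.tv2.symm F.u1v2.symm])
    have m1 : F.v1 ∈ closure ({F.v1, F.v2} : Set G) := subset_closure (by simp)
    have m2 : F.v2 ∈ closure ({F.v1, F.v2} : Set G) := subset_closure (by simp)
    have hle : closure ({F.v1, F.v2, F.t * F.u1, F.t * F.u2} : Set G) ≤
        closure {F.v1, F.v2} ⊔ zpowers (F.t * F.u1) := (closure_le _).2 (by
      rintro _ (rfl | rfl | rfl | rfl)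
      · exact mem_sup_left m1
      · exact mem_sup_left m2
      · exact mem_sup_right (mem_zpowers _)
      · rw [hh.1, ← mul_assoc, ← F.zt, mul_assoc]
        exact mul_mem (mem_sup_left (F.hz ▸ mul_mem (mul_mem (mul_mem m1 m2) m1) m2))
          (mem_sup_right (mem_zpowers _)))
    rcases (mem_adj hn (by rw [sq F.u11 F.tu1]; exact one_mem _)).1 (hle k) with k | k
    · exact F.tD (closure_mono (by simp [Set.insert_subset_iff]) k)
    · rw [F.tu1, mul_inv_rev, mul_inv_cancel_left, inv_mem_iff] at k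
      exact hh.2.2.1 (closure_mono (by simp [Set.insert_subset_iff]) k)
  exact ⟨{ F with
    u1 := F.t * F.u1
    u2 := F.t * F.u2
    u11 := sq F.u11 F.tu1
    u22 := sq F.u22 F.tu2
    tu1 := cm rfl F.tu1
    tu2 := cm rfl F.tu2
    u1v1 := (cm F.tv1.symm F.u1v1.symm).symm
    u1v2 := (cm F.tv2.symm F.u1v2.symm).symm
    u2v1 := (cm F.tv1.symm F.u2v1.symm).symm
    u2v2 := (cm F.tv2.symm F.u2v2.symm).symm
    tD := tD
    hu := .inr ⟨by rw [← mul_assoc, F.zt, mul_assoc, ← hh.1], by rw [← mul_assoc, F.zt, mul_assoc, ← hh.2.1],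
      nm hh.2.2.1, nm hh.2.2.2⟩
    hu1 := fun k => nm hh.2.2.1 (k ▸ one_mem _)
    hdl := F.hdl.imp_right fun h => ⟨h.1, h.2.1, dc h.2.2.1, dc h.2.2.2.1, h.2.2.2.2⟩
    syl := eD ▸ F.syl
    y1u := cm F.y1t F.y1u
    y2u := cm F.y2t F.y2u
    nW1 := fun g hg hn => (F.nW1 g hg (eW _ _ ▸ hn)).imp_left (cm hg)
    nW2 := fun g hg hn => (F.nW2 g hg (eW _ _ ▸ hn)).imp_left (cm hg)
    W12 := fun hd g hg => by rw [eW, eW]; exact F.W12 hd g hg
    nd := by rw [eT]; exact F.nd },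
    ⟨rfl, rfl, rfl, rfl, rfl, rfl, rfl, rfl, .inr ⟨hu, rfl, rfl⟩⟩, rfl, rfl, eT, eW _ _, eW _ _, by
      exact congrArg₂ (· ⊓ ·) (congrArg (fun A : Subgroup G => 𝐍(A)) eT) (congrArg₂ (· ⊓ ·)
        (congrArg (fun A : Subgroup G => 𝐍(A)) (eW _ _)) (congrArg (fun A : Subgroup G => 𝐍(A)) (eW _ _)))⟩

theorem nzu (F : Fr G) {g : G} (hg : g ∈ 𝐍(F.W1)) (h1 : g * F.u1 * g⁻¹ = F.u2) (hz : g * F.z = F.z * g) :
    g * F.t * g⁻¹ ≠ F.t * F.u2 := Del0H.nzu F hg h1 hz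

theorem fxNN (F : Fr G) {σ : G} (hσ : σ ∈ F.NN) (ht : σ * F.t * σ⁻¹ = F.t * F.z) (hu : σ * F.u1 = F.u1 * σ)
    {g : G} (hg : g ∈ F.NN) : g * F.u1 = F.u1 * g ∧ g * F.u2 = F.u2 * g := by
  have r : Del0H.R F sg := ⟨σ, hσ, by simpa [e, sg] using ht, by simpa [e, sg] using B2.cj_of_comm hu⟩
  obtain ⟨p, e1⟩ := exists_e (conj_mem_of_mem_normalizer (F.NZT hg.1) F.b2_tZ)
  obtain ⟨q, e2⟩ := exists_e (conj_mem_of_mem_normalizer (F.NZT hg.1) F.b2_uZ)
  have a : Del0H.R F (p, q) := ⟨g, hg, e1, e2⟩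
  rw [show q = _ from dA _ a.ok (r.comp a).ok (r.comp (a.comp a)).ok (a.comp (r.comp a)).ok
    (a.comp (r.comp (a.comp a))).ok (a.comp (a.comp (r.comp a))).ok] at e2
  have k : g * F.u1 = F.u1 * g := B2.comm_of_cj (by simpa [e] using e2)
  exact ⟨k, by rw [F.u2_eq F.hu1, ← mul_assoc, F.Nz hg.1, mul_assoc, k, mul_assoc]⟩

theorem burn1 (F : Fr G) {n : G} (hn : n ∈ 𝐍(F.W1)) (hs : n * F.t * n⁻¹ ∈ F.ZT) :
    ∃ g ∈ F.NN, g * F.t * g⁻¹ = n * F.t * n⁻¹ := by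
  have h1 := F.sylT1.cj n
  rw [cj_inf, cj_centralizer_singleton, cj_eq_of_mem hn] at h1
  have hc : F.T ≤ centralizer {n * F.t * n⁻¹} := fun x hx => mem_centralizer_singleton_iff.2
    ((F.cenT (F.W1T (F.ZTW1 hs))).2 hs x hx)
  obtain ⟨k, hk, e1⟩ := h1.conj (h1.of_card_le F.isPT (le_inf hc F.TN1) (card_cj F.T n).le)
  rw [cj_cj, cj_eq_self_iff] at e1
  refine ⟨k * n, F.mem_NN e1 (mul_mem hk.2 hn), ?_⟩
  rw [show k * n * F.t * (k * n)⁻¹ = k * (n * F.t * n⁻¹) * k⁻¹ by group, mem_centralizer_singleton_iff.1 hk.1,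
    mul_inv_cancel_right]

end Fr

end H25.A6
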