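import Mathlib
import Cfsg.Agent.Lib.A6S.Del0

/-! The case `dl = 1`, `¬ Typ`. -/

set_option autoImplicit false

namespace H25.A6

open Subgroup H69 H36.SW

variable {G : Type*} [Group G] [Finite G]

namespace Del1

open B2

omit [Finite G] in
theorem mem4 {a b x : G} (ha : a * a = 1) (hb : b * b = 1) (c : a * b = b * a) (h : x ∈ closure ({a, b} : Set G)) :
    x = 1 ∨ x = a ∨ x = b ∨ x = a * b := by
  have a1 : ∀ y, a * (a * y) = y := fun y => by rw [← mul_assoc, ha, one_mul]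
  have c1 : ∀ y, b * (a * y) = a * (b * y) := fun y => by rw [← mul_assoc, ← c, mul_assoc]
  have i : ∀ {y : G}, y * y = 1 → y⁻¹ = y := inv_eq_of_mul_eq_one_left
  induction h using closure_induction with
  | mem x hx => rcases hx with rfl | rfl <;> simp
  | one => simp
  | mul x y _ _ hx hy =>
    rcases hx with rfl | rfl | rfl | rfl <;> rcases hy with rfl | rfl | rfl | rfl <;>
      simp [mul_assoc, ha, hb, a1, c1, ← c]
  | inv x _ hx => rcases hx with rfl | rfl | rfl | rfl <;> simp [i ha, i hb, ← c]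

variable {F : Fr G}

theorem cZ (d : F.dl = 1) {k : G} (hk : k ∈ 𝐍(F.T)) (ht : k * F.t * k⁻¹ = F.t) : k ∈ 𝐂(F.ZT) := by
  have c := comm_of_cj ht
  have n := (F.swu c hk).resolve_right fun h => h.1 d
  refine cent_gen ?_
  rintro _ (rfl | rfl | rfl | rfl)
  exacts [c.symm, (F.Nz hk).symm, (F.fixu c n.2.1).symm, (F.sw.fixu c n.2.2).symm]

theorem nOm (d : F.dl = 1) {σ s : G} (hσ : σ ∈ 𝐍(F.T)) (ht : σ * F.t * σ⁻¹ = F.t * F.z) (hs : s ∈ F.ZT)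
    (e : σ * s * σ⁻¹ = s) : ¬ F.Om s := fun o => by
  obtain ⟨k, hk, rfl⟩ := F.burn o hs
  have c := cZ d (mul_mem (mul_mem (inv_mem hk) hσ) hk) (cj_inj' (g := k) (by rw [← e]; group))
  have c' := mem_centralizer_iff.1 c _ (conj_mem_of_mem_normalizer (F.NZT (inv_mem hk)) F.b2_tZ)
  have : F.t * σ = σ * F.t := cj_inj' (g := k⁻¹) (by simpa [mul_assoc] using c')
  rw [← this, mul_inv_cancel_right] at ht
  exact F.z1 (by simpa using ht)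

theorem orb (n1 : ¬ F.Om F.u1) (n2 : ¬ F.Om F.u2)
    (h : ∀ k ∈ F.NN, k * F.t * k⁻¹ ≠ F.t * F.u1 ∧ k * F.t * k⁻¹ ≠ F.t * F.u2) (n : G) (hn : n ∈ 𝐍(F.W1)) :
    F.t * (n * F.t * n⁻¹) ∈ F.V1 := by
  obtain ⟨i, hi⟩ := F.toZT (conj_mem_of_mem_normalizer hn F.b2_tW)
  have e : F.y1 ^ i * (n * F.t * n⁻¹) * (F.y1 ^ i)⁻¹ = F.y1 ^ i * n * F.t * (F.y1 ^ i * n)⁻¹ := by group
  rw [← F.b2_iff (cj_of_comm ((show Commute F.y1 F.t from F.y1t).pow_left i)) (pow_mem F.b2_y1V i), e]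
  rw [e] at hi
  obtain ⟨k, hk, e1⟩ := F.burn1 (mul_mem (pow_mem F.y1N i) hn) hi
  rw [← e1] at hi ⊢
  rcases F.memZT.1 hi with m | m
  · exact (F.b2_nF n1 n2 m ⟨k, rfl⟩).elim
  rcases F.b2_tF m with r | r | ⟨-, r | r⟩
  · rw [r, F.tt]; exact one_mem _
  · rw [r, F.b2_tt]; exact F.b2_zV
  · exact ((h k hk).1 r).elim
  · exact ((h k hk).2 r).elim

theorem main (d : F.dl = 1) {γ : G} (hT : γ ∈ 𝐍(F.T)) (hW : F.W1 ^ᶜ γ = F.W2) (hW' : F.W2 ^ᶜ γ = F.W1)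
    (ht : γ * F.t * γ⁻¹ = F.t * F.u2) (hu : γ * F.u1 * γ⁻¹ = F.u2) : ∃ γ', F.SZ γ' := by
  have e2 := F.u2_eq F.hu1
  have hz := cj_of_comm (F.Nz hT)
  have hu2 : γ * F.u2 * γ⁻¹ = F.u1 := by
    conv_lhs => rw [e2, cj_mul, hz, hu, e2, F.b2_zz]
  have sq : ∀ (a x : G), a * a * x * (a * a)⁻¹ = a * (a * x * a⁻¹) * a⁻¹ := fun a x => by group
  have σT := mul_mem hT hT
  have σW : γ * γ ∈ 𝐍(F.W1) := by rw [← cj_eq_self_iff, ← cj_cj, hW, hW']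
  have σN := F.mem_NN σT σW
  have σt : γ * γ * F.t * (γ * γ)⁻¹ = F.t * F.z := by
    rw [sq, ht, cj_mul, ht, hu2, e2, mul_assoc, mul_assoc, F.u11, mul_one]
  have σu : γ * γ * F.u1 * (γ * γ)⁻¹ = F.u1 := by rw [sq, hu, hu2]
  have σu2 : γ * γ * F.u2 * (γ * γ)⁻¹ = F.u2 := by rw [sq, hu2, hu]
  have n1 := nOm d σT σt F.b2_uZ σu
  have n2 := nOm d σT σt (F.sw_ZT ▸ F.sw.b2_uZ) σu2
  have no : ∀ k ∈ F.NN, k * F.t * k⁻¹ ≠ F.t * F.u1 ∧ k * F.t * k⁻¹ ≠ F.t * F.u2 := fun k hk => by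
    have w : F.W1 ^ᶜ k = F.W1 := cj_eq_self_iff.2 hk.2.1
    refine ⟨fun e => F.W12 d (γ * k) (comm_of_cj ?_) ?_, fun e => F.W12 d (γ⁻¹ * k) (comm_of_cj ?_) ?_⟩
    · rw [show γ * k * F.t * (γ * k)⁻¹ = γ * (k * F.t * k⁻¹) * γ⁻¹ by group, e, cj_mul, ht, hu, mul_assoc, F.u22,
        mul_one]
    · change F.W1 ^ᶜ (γ * k) = F.W2
      rw [← cj_cj, w, hW]
    · rw [show γ⁻¹ * k * F.t * (γ⁻¹ * k)⁻¹ = γ⁻¹ * (k * F.t * k⁻¹) * γ by group, e, ← ht]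
      group
    · change F.W1 ^ᶜ (γ⁻¹ * k) = F.W2
      rw [← cj_cj, w, ← hW', cj_cj_inv]
  have ci : F.CI := ⟨⟨_, σN, σt⟩, n1, n2, orb n1 n2 no,
    orb (F := F.sw) n2 n1 fun k hk => (no k (F.sw_NN ▸ hk)).symm,
    fun g hg => (F.fxNN σN σt (comm_of_cj σu) hg).1, fun g hg => (F.fxNN σN σt (comm_of_cj σu) hg).2⟩
  obtain ⟨m, K, h1, h2⟩ := exists_ppart γ Nat.prime_two 2
  have em : γ ^ m = γ * (γ * γ * (γ * γ)) ^ (m / 4) := by
    rw [show γ * γ * (γ * γ) = γ ^ 4 by simp only [pow_succ, pow_zero, one_mul, mul_assoc], ← pow_mul, ← pow_succ']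
    congr 1
    have : m % 4 = 1 := h1
    omega
  have fx : ∀ x, γ * γ * (γ * γ) * x * (γ * γ * (γ * γ))⁻¹ = x → γ ^ m * x * (γ ^ m)⁻¹ = γ * x * γ⁻¹ := fun x h => by
    rw [em, mul_assoc γ, ((show Commute _ x from comm_of_cj h).pow_left _).eq]
    group
  refine ⟨γ ^ m, ci, d, pow_mem hT m, ⟨K, h2⟩, ?_, ?_, ?_⟩
  · rw [em, ← cj_cj, cj_eq_self_iff.2 (pow_mem (mul_mem σW σW) _), hW]
  · rw [fx _ (by rw [sq, σt, cj_mul, σt, cj_of_comm (F.Nz σT), mul_assoc, F.zz, mul_one]), ht]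
  · rw [fx _ (by rw [sq, σu, σu]), hu]

theorem exg (d : F.dl = 1) (h : ¬ F.Typ) :
    ∃ γ ∈ 𝐍(F.T), closure ({F.t, F.u1} : Set G) ^ᶜ γ = closure ({F.t, F.u2} : Set G) := by
  obtain ⟨g, e⟩ := not_forall.1 h
  rw [not_not] at e
  have s : ∀ u ∈ F.ZT, IsSylowIn 2 F.T 𝐂(closure ({F.t, u} : Set G)) := fun u hu =>
    (F.sylT d).mono (fun x hx => cent_gen (by
      rintro _ (rfl | rfl)
      · exact (mem_centralizer_singleton_iff.1 (F.TC hx)).symm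
      · exact (mem_centralizer_iff.1 ((F.cenT (F.W1T (F.ZTW1 hu))).2 hu) x hx).symm))
      fun x hx => mem_centralizer_singleton_iff.2 (mem_centralizer_iff.1 hx _ (subset_closure (by simp))).symm
  have h1 := (s _ F.b2_uZ).cj g
  rw [cj_centralizer, e] at h1
  obtain ⟨c, hc, e1⟩ := h1.conj (s _ (F.sw_ZT ▸ F.sw.b2_uZ))
  rw [cj_cj, cj_eq_self_iff] at e1
  exact ⟨c * g, e1, by rw [← cj_cj, e, cj_eq_self_iff.2 (centralizer_le_normalizer _ hc)]⟩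

theorem swaps {γ : G} (hT : γ ∈ 𝐍(F.T))
    (e : closure ({F.t, F.u1} : Set G) ^ᶜ γ = closure ({F.t, F.u2} : Set G)) :
    F.W1 ^ᶜ γ = F.W2 ∧ F.W2 ^ᶜ γ = F.W1 := by
  refine (F.permW hT).resolve_left fun ⟨n, _⟩ => F.b2_ynz hT ?_
  have c : γ * F.y1 * γ⁻¹ ∈ 𝐂(closure ({F.t, F.u2} : Set G)) := by
    rw [← e, ← cj_centralizer]
    refine cj_mem γ (cent_gen ?_)
    rintro _ (rfl | rfl)
    exacts [F.y1t.symm, F.y1u.symm]
  have a : Commute F.t _ := mem_centralizer_iff.1 c _ (subset_closure (by simp))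
  have b : Commute F.u2 _ := mem_centralizer_iff.1 c _ (subset_closure (by simp))
  have b' : Commute _ F.u1 := F.fixu a.symm (mul_mem (mul_mem n F.y1N) (inv_mem n))
  rw [F.u2_eq F.hu1] at b
  simpa using b.symm.mul_right b'.inv_right

end Del1

namespace Fr

open B2 Del1 in
theorem exSZ (F : Fr G) (d : F.dl = 1) (h : ¬ F.Typ) : ∃ (F' : Fr G) (γ : G), F.Same F' ∧ F'.SZ γ := by
  obtain ⟨γ, hT, e⟩ := exg d h
  obtain ⟨hW, hW'⟩ := swaps hT e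
  have m : ∀ x ∈ ({F.t, F.u1} : Set G), x ≠ 1 →
      γ * x * γ⁻¹ = F.t ∨ γ * x * γ⁻¹ = F.u2 ∨ γ * x * γ⁻¹ = F.t * F.u2 := fun x hx h1 =>
    (mem4 F.tt F.u22 F.tu2 (e ▸ cj_mem γ (subset_closure hx))).resolve_left (by simpa using h1)
  have tu : F.t ≠ F.u1 := fun k => F.tX1 (k ▸ F.b2_uX)
  have e2 := F.u2_eq F.hu1
  have e1 : F.z * F.u2 = F.u1 := by rw [e2, F.b2_zz]
  have hz := cj_of_comm (F.Nz hT)
  have c2 : γ * F.u2 * γ⁻¹ = F.z * (γ * F.u1 * γ⁻¹) := by rw [e2, cj_mul, hz]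
  have n3 : γ * (γ * (γ * F.t * γ⁻¹) * γ⁻¹) * γ⁻¹ ≠ F.t := fun k =>
    F.W12 d (γ * (γ * γ)) (comm_of_cj (Eq.trans (by group) k)) (by
      change F.W1 ^ᶜ _ = F.W2
      rw [← cj_cj, ← cj_cj, hW, hW', hW])
  rcases m F.t (by simp) F.t1 with a | a | a
  · exact (F.W12 d γ (comm_of_cj a) hW).elim
  · rcases m F.u1 (by simp) F.hu1 with b | b | b
    · obtain ⟨F', hS, k1, k2, kT, kW, kW', -⟩ := F.exists_tw
      obtain ⟨γ', s⟩ := main (F := F') (hS.dl.trans d) (kT ▸ hT) (by rw [kW, kW', hW]) (by rw [kW, kW', hW'])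
        (by rw [hS.t, k2, a, F.b2_tt]) (by rw [k1, k2, cj_mul, a, b, F.tu2])
      exact ⟨F', γ', hS, s⟩
    · exact (tu (cj_inj' (a.trans b.symm))).elim
    · refine (n3 ?_).elim
      rw [a, c2, b, ← mul_assoc F.z, F.zt, mul_assoc F.t, e1, cj_mul, a, b, ← mul_assoc, ← F.tu2, mul_assoc, F.u22,
        mul_one]
  · rcases m F.u1 (by simp) F.hu1 with b | b | b
    · refine (n3 ?_).elim
      have k : F.t * F.u2 * (F.z * F.t) = F.u1 := by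
        rw [F.zt, F.tu2, mul_assoc, F.b2_tt, ← e1]
        exact F.sw.zu1.symm
      rw [a, cj_mul γ F.t, a, c2, b, k, b]
    · obtain ⟨γ', s⟩ := main d hT hW hW' a b
      exact ⟨F, γ', ⟨rfl, rfl, rfl, rfl, rfl, rfl, rfl, rfl, .inl ⟨rfl, rfl⟩⟩, s⟩
    · exact (tu (cj_inj' (a.trans b.symm))).elim

end Fr

end H25.A6
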