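import Mathlib
import Cfsg.Agent.Lib.A7S.SA
import Cfsg.Agent.Lib.A7S.SB
import Cfsg.Agent.Lib.A6C.SR
import Cfsg.Agent.Lib.Tech58.Harada
import Cfsg.Agent.S1232

/-! The end `D₈ ≀ 2`. -/

set_option autoImplicit false

namespace H25.A7

open Subgroup H69 H36.SW

variable {G : Type*} [Group G] [Finite G]

namespace E7aH

open SB1 DihedralGroup

theorem facts : ∃ a b c : Wr, (a * a = 1 ∧ b * b = 1 ∧ c * c = 1 ∧ a * b = b * a ∧ a * c = c * a ∧ b * c = c * b ∧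
    a ≠ 1 ∧ b ≠ 1 ∧ b ≠ a ∧ c ≠ 1 ∧ c ≠ a ∧ c ≠ b ∧ c ≠ a * b) ∧
    ∀ x : Wr, x * a = a * x → x * b = b * x → x * c = c * x → ∃ i j k : Fin 2, x = a ^ i.val * b ^ j.val * c ^ k.val :=
  ⟨⟨1, 1, true⟩, ⟨r 2, r 2, false⟩, ⟨sr 0, sr 0, false⟩, by decide +kernel, by decide +kernel⟩

end E7aH

namespace Fr

theorem CS.rk {F : Fr G} (c : F.CS) : Cfsg.SectionalPRankLE 2 4 F.E := by
  obtain ⟨σ, f, h⟩ := c.sd
  obtain ⟨φ, m⟩ := SB.exists_md h
  obtain ⟨a, b, d, ⟨f1, f2, f3, f4, f5, f6, f7, f8, f9, f10, f11, f12, f13⟩, k⟩ := E7aH.facts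
  have i := m.inj
  refine H80.A6C.sr_sub (H80.A6C.sr8' (m.syl h) (a := φ a) (b := φ b) (c := φ d) ⟨_, rfl⟩ ⟨_, rfl⟩ ⟨_, rfl⟩
    (by rw [← map_mul, f1, map_one]) (by rw [← map_mul, f2, map_one]) (by rw [← map_mul, f3, map_one])
    (by rw [← map_mul, f4, map_mul]) (by rw [← map_mul, f5, map_mul]) (by rw [← map_mul, f6, map_mul])
    (fun e => f7 (i (by rw [e, map_one]))) (fun e => f8 (i (by rw [e, map_one]))) (fun e => f9 (i e))
    (fun e => f10 (i (by rw [e, map_one]))) (fun e => f11 (i e)) (fun e => f12 (i e))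
    (fun e => f13 (i (by rw [e, map_mul]))) ?_) F.E
  rintro _ ⟨x, rfl⟩ h1 h2 h3
  obtain ⟨p, q, s, rfl⟩ := k x (i (by rw [map_mul, map_mul, h1])) (i (by rw [map_mul, map_mul, h2]))
    (i (by rw [map_mul, map_mul, h3]))
  simp only [map_mul, map_pow]
  exact mul_mem (mul_mem (pow_mem (subset_closure (by simp)) _) (pow_mem (subset_closure (by simp)) _))
    (pow_mem (subset_closure (by simp)) _)

end Fr

end H25.A7
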