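import Mathlib
import Cfsg.Agent.Lib.A6S.Dbl
import Cfsg.Agent.Lib.A6S.TrB

/-! Case `I`: the two types. -/

set_option autoImplicit false
set_option linter.unusedSectionVars false

namespace H25.A6

open Subgroup H69 H36.SW TrB

variable {G : Type*} [Group G] [Finite G]

namespace GI

variable {F : Fr G} {u0 ub za zc g d v η u0' ub' za' zc' g' d' v' η' : G}

theorem cen3 {x a b c : G} (h1 : a * x = x * a) (h2 : b * x = x * b) (h3 : c * x = x * c) :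
    x ∈ 𝐂(closure ({a, b, c} : Set G)) := by
  rw [centralizer_closure]
  rintro _ (rfl | rfl | rfl) <;> assumption

theorem cen4 {x a b c e : G} (h1 : a * x = x * a) (h2 : b * x = x * b) (h3 : c * x = x * c)
    (h4 : e * x = x * e) : x ∈ 𝐂(closure ({a, b, c, e} : Set G)) := by
  rw [centralizer_closure]
  rintro _ (rfl | rfl | rfl | rfl) <;> assumption

theorem F0X2 {f : G} (hf : f ∈ F.F0) : f ∈ F.sw.X1 := F.sw.F0X1 (F.sw_F0 ▸ hf)

theorem of_v {a x : G} (a2 : a * a = 1) (e : a * x * a = x) : a * x = x * a := by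
  conv_rhs => rw [← e]
  rw [mul_assoc, a2, mul_one]

theorem pure' {σ s : G} (hn : σ ∈ 𝐍(F.T)) (hu : σ * F.u1 = F.u1 * σ) (hV : σ ∈ 𝐍(F.V1))
    (e : σ * F.t * σ⁻¹ = s) : ∃ σ ∈ 𝐂(F.X1), σ * F.t * σ⁻¹ = s := by
  rcases F.pure (F.Nz hn) hu hV with h | h
  · exact ⟨σ, h, e⟩
  · exact ⟨_, h, by rw [← e, mul_assoc σ, ← F.tv2]; group⟩

theorem uV2 (h : F.u1 ∈ F.V2) : F.u1 = 1 := by
  rcases F.sw.memV1.1 h with e | e | e | e
  · exact e
  · simpa using (F.ind (a := 0) (b := 0) (c := 0) (d := 1) (e := 1)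
      (by simpa [show F.u1 = F.z from e] using F.zz)).2.2.2.1
  · simpa using (F.ind (a := 0) (b := 0) (c := 1) (d := 0) (e := 1)
      (by simpa [show F.u1 = F.v2 from e] using F.v22)).2.2.1
  · simpa using (F.ind (a := 0) (b := 0) (c := 1) (d := 1) (e := 1) (by
      have : F.z * F.v2 = F.v2 * F.z := F.sw.zv1
      have e' : F.u1 = F.z * F.v2 := e
      simpa [← this, ← e'] using F.u11)).2.2.1

theorem gv2 (h : F.Tr u0 ub za zc g d v η) : g * F.v2 * g⁻¹ = F.v2 * ub := by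
  rw [mul_inv_eq_iff_eq_mul, mul_assoc, h.gX _ (F.F0X1 (mem4 h).2.1), ← h.v2g, ← mul_assoc,
    ← mul_assoc, F.v22, one_mul]

theorem inZT {τ : G} (hτ : τ ∈ F.T) (h1 : F.v1 * τ = τ * F.v1) (h2 : F.v2 * τ = τ * F.v2) :
    ∃ f ∈ F.F0, τ = f ∨ τ = F.t * f := by
  have : τ ∈ 𝐂(F.T) := by
    rw [F.T_eq]
    exact cen4 (tc F hτ).symm h1 h2 (F0c F (mF F).2 _ hτ).symm
  rcases F.memZT.1 ((F.cenT hτ).1 this) with e | e
  · exact ⟨_, e, .inl rfl⟩
  · exact ⟨_, e, .inr (by rw [← mul_assoc, F.tt, one_mul])⟩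

/-- the exponents are read off from the action on `t` -/
theorem expo (h : F.Tr u0 ub za zc g d v η) {x : G}
    (hx : x ∈ closure ({F.t, F.v1, F.v2, F.u1, g, v} : Set G)) : ∃ τ ∈ F.T, ∃ i j : Fin 2,
      x = τ * g ^ (i : ℕ) * v ^ (j : ℕ) ∧ x * F.t * x⁻¹ = F.t * (F.z ^ (i : ℕ) * u0 ^ (j : ℕ)) := by
  obtain ⟨τ, hτ, i, j, rfl⟩ := h.mem' hx
  exact ⟨τ, hτ, i, j, rfl, ct h hτ i j⟩

theorem sqf {f x : G} (hf : f ∈ F.F0) (hx : x ∈ 𝐂(F.X1)) : f * x * (f * x) = x * x := by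
  rw [← mul_assoc, mul_assoc f x, ← hx f (F.F0X1 hf), ← mul_assoc, f2 hf, one_mul]

theorem sqt {f x s : G} (hf : f ∈ F.F0) (hx : x ∈ 𝐂(F.X1)) (e : x * F.t * x⁻¹ = F.t * s) :
    F.t * f * x * (F.t * f * x) = s * (x * x) := by
  rw [F0c F hf _ (mT F).1]
  calc _ = f * F.t * (x * f * x⁻¹) * (x * F.t * x⁻¹) * (x * x) := by group
    _ = f * F.t * f * F.t * s * (x * x) := by
      rw [conj_eq_of_mem_centralizer hx (F.F0X1 hf), e]; group
    _ = _ := by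
      rw [mul_assoc f F.t, F0c F hf _ (mT F).1, ← mul_assoc f f, f2 hf, one_mul, F.tt, one_mul]

theorem al (h : F.Tr u0 ub za zc g d v η) (c : (u0 = 1 ∧ F.CI) ∨ (u0 = F.u1 ∧ F.CA))
    (h' : F.sw.Tr u0' ub' za' zc' g' d' v' η') : ∃ g' d' v' η', F.sw.Tr u0' ub' za' zc' g' d' v' η' ∧
      g' ∈ closure ({F.t, F.v1, F.v2, F.u1, g, v} : Set G) ∧
      v' ∈ closure ({F.t, F.v1, F.v2, F.u1, g, v} : Set G) := by
  obtain ⟨o, ho, h2, k⟩ := h.align c h'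
  exact ⟨_, _, _, _, h'.cj (F.sw_T ▸ ho) h2, k⟩

theorem ne1 (h : F.Tr u0 1 1 zc g d v η) : d * d = 1 := by
  rcases h.dd with e | e
  exacts [e.2, (F.z1 e.1.symm).elim]

theorem nez (h : F.Tr u0 1 F.z zc g d v η) : d * d = F.v1 := by
  rcases h.dd with e | e
  exacts [(F.z1 e.1).elim, by rw [e.2, mul_one]]

theorem dg' (h : F.Tr u0 ub za zc g d v η) (h' : F.sw.Tr u0' 1 za' zc' g' d' v' η') {f : G}
    (hf : f ∈ F.F0) (e : g' = f * g) : g * d' = d' * g := by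
  have := h'.gd
  have := h.vv
  rw [show g = f⁻¹ * g' by rw [e, inv_mul_cancel_left], mul_assoc, h'.gd, mul_one, ← mul_assoc,
    h'.dX _ (F0X2 (inv_mem hf)), mul_assoc]

theorem mkEE (h : F.Tr u0 1 1 1 g d v η) (h' : F.sw.Tr u0' 1 1 zc' g' d' v' η')
    (cs : (u0 = 1 ∧ v = 1 ∧ F.CI) ∨ (u0 = F.u1 ∧ F.CA)) {f : G} (hf : f ∈ F.F0) (e : g' = f * g)
    (hv : F.v2 * v = v * F.v2) (hd : v * d' = d' * v) : F.EE u0 g v d d' := by
  have gg : g * g = 1 := by rw [h.gg, mul_one]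
  have d1 := ne1 h
  have d2 := ne1 h'
  have i : ∀ {x : G}, x * x = 1 → x⁻¹ = x := inv_eq_of_mul_eq_one_right
  have mg : g ∈ closure ({F.z, F.u1, g, v} : Set G) := subset_closure (by simp)
  have vd : v * d * v = d := by
    rcases h.vd with e | e
    exacts [e.2, (F.z1 e.1.symm).elim]
  refine ⟨cs, gg, h.vv, (of_v h.vv (by rw [h.vg, mul_one])).symm,
    cen3 (h.gX _ (mX F).2.1) (of_v F.v22 (by rw [h.v2g, mul_one])) (h.gX _ (mX F).2.2),
    cen3 (h.vX _ (mX F).2.1) hv (h.vX _ (mX F).2.2), by rw [← h.gt, i gg], by rw [← h.vt, i h.vv],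
    cen4 (h.dX _ (mX F).1) (h.dX _ (mX F).2.2) (by rw [h.gd, mul_one]) (of_v h.vv vd),
    cen4 (h'.dX _ (F0X2 (mF F).1)) (h'.dX _ (F0X2 (mF F).2)) (dg' h h' hf e) hd, d1, d2,
    (h.dX _ (mX F).2.1).symm, (h'.dX _ (mX F.sw).2.1).symm, by rw [← h.dt, i d1],
    (by rw [i d2] : d' * F.t * d' = d' * F.t * d'⁻¹).trans h'.dt, ?_, ?_, h.gE, h.dE, h'.dE⟩
  · rw [mul_assoc, mul_assoc, ← mul_assoc F.v2, h.v2d]
    simpa using mg
  · have : F.v1 * d' * F.v1 = (g' * d')⁻¹ * 1 := h'.v2d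
    rw [mul_assoc, mul_assoc, ← mul_assoc F.v1, this, e]
    have mz : F.z ∈ closure ({F.z, F.u1, g, v} : Set G) := subset_closure (by simp)
    have mu : F.u1 ∈ closure ({F.z, F.u1, g, v} : Set G) := subset_closure (by simp)
    have mf : f ∈ closure ({F.z, F.u1, g, v} : Set G) := by
      rcases F.memF0.1 hf with k | k | k | k <;> rw [k]
      exacts [one_mem _, mz, mu, mul_mem mz mu]
    simpa using mul_mem (inv_mem mg) (inv_mem mf)

theorem inv4 {x a : G} (e : x * F.t * x⁻¹ = F.t * a) (x2 : x * x = a) (a2 : a * a = 1) :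
    F.t * x * F.t = x⁻¹ := by
  rw [mul_assoc, mul_inv_eq_iff_eq_mul.1 e, ← mul_assoc, ← mul_assoc, F.tt, one_mul,
    eq_inv_iff_mul_eq_one, mul_assoc, x2, a2]

theorem ηt (h : F.Tr u0 ub za zc g d v η) : η * F.t = F.t * η := by
  rw [← mul_inv_eq_iff_eq_mul, h.act (subset_closure (by simp)), F.y1t, mul_inv_cancel_right]

theorem ηu (h : F.Tr u0 ub za zc g d v η) : η * F.u1 = F.u1 * η := by
  rw [← mul_inv_eq_iff_eq_mul, h.act (F.X1W1 (mX F).2.2), F.y1u, mul_inv_cancel_right]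

theorem mkZZ (h : F.Tr u0 1 F.z zc g d v η) (h' : F.sw.Tr u0' 1 F.z zc' g' d' v' η') {r r' : G}
    (cs : (u0 = 1 ∧ r = 1 ∧ r' = 1 ∧ F.CI) ∨
      (u0 = F.u1 ∧ r' * r' = F.u2 ∧ (g * r)⁻¹ * r' ∈ F.F0 ∧ F.CA)) {f : G} (hf : f ∈ F.F0)
    (e : g' = f * g) (rr : r * r = u0) (gr : g * r = r * g)
    (rT : r ∈ 𝐂(closure ({F.v1, F.v2, F.u1} : Set G))) (tr : F.t * r * F.t = r⁻¹)
    (rd : r * d = d * r) (rd' : r * d' = d' * r) (ηr : η * r = r * η) (ηr' : η' * r' = r' * η') :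
    F.ZZ u0 g g' r r' d d' η η' := by
  have gg : g * g = F.z := by rw [h.gg, mul_one]
  have d1 := nez h
  have d2 := nez (F := F.sw) h'
  exact ⟨cs, by rwa [e, h.gX f (F.F0X1 hf), inv_mul_cancel_left], gg, rr, gr,
    cen3 (h.gX _ (mX F).2.1) (of_v F.v22 (by rw [h.v2g, mul_one])) (h.gX _ (mX F).2.2), rT,
    inv4 h.gt gg F.zz, tr, cen3 (by rw [h.gd, mul_one]) rd (h.dX _ (mX F).2.2),
    cen3 (dg' h h' hf e) rd' (h'.dX _ (F0X2 (mF F).2)), d1, d2, inv4 h.dt d1 F.v11,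
    inv4 (F := F.sw) h'.dt d2 F.v22, by rw [h.dv2, d1, mul_one],
    h'.dv2.trans (by rw [d2, mul_one]; rfl), ηt h, ηt (F := F.sw) h', ηu h, ηu (F := F.sw) h', ηr, ηr', h.ηg, h'.ηg,
    h.ηd, h'.ηd⟩

theorem hz (c : F.CI) : ∃ σ ∈ 𝐂(F.X1), σ * F.t * σ⁻¹ = F.t * F.z := by
  obtain ⟨σ, hσ, e⟩ := c.sz
  refine pure' hσ.1 (c.fx1 σ hσ) (mem_normalizer_fintype fun x hx => ?_) e
  have := c.cjV hσ.2.1 hx
  rw [← conj_mul, e, mul_assoc F.t F.z, ← mul_assoc F.t, F.tt, one_mul] at this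
  exact (F.V1.mul_mem_cancel_left (F.memV1.2 (.inr (.inl rfl)))).1 this

theorem ex (c : F.CI) : ∃ za g d η, F.Tr 1 1 za 1 g d 1 η := by
  obtain ⟨ub, za, zc, g, d, v, η, h⟩ := F.dbl (hz c) (.inl rfl)
  obtain rfl : v = 1 := h.h0.elim (·.2) fun e => (e.2 e.1.symm).elim
  obtain rfl : zc = 1 := by simpa using h.vg
  have m2 : F.v2 ∈ F.V2 := subset_closure (by simp)
  have mz : F.z ∈ F.V2 := subset_closure (by simp)
  have k : F.t * (g * (F.t * F.v2) * g⁻¹) ∈ F.V2 := c.sw.cjV (h.normN (subset_closure (by simp))).2.2 m2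
  rw [← conj_mul, h.gt, gv2 h, mul_assoc F.t F.z, ← mul_assoc F.t, F.tt, one_mul, ← mul_assoc,
    F.V2.mul_mem_cancel_left (mul_mem mz m2)] at k
  obtain rfl : ub = 1 := h.hb.elim id fun e => e.trans (uV2 (e ▸ k))
  exact ⟨za, g, d, η, h⟩

theorem mixed (c : F.CI) (h : F.Tr 1 1 1 1 g d 1 η) (h' : F.sw.Tr 1 1 F.z 1 g' d' 1 η') {f : G}
    (hf : f ∈ F.F0) (e : g = F.t * f * g') : False := by
  have k : ∀ {F : Fr G} {za g d η : G}, F.Tr 1 1 za 1 g d 1 η → d⁻¹ * F.t * d = F.t * F.v1 :=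
    fun {F za g d η} h => by
      rw [← inv_eq_of_mul_eq_one_right F.v11, eq_mul_inv_iff_mul_eq, mul_assoc,
        ← h.dX _ (mX F).2.1, mul_assoc, ← mul_assoc F.t, ← h.dt]
      group
  have a1 := k h
  have a2 : d'⁻¹ * F.t * d' = F.t * F.v2 := k h'
  have a3 : d⁻¹ * F.v2 * d = F.v2 * g := by rw [h.dv2, ne1 h, mul_one, mul_one]
  have a4 : d'⁻¹ * F.v1 * d' = F.v1 * g' * F.v2 := h'.dv2.trans (by rw [nez (F := F.sw) h', mul_one]; rfl)
  have a5 : ∀ x ∈ F.sw.X1, d'⁻¹ * x * d' = x := fun x hx => by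
    rw [mul_assoc, h'.dX x hx, inv_mul_cancel_left]
  have a6 : d'⁻¹ * g' * d' = g' := by rw [mul_assoc, h'.gd, mul_one, inv_mul_cancel_left]
  have gg : g' * g' = F.z := h'.gg.trans (mul_one _)
  have cj : ∀ a x y : G, a⁻¹ * (x * y) * a = a⁻¹ * x * a * (a⁻¹ * y * a) := fun a x y => by group
  have o := ((F.om_t.cj d'⁻¹).cj d⁻¹).cj d'⁻¹
  simp only [inv_inv] at o
  rw [a2, cj d, a1, a3, e, show F.t * F.v1 * (F.v2 * (F.t * f * g')) = F.v1 * (F.v2 * (f * g')) by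
    rw [F.tv1, mul_assoc F.v1, ← mul_assoc F.t, F.tv2, mul_assoc F.t, mul_assoc F.v2, ← mul_assoc F.t,
      F.tt, one_mul], cj, cj, cj, a4, a5 F.v2 (mX F.sw).2.1, a5 _ (F0X2 hf), a6, mul_assoc,
    ← mul_assoc F.v2, F.v22, one_mul, h'.gX f (F0X2 hf), mul_assoc, ← mul_assoc g', gg] at o
  exact F.nX1 c.n1 c.n2 (mul_mem (mX F).2.1 (mul_mem (mX F).1 (F.F0X1 hf))) o

end GI

open GI

namespace Fr

theorem CI.split {F : Fr G} (c : F.CI) : (∃ g d1 d2, F.EE 1 g 1 d1 d2) ∨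
    ∃ g g' d1 d2 η1 η2, F.ZZ 1 g g' 1 1 d1 d2 η1 η2 := by
  obtain ⟨za, g, d, η, h⟩ := ex c
  obtain ⟨za', g0, d0, η0, h0⟩ := ex c.sw
  obtain ⟨g', d', v', η', h', mg, -⟩ := al h (.inl ⟨rfl, c⟩) h0
  obtain rfl : v' = 1 := h'.h0.elim (·.2) fun e => (e.2 e.1.symm).elim
  obtain ⟨τ, hτ, i, j, e, e'⟩ := expo h mg
  have gt : g' * F.t * g'⁻¹ = F.t * F.z := h'.gt
  obtain rfl : i = 1 := by
    fin_cases i
    · exact (F.z1 (by simpa [gt] using e')).elim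
    · rfl
  simp only [Fin.val_one, pow_one, one_pow, mul_one] at e
  have cm : ∀ {x}, x * g' = g' * x → x * g = g * x → x * τ = τ * x := fun {x} a b => by
    rw [eq_mul_inv_of_mul_eq e.symm]; exact (Commute.mul_right a (Commute.inv_right b)).eq
  obtain ⟨f, hf, k⟩ := inZT hτ (cm (of_v F.v11 (h'.v2g.trans (mul_one _))) (h.gX _ (mX F).2.1))
    (cm (h'.gX _ (mX F.sw).2.1) (of_v F.v22 (by rw [h.v2g, mul_one])))
  have gg : g * g = za := by rw [h.gg, mul_one]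
  have gg' : g' * g' = za' := by rw [h'.gg, mul_one]
  rcases k with rfl | rfl
  · obtain rfl : za' = za := by rw [← gg', e, sqf hf h.gX, gg]
    rcases h.ha with rfl | rfl
    · exact .inl ⟨_, _, _, mkEE h h' (.inl ⟨rfl, rfl, c⟩) hf e (by simp) (by simp)⟩
    · exact .inr ⟨_, _, _, _, _, _, mkZZ h h' (.inl ⟨rfl, rfl, rfl, c⟩) hf e (by simp) (by simp)
        (one_mem _) (by simp [F.tt]) (by simp) (by simp) (by simp) (by simp)⟩
  · have e2 : za' = F.z * za := by rw [← gg', e, sqt hf h.gX h.gt, gg]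
    have e3 : g = F.t * f * g' := by
      rw [e, ← mul_assoc, F.sqW1 (mul_mem (subset_closure (by simp)) (F.X1W1 (F.F0X1 hf))), one_mul]
    rcases h.ha with rfl | rfl
    · rw [mul_one] at e2
      subst e2
      exact (mixed c h h' hf e3).elim
    · rw [F.zz] at e2
      subst e2
      exact (mixed (F := F.sw) c.sw h' h (F.sw_F0 ▸ hf) e).elim

end Fr

end H25.A6
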