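import Mathlib
import Cfsg.Agent.Lib.A6S.HT
import Cfsg.Agent.Lib.A6S.H1
import Cfsg.Agent.Lib.A6S.HJ

/-! `IIb`, type `EE`: `t v ∉ E`. -/

set_option autoImplicit false
set_option linter.unusedSectionVars false

namespace H25.A6

open Subgroup H69 H36.SW H25.A7

variable {G : Type*} [Group G] [Finite G]

namespace Fr
variable {F : Fr G} {u0 g g' v d1 d2 η η1 η2 κ k a b γ : G}

theorem H2_ca (h : F.EN F.u1 g v d1 d2 η κ) : F.CA := by
  rcases h.ek.cs with ⟨e, -⟩ | ⟨-, c⟩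
  · exact absurd e F.hu1
  · exact c

theorem H2_κκ (h : F.EN F.u1 g v d1 d2 η κ) : κ * κ = 1 := by
  rcases h.sq with ⟨-, e⟩ | ⟨e, -⟩
  · exact e
  · rcases h.kd with ⟨e', -⟩ | ⟨-, e', -⟩
    · exact absurd e e'
    · exact absurd e' F.hu1

theorem H2_g1 (h : F.EN u0 g v d1 d2 η κ) : g * F.t ≠ F.t * g := fun e => by
  have e1 := h.ek.gt
  rw [e, mul_assoc, h.ek.gg] at e1
  exact F.z1 (mul_left_cancel e1).symm

theorem H2_UC (h : F.EN u0 g v d1 d2 η κ) : F.U g v d1 d2 ≤ 𝐂(F.Ud g) :=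
  h.ek.b_UC.trans (centralizer_anti h.UdZ)

theorem H2_κC (h : F.EN u0 g v d1 d2 η κ) : κ ∈ 𝐂(F.Ud g) := by
  refine B2.cent_gen ?_
  rintro x (rfl | rfl)
  · refine (B2.comm_of_cj ?_).symm
    conv_lhs => rw [← F.hz]
    rw [B2.cj_mul, B2.cj_mul, B2.cj_mul, h.κv1, h.κv2, F.hz']
  · exact h.κg.symm

theorem H2_kC (q : F.KK g v d1 d2 κ k) : k ∈ 𝐂(F.Ud g) := by
  refine B2.cent_gen ?_
  rintro x (rfl | rfl)
  · exact q.kz.symm
  · exact q.kg.symm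

theorem H2_uUd (h : F.EN u0 g v d1 d2 η κ) : F.u1 ∉ F.Ud g := fun e => by
  have := (h.indZ (i := 1) (j := 0) (by simpa using h.UdU0 e)).1
  exact absurd this (by decide)

theorem H2_nf (h : F.SY u0 g v d1 d2 η κ k) {s : G} (hs : s ∈ F.SK g v d1 d2 κ k) :
    ∃ y ∈ F.U g v d1 d2, ∃ a, (a = 1 ∨ a = κ ∨ (F.KK g v d1 d2 κ k ∧ (a = k ∨ a = κ * k))) ∧
      (s = a * y ∨ s = F.t * a * y) := by
  rcases h.hk with rfl | q
  · obtain ⟨y, hy, i, j, rfl⟩ := h.toEN.mem2.1 hs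
    refine ⟨y, hy, κ ^ (j : ℕ), ?_, ?_⟩
    · fin_cases j <;> simp
    · fin_cases i <;> simp
  · obtain ⟨y, hy, i, j, l, rfl⟩ := (h.toEN.mem3 q).1 hs
    refine ⟨y, hy, κ ^ (j : ℕ) * k ^ (l : ℕ), ?_, ?_⟩
    · fin_cases j <;> fin_cases l <;> simp [q]
    · fin_cases i <;> simp [mul_assoc]

theorem H2_aC (h : F.EN u0 g v d1 d2 η κ) {a : G}
    (ha : a = 1 ∨ a = κ ∨ (F.KK g v d1 d2 κ k ∧ (a = k ∨ a = κ * k))) : a ∈ 𝐂(F.Ud g) := by
  rcases ha with rfl | rfl | ⟨q, rfl | rfl⟩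
  · exact one_mem _
  · exact H2_κC h
  · exact H2_kC q
  · exact mul_mem (H2_κC h) (H2_kC q)

theorem H2_tC (h : F.EN u0 g v d1 d2 η κ) : F.t ∉ 𝐂(F.Ud g) := fun e =>
  H2_g1 h (mem_centralizer_iff.1 e g (subset_closure (by simp)))

/-- `s y` and `s` act in the same way on `U / Z0` -/
theorem H2_mod (h : F.EN u0 g v d1 d2 η κ) {s y x : G} (hs : s ∈ 𝐍(F.Z0 g v)) (hy : y ∈ F.U g v d1 d2)
    (hx : x ∈ F.U g v d1 d2) : ∃ c ∈ F.Z0 g v, s * y * x * (s * y)⁻¹ = s * x * s⁻¹ * c :=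
  ⟨_, conj_mem_of_mem_normalizer hs (h.ek.comm (inv_mem hx) hy), by group⟩

theorem H2_fx (h : F.EN u0 g v d1 d2 η κ) {s y : G} (hs : s ∈ 𝐍(F.Z0 g v)) (hy : y ∈ F.U g v d1 d2)
    (hx : s * y * (s * y) ∈ F.U g v d1 d2) :
    (s * y * (s * y))⁻¹ * (s * (s * y * (s * y)) * s⁻¹) ∈ F.Z0 g v := by
  obtain ⟨c, hc, e⟩ := H2_mod h hs hy hx
  have e1 : s * (s * y * (s * y)) * s⁻¹ = s * y * (s * y) * c⁻¹ := by
    rw [eq_mul_inv_iff_mul_eq, ← e]; group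
  rw [e1, inv_mul_cancel_left]
  exact inv_mem hc

theorem H2_two (h : F.EN u0 g v d1 d2 η κ) {s y e : G} (hs : s ∈ 𝐍(F.Z0 g v)) (hs0 : s ∈ 𝐍(F.UO d1 d2))
    (hsC : s ∈ 𝐂(F.Ud g)) (hy : y ∈ F.U g v d1 d2) (he : e ∈ F.UO d1 d2)
    (fx : e⁻¹ * (s * e * s⁻¹) ∈ F.Z0 g v) : s * y * (s * y) * e = e * (s * y * (s * y)) := by
  obtain ⟨c, hc, e1⟩ := H2_mod h hs hy (h.U0U he)
  have hm : s * y ∈ 𝐂(F.Ud g) := mul_mem hsC (H2_UC h hy)
  have h0 : y * e * y⁻¹ ∈ F.UO d1 d2 := by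
    simpa using mul_mem (h.UdU0 (h.comm hy (h.U0U he))) he
  have h1 : e⁻¹ * (s * y * e * (s * y)⁻¹) ∈ F.Ud g := by
    rw [← h.U0Z (v := v)]
    refine mem_inf.2 ⟨mul_mem (inv_mem he) ?_, ?_⟩
    · have := conj_mem_of_mem_normalizer hs0 h0
      simpa [mul_assoc] using this
    · rw [e1, ← mul_assoc]
      exact mul_mem fx hc
  generalize s * y = m at hm h1 ⊢
  have h2 := h.ek.sqZ0 (h.UdZ h1)
  have h3 := mem_centralizer_iff.1 hm _ h1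
  generalize hb : e⁻¹ * (m * e * m⁻¹) = b at h2 h3
  have h4 : m * e = e * b * m := by rw [← hb]; group
  calc m * m * e = m * (e * b * m) := by rw [mul_assoc, h4]
    _ = m * e * (b * m) := by group
    _ = e * (b * (m * b)) * m := by rw [h4]; group
    _ = e * (m * m) := by rw [← h3, ← mul_assoc b, h2]; group

theorem H2_nc (h : F.EN u0 g v d1 d2 η κ) (w : d1 * d2 * d1 * d2 = g) : d1 * d2 ≠ d2 * d1 := fun e => by
  have e1 : g = 1 := by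
    rw [← w, mul_assoc d1, ← e, ← mul_assoc, h.ek.d11, one_mul, h.ek.d22]
  exact H2_g1 h (by rw [e1, one_mul, mul_one])

theorem H2_td1 (h : F.EN u0 g v d1 d2 η κ) : F.t * d1 * F.t⁻¹ = F.v1 * d1 := by
  rw [← h.ek.b_td1, B1.iv' F.tt, inv_mul_cancel_right]

theorem H2_td2 (h : F.EN u0 g v d1 d2 η κ) : F.t * d2 * F.t⁻¹ = F.v2 * d2 := by
  rw [← h.ek.b_td2, B1.iv' F.tt, inv_mul_cancel_right]

theorem H2_Z (h : F.EN u0 g v d1 d2 η κ) (q : F.KK g v d1 d2 κ k) {s y e f : G} (hk : s = k ∨ s = κ * k)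
    (hs : s ∈ 𝐍(F.Z0 g v)) (hs0 : s ∈ 𝐍(F.UO d1 d2)) (hsC : s ∈ 𝐂(F.Ud g)) (hy : y ∈ F.U g v d1 d2)
    (hx : s * y * (s * y) ∈ F.U g v d1 d2) (h2 : s * y * (s * y) * (s * y * (s * y)) = 1)
    (he : e ∈ F.UO d1 d2) (hf : f ∈ F.UO d1 d2) (ee : e * e = 1) (ef : e * f ≠ f * e)
    (fe : e⁻¹ * (s * e * s⁻¹) ∈ F.Z0 g v) (ff : f⁻¹ * (s * f * s⁻¹) ∈ F.Z0 g v) :
    s * y * (s * y) ∈ F.Z0 g v := by
  have c1 := H2_two h hs hs0 hsC hy he fe
  have c2 := H2_two h hs hs0 hsC hy hf ff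
  have c3 := mem_centralizer_iff.1 (h.ek.b_UC (h.U0U hf))
  rcases h.fix1 (.inr (.inr ⟨q, hk⟩)) hx (h.U0U he) h2 ee c1 (H2_fx h hs hy hx) fe with a | a | a
  · exact a
  · exact absurd (c3 _ a) ef
  · have c4 := c3 _ a
    generalize s * y * (s * y) = x at c2 c4
    refine absurd (mul_left_cancel (a := x) ?_) ef
    rw [← mul_assoc, c4, ← mul_assoc, ← c2, mul_assoc]

theorem H2_sq (h : F.SY F.u1 g v d1 d2 η κ k) (w : d1 * d2 * d1 * d2 = g) {a y : G}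
    (ha : a = κ ∨ (F.KK g v d1 d2 κ k ∧ (a = k ∨ a = κ * k))) (hy : y ∈ F.U g v d1 d2)
    (h2 : a * y * (a * y) * (a * y * (a * y)) = 1) : a * y * (a * y) ∈ F.Z0 g v := by
  have n := h.toEN
  have sqU : ∀ {a : G}, a ∈ 𝐍(F.U g v d1 d2) → a * a ∈ F.U g v d1 d2 → a * y * (a * y) ∈ F.U g v d1 d2 :=
    fun {a} h1 h2 => by
      have := mul_mem (mul_mem (conj_mem_of_mem_normalizer h1 hy) h2) hy
      simpa [mul_assoc] using this
  have m1 : F.v1 ∈ F.UO d1 d2 := subset_closure (by simp)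
  have m2 : F.v2 ∈ F.UO d1 d2 := subset_closure (by simp)
  have m3 : d1 ∈ F.UO d1 d2 := subset_closure (by simp)
  have m4 : d2 ∈ F.UO d1 d2 := subset_closure (by simp)
  rcases ha with rfl | ⟨q, rfl | rfl⟩
  · have hx := sqU n.κU (by rw [H2_κκ n]; exact one_mem _)
    exact n.fixκ hx h2 (H2_fx n n.κZ hy hx)
  · refine H2_Z n q (.inl rfl) q.kZ (h.kU0 q).1 (H2_kC q) hy (sqU q.kU q.kk) h2 (mul_mem m1 m3)
      (mul_mem m2 m4) ?_ ?_ q.ke' q.kf'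
    · rw [← H2_td1 n]; exact cjsq n.ek.d11 _
    · rw [← H2_td1 n, ← H2_td2 n, ← B2.cj_mul, ← B2.cj_mul]
      exact fun e => H2_nc n w (B2.cj_inj' e)
  · refine H2_Z n q (.inr rfl) (mul_mem n.κZ q.kZ) (mul_mem n.κU0 (h.kU0 q).1)
      (mul_mem (H2_κC n) (H2_kC q)) hy (sqU (mul_mem n.κU q.kU) ?_) h2 m3 m4 n.ek.d11 (H2_nc n w) ?_ ?_
    · have e : κ * k * (κ * k) = κ * κ * (κ⁻¹ * (k * κ * k⁻¹) * (k * k)) := by group
      rw [e, H2_κκ n, one_mul]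
      exact mul_mem q.kκ q.kk
    · have := conj_mem_of_mem_normalizer n.κZ q.ke
      rw [B2.cj_mul, ← conj_inv, n.κd2] at this
      simpa [mul_assoc] using this
    · have := conj_mem_of_mem_normalizer n.κZ q.kf
      rw [B2.cj_mul, ← conj_inv, n.κd] at this
      simpa [mul_assoc] using this

theorem H2_mv (h : F.EN u0 g v d1 d2 η κ) {a : G}
    (ha : a = κ ∨ (F.KK g v d1 d2 κ k ∧ (a = k ∨ a = κ * k))) : a * F.u1 * a⁻¹ ≠ F.u1 := by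
  rcases ha with rfl | ⟨q, ha⟩
  · rw [h.κu1]; exact F.u12ne.symm
  · obtain ⟨c, hc, c1, c2, e⟩ := h.ku q
    rcases ha with rfl | rfl
    · rw [e]; simpa using c1
    · have e1 : κ * k * F.u1 * (κ * k)⁻¹ = κ * (k * F.u1 * k⁻¹) * κ⁻¹ := by group
      rw [e1, e, B2.cj_mul, h.κu1, B2.cj_of_comm (mem_centralizer_iff.1 (H2_κC h) c hc).symm,
        F.u2_eq F.hu1, F.zu1, mul_assoc]
      intro e2
      refine c2 ?_
      rw [← B1.iv' F.zz]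
      exact eq_inv_of_mul_eq_one_right (by simpa using e2)

theorem H2_h3 (h : F.SY F.u1 g v d1 d2 η κ k) (w : d1 * d2 * d1 * d2 = g) {m s : G}
    (hm : m ∈ F.SK g v d1 d2 κ k) (hC : m ∈ 𝐂(F.Ud g)) : m * m ≠ s * F.u1 * s⁻¹ := fun e => by
  have n := h.toEN
  obtain ⟨y, hy, a, ha, rfl | rfl⟩ := H2_nf h hm
  · rcases ha with rfl | ha
    · rw [one_mul] at e
      exact H2_uUd n (h.nUd n.ek.b_uZ (e ▸ n.sqU hy))
    · have h1 := H2_sq h w ha hy (by rw [e]; exact cjsq F.u11 s)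
      have h2 := h.cju w (e ▸ h1)
      rw [← e] at h2
      have h3 := mem_centralizer_iff.1 hC _ h2
      have h4 := mem_centralizer_iff.1 (n.ek.b_UC hy) _ n.ek.b_uZ
      refine H2_mv n ha (B2.cj_of_comm ?_)
      have h5 : F.u1 * (a * y) = a * y * F.u1 := by
        generalize a * y = m at h3
        refine mul_right_cancel (b := m * m) ?_
        rw [mul_assoc m, ← h3]; group
      refine mul_right_cancel (b := y) ?_
      rw [mul_assoc, h4, ← mul_assoc, ← h5, mul_assoc]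
  · refine H2_tC n ?_
    have := mul_mem hC (inv_mem (mul_mem (H2_aC n ha) (H2_UC n hy)))
    simpa [mul_assoc] using this

theorem H2_h4 (h : F.SY F.u1 g v d1 d2 η κ k) (w : d1 * d2 * d1 * d2 = g) {s : G}
    (hm : s * F.u1 * s⁻¹ ∈ F.SK g v d1 d2 κ k) : s * F.u1 * s⁻¹ ∈ 𝐂(F.Ud g) := by
  have n := h.toEN
  have h2 := cjsq F.u11 s
  obtain ⟨y, hy, a, ha, e | e⟩ := H2_nf h hm
  · rw [e]; exact mul_mem (H2_aC n ha) (H2_UC n hy)
  exfalso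
  rw [e] at h2
  rcases ha with rfl | rfl | ⟨q, rfl | rfl⟩
  · rw [mul_one] at e h2
    obtain ⟨l, -, f, hf, e1⟩ := n.ek.invt hy h2
    have o : F.Om (F.t * f) := ((H2_ca n).omW1 (mul_mem F.b2_tW (F.X1W1 (F.F0X1 hf)))).2
      (by rw [F.b2_tt]; exact F.F0X1 hf)
    exact (H2_ca n).n1 (Om.of_cj s (by rw [e, e1]; exact o.cj l))
  · obtain ⟨l, -, e1⟩ := n.invtκ w hy h2
    refine h.ntκ w (s⁻¹ * l) ?_
    calc _ = s⁻¹ * (l * (F.t * a) * l⁻¹) * s := by group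
      _ = _ := by rw [← e1, ← e]; group
  · exact (n.noinv q hy).1 (h2 ▸ one_mem _)
  · rw [← mul_assoc F.t κ] at h2
    exact (n.noinv q hy).2 (h2 ▸ one_mem _)

theorem SY.vE (h : F.SY F.u1 g v d1 d2 η κ k) (w : d1 * d2 * d1 * d2 = g) : v ∈ F.E := by
  have n := h.toEN
  have rr : F.t * v * (F.t * v) = F.u1 := by
    rw [mul_assoc, ← mul_assoc v, n.ek.vt, F.b2_tt]
  have tS : F.t ∈ F.SK g v d1 d2 κ k := mem_sup_right (subset_closure (by simp))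
  have key := F.trG (M := F.SK g v d1 d2 κ k ⊓ 𝐂(F.Ud g)) (P := zpowers (F.t * v)) (x := F.t * v)
    h.syl inf_le_left tS (fun e => H2_tC n e.2) (fun s hs => ?_) ?_ (mem_zpowers _) ?_ ?_ ?_
  · rcases F.top (F.t * v) with e | e
    · exact absurd e key.1
    · have := F.En.conj_mem _ e F.t⁻¹
      rwa [inv_inv, ← mul_assoc, ← mul_assoc, inv_mul_cancel, one_mul, mul_assoc, F.tt, mul_one] at this
  · obtain ⟨y, hy, a, ha, e | e⟩ := H2_nf h hs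
    · exact .inl ⟨hs, e ▸ mul_mem (H2_aC n ha) (H2_UC n hy)⟩
    · refine .inr ⟨mul_mem hs tS, ?_⟩
      have := conj_mem_of_mem_normalizer (normalizer_le_normalizer_centralizer _ (n.NUd n.ek.tN))
        (mul_mem (H2_aC n ha) (H2_UC n hy))
      rw [B1.iv' F.tt] at this
      rw [e, mul_assoc F.t]
      exact this
  · refine (P2.of_mul_self ?_).zpowers
    rw [rr]; exact P2.of_sq F.u11
  · exact zpowers_le.2 (mem_centralizer_singleton_iff.2 rfl)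
  · intro y _ e
    exact H2_h3 h w (s := y) e.1 e.2 (by rw [← B2.cj_mul, rr])
  · intro y m e
    refine ⟨e, ?_⟩
    rw [rr] at e ⊢
    rcases Nat.even_or_odd m with ⟨j, rfl⟩ | o
    · rw [← two_mul, pow_mul, sq, F.u11, one_pow, mul_one, mul_inv_cancel]
      exact one_mem _
    · rw [pow_odd_of_sq F.u11 o] at e ⊢
      exact H2_h4 h w e

end Fr

end H25.A6
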