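import Mathlib
import Cfsg.Agent.Lib.A6S.HT

/-! `dl² = t` is impossible in type `EE`. -/

set_option autoImplicit false

namespace H25.A6

open Subgroup H69 H36.SW H25.A7

variable {G : Type*} [Group G] [Finite G]

namespace Fr
variable {F : Fr G} {u0 g g' v d1 d2 η η1 η2 κ k a b γ : G}

theorem EK.h4_sq (h : F.EK u0 g v d1 d2) {x y : G} (hx : x ∈ F.U g v d1 d2) (hy : y ∈ F.U g v d1 d2) :
    x * F.t * (y * F.t) ∈ F.U g v d1 d2 := by
  have := mul_mem hx (conj_mem_of_mem_normalizer h.tN hy)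
  rwa [EB.inv_self F.tt, ← mul_assoc, ← mul_assoc, mul_assoc _ y] at this

theorem ES.four (h : F.ES u0 g v d1 d2 η κ) (c : F.CA) (h0 : u0 = F.u1) (e : κ * κ = F.t) : False := by
  haveI : Fact (Nat.Prime 2) := ⟨Nat.prime_two⟩
  have ek := h.ek
  have κt : κ * F.t * κ⁻¹ = F.t := by rw [← e]; group
  have tM : F.t ∈ F.U g v d1 d2 ⊔ zpowers F.t := mem_sup_right (mem_zpowers _)
  have tc : ∀ x : G, x * F.t * F.t = x := fun x => by rw [mul_assoc, F.tt, mul_one]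
  have cM : ∀ m ∈ F.U g v d1 d2 ⊔ zpowers F.t, m ∈ F.U g v d1 d2 ∨ ∃ x ∈ F.U g v d1 d2, m = x * F.t :=
    fun m hm => (ek.c_mem hm).imp_right fun k => ⟨_, k, (tc m).symm⟩
  have κM : κ ∈ 𝐍((F.U g v d1 d2 ⊔ zpowers F.t : Subgroup G)) := mem_normalizer_fintype fun m hm => by
    rcases cM m hm with k | ⟨x, k, rfl⟩
    · exact mem_sup_left (conj_mem_of_mem_normalizer h.κU k)
    · rw [B2.cj_mul, κt]
      exact mul_mem (mem_sup_left (conj_mem_of_mem_normalizer h.κU k)) tM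
  have κT : κ ∉ F.T := fun k => by
    rcases F.sqT k with k | k <;> rw [e] at k
    exacts [F.t1 k, F.nz (k ▸ F.om_t)]
  have κC : κ ∈ centralizer {F.t} := mem_centralizer_singleton_iff.2 (B2.comm_of_cj κt)
  have κn : κ ∉ F.U g v d1 d2 ⊔ zpowers F.t := fun k => κT (ek.cT ▸ ⟨k, κC⟩)
  have κN : κ ∈ 𝐍(F.T) := B2.norm_gen (by
    rintro x (rfl | rfl | rfl | rfl | rfl)
    · rw [κt]; exact F.b2_tT
    · rw [h.κv1]; exact F.b2_v2T
    · rw [h.κv2]; exact F.b2_v1T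
    · rw [h.κu1]; exact F.b2_u2T
    · rw [h.κu2]; exact F.b2_uT)
  have adj := fun y => mem_adj (y := y) κM (e ▸ tM)
  have sqM : ∀ m ∈ F.U g v d1 d2 ⊔ zpowers F.t, m * m ∈ F.U g v d1 d2 := fun m hm => by
    rcases cM m hm with k | ⟨x, k, rfl⟩
    exacts [mul_mem k k, ek.h4_sq k k]
  have inv : ∀ s ∈ F.U g v d1 d2 ⊔ zpowers F.t ⊔ zpowers κ, s * s = 1 → s ∈ F.U g v d1 d2 ⊔ zpowers F.t :=
    fun s hs s2 => ((adj s).1 hs).resolve_right fun k => by
      have e1 : s * κ⁻¹ * (κ * (s * κ⁻¹) * κ⁻¹) = F.t := by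
        rw [← EB.inv_self F.tt, ← e]
        calc _ = s * s * (κ * κ)⁻¹ := by group
          _ = _ := by rw [s2, one_mul]
      refine ek.tU (e1 ▸ ?_)
      rcases cM _ k with k | ⟨x, k, e2⟩
      · exact mul_mem k (conj_mem_of_mem_normalizer h.κU k)
      · rw [e2, B2.cj_mul, κt]
        exact ek.h4_sq k (conj_mem_of_mem_normalizer h.κU k)
  have pS : IsPGroup 2 (F.U g v d1 d2 ⊔ zpowers F.t ⊔ zpowers κ : Subgroup G) :=
    isP_sup (isP_sup ek.isP (.of_sq F.tt) ek.tN) h.κ2 κM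
  have syl : IsSylowIn 2 (F.U g v d1 d2 ⊔ zpowers F.t ⊔ zpowers κ) ⊤ := by
    refine syl_of_norm (t := F.t) pS le_top ?_ fun n _ hn => ?_
    · rw [top_inf_eq]
      refine F.sylTD.of_card_le (pS.to_le inf_le_left) inf_le_right (F.cardTD_le.trans ?_)
      have := card_adj κN (e ▸ F.b2_tT) κT
      rw [F.card32] at this
      rw [show 64 = 2 * 32 from rfl, ← this]
      exact card_le_of_le (sup_le (le_inf (ek.TU.trans le_sup_left) F.TC)
        (zpowers_le.2 ⟨mem_sup_right (mem_zpowers _), κC⟩))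
    · have o : F.Om (n * F.t * n⁻¹) := ⟨n, rfl⟩
      obtain ⟨l, hl, f, hf, e1⟩ := ek.omU (inv _ (conj_mem_of_mem_normalizer hn (mem_sup_left tM)) o.sq.1) o
      obtain ⟨x, hx, e2⟩ := ek.toEE.tr hf (by
        rcases F.memF0.1 hf with rfl | rfl | rfl | rfl
        · exact ⟨1, one_mem _, by group⟩
        · exact c.sz.imp fun _ k => ⟨k.1.2.1, k.2⟩
        · exact c.s1.imp fun _ k => ⟨k.1.2.1, k.2⟩
        · rw [← F.u2_eq F.hu1]; exact c.s2.imp fun _ k => ⟨k.1.2.1, k.2⟩)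
      exact ⟨l * x, mem_sup_left (mem_sup_left (mul_mem hl (ek.toEE.b_ZU hx))), by rw [e1, ← e2]; group⟩
  refine (F.trG (P := zpowers κ) (x := κ) syl le_sup_left (mem_sup_right (mem_zpowers κ)) κn (fun s hs => ?_)
    (pS.to_le le_sup_right) (mem_zpowers κ) (zpowers_le.2 (mem_centralizer_singleton_iff.2 rfl))
    (fun y _ k => ?_) fun y m k => inv _ k ?_).2 (e ▸ F.sq_mem κ)
  · refine ((adj s).1 hs).imp_right fun k => ?_
    have := mul_mem k tM
    rwa [show s * κ⁻¹ * F.t = s * κ by rw [← e]; group] at this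
  · refine ek.nOm (sqM _ k) ⟨y, ?_⟩
    rw [← B2.cj_mul, e]
  · rw [← B2.cj_mul, e, ← (Commute.refl F.t).mul_pow, F.tt, one_pow, mul_one, mul_inv_cancel]

end Fr

end H25.A6
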