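import Mathlib
import Cfsg.Agent.Lib.A6S.Bas2

/-! Type `ZZ`: the abelian group `R1` and the stabiliser property. -/

set_option autoImplicit false
set_option linter.unusedSectionVars false

namespace H25.A6

open Subgroup H69 H36.SW

variable {G : Type*} [Group G] [Finite G]

namespace ZA

theorem cen {s : Set G} {x : G} (h : ∀ a ∈ s, a * x = x * a) : x ∈ 𝐂(closure s) := by
  rwa [centralizer_closure]

theorem nrm {s : Set G} {x : G} (h : ∀ a ∈ s, x * a * x⁻¹ ∈ closure s) : x ∈ 𝐍(closure s) :=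
  mem_normalizer_of_cj_le (map_le_iff_le_comap.2 ((closure_le _).2 h))

theorem adj {P : Subgroup G} {x y : G} (hn : x ∈ 𝐍(P)) (h2 : x * x ∈ P) (hy : y ∈ P ⊔ zpowers x) :
    ∃ p ∈ P, ∃ i : Fin 2, y = p * x ^ (i : ℕ) :=
  ((mem_adj hn h2).1 hy).elim (fun h => ⟨y, h, 0, by simp⟩) fun h => ⟨_, h, 1, by simp⟩

theorem adjL {P : Subgroup G} {x y : G} (hn : x ∈ 𝐍(P)) (h2 : x * x ∈ P) (hy : y ∈ P ⊔ zpowers x) :
    ∃ p ∈ P, ∃ i : Fin 2, y = x ^ (i : ℕ) * p :=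
  ((mem_adj hn h2).1 hy).elim (fun h => ⟨y, h, 0, by simp⟩) fun h =>
    ⟨_, conj_mem_of_mem_normalizer' hn h, 1, by simp [mul_assoc]⟩

theorem sq2 {a b : G} (h : a * a = b) (i : Fin 2) : a ^ (i : ℕ) * a ^ (i : ℕ) = b ^ (i : ℕ) := by
  fin_cases i <;> simp [h]

theorem mm {a b : G} (h : a * b = b * a) : a * b * (a * b) = a * a * (b * b) := by
  rw [mul_assoc, ← mul_assoc b, ← h]; group

theorem cm {s : G} (h : s * s = 1) (x y : G) : s * (x * y) * s = s * x * s * (s * y * s) := by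
  calc _ = s * x * (s * s) * y * s := by rw [h]; group
    _ = _ := by group

theorem ci {s : G} (h : s * s = 1) (x : G) : s * x⁻¹ * s = (s * x * s)⁻¹ := by
  rw [mul_inv_rev, mul_inv_rev, inv_eq_of_mul_eq_one_right h, mul_assoc]

theorem l1 {L : Subgroup G} {a b : G} (h : a ∈ L ⊔ zpowers b) (c : G) : a ∈ L ⊔ zpowers b ⊔ zpowers c :=
  mem_sup_left h

theorem zr (L : Subgroup G) (a : G) : a ∈ L ⊔ zpowers a := mem_sup_right (mem_zpowers a)

end ZA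

open ZA

namespace Fr
variable {F : Fr G} {u0 g g' r r' d1 d2 η1 η2 : G}

section
variable (h : F.ZZ u0 g g' r r' d1 d2 η1 η2)
include h

theorem ZZ.zaC : closure ({g, r, F.u1} : Set G) ≤ 𝐂(closure ({F.v1, F.v2, F.u1} : Set G)) :=
  (closure_le _).2 (by
    rintro _ (rfl | rfl | rfl)
    exacts [h.gT, h.rT, cen (by rintro _ (rfl | rfl | rfl); exacts [F.u1v1.symm, F.u1v2.symm, rfl])])

theorem ZZ.zaF : F.F0 ≤ closure ({g, r, F.u1} : Set G) := fun x hx => by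
  have z : F.z ∈ closure ({g, r, F.u1} : Set G) :=
    h.gg ▸ mul_mem (subset_closure (by simp)) (subset_closure (by simp))
  have u : F.u1 ∈ closure ({g, r, F.u1} : Set G) := subset_closure (by simp)
  rcases F.memF0.1 hx with rfl | rfl | rfl | rfl
  exacts [one_mem _, z, u, mul_mem z u]

theorem ZZ.zau : u0 ∈ F.F0 := h.cs.elim (fun c => c.1 ▸ one_mem _) fun c => c.1 ▸ subset_closure (by simp)

theorem ZZ.zag : g' ∈ closure ({g, r, F.u1} : Set G) :=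
  (mul_mem_cancel_left (inv_mem (subset_closure (by simp)))).1 (h.zaF h.hg')

theorem ZZ.zar : r' ∈ closure ({g, r, F.u1} : Set G) := h.cs.elim (fun c => c.2.2.1 ▸ one_mem _) fun c =>
  (mul_mem_cancel_left (inv_mem (mul_mem (subset_closure (by simp)) (subset_closure (by simp))))).1 (h.zaF c.2.2.1)

end

theorem ZZ.MR (h : F.ZZ u0 g g' r r' d1 d2 η1 η2) : closure ({g, r, F.u1} : Set G) ≤ F.R g r d1 :=
  closure_mono (by rintro _ (rfl | rfl | rfl) <;> simp)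

theorem ZZ.zad (h : F.ZZ u0 g g' r r' d1 d2 η1 η2) : d1 ∈ F.R g r d1 := subset_closure (by simp)

theorem ZZ.zaG (h : F.ZZ u0 g g' r r' d1 d2 η1 η2) : g ∈ F.R g r d1 := subset_closure (by simp)

theorem ZZ.zaR (h : F.ZZ u0 g g' r r' d1 d2 η1 η2) : r ∈ F.R g r d1 := subset_closure (by simp)

theorem ZZ.XR (h : F.ZZ u0 g g' r r' d1 d2 η1 η2) : F.X1 ≤ F.R g r d1 := (closure_le _).2 (by
  rintro _ (rfl | rfl | rfl)
  exacts [h.gg ▸ mul_mem h.zaG h.zaG, h.d11 ▸ mul_mem h.zad h.zad, subset_closure (by simp)])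

theorem ZZ.ab (h : F.ZZ u0 g g' r r' d1 d2 η1 η2) : F.R g r d1 ≤ 𝐂(F.R g r d1) := by
  have gu := h.gT F.u1 (subset_closure (by simp))
  have ru := h.rT F.u1 (subset_closure (by simp))
  have gd := h.d1M g (subset_closure (by simp))
  have rd := h.d1M r (subset_closure (by simp))
  have ud := h.d1M F.u1 (subset_closure (by simp))
  refine (closure_le _).2 ?_
  rintro _ (rfl | rfl | rfl | rfl) <;> refine cen ?_ <;> rintro _ (rfl | rfl | rfl | rfl)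
  exacts [rfl, gd.symm, h.gr.symm, gu, gd, rfl, rd, ud, h.gr, rd.symm, rfl, ru, gu.symm, ud.symm, ru.symm, rfl]

theorem ZZ.zac (h : F.ZZ u0 g g' r r' d1 d2 η1 η2) {x y : G} (hx : x ∈ F.R g r d1) (hy : y ∈ F.R g r d1) :
    x * y = y * x := h.ab hy x hx

theorem ZZ.zaN (h : F.ZZ u0 g g' r r' d1 d2 η1 η2) {P : Subgroup G} (hP : P ≤ F.R g r d1) {x : G}
    (hx : x ∈ F.R g r d1) : x ∈ 𝐍(P) := centralizer_le_normalizer _ (centralizer_anti hP (h.ab hx))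

theorem ZZ.inv (h : F.ZZ u0 g g' r r' d1 d2 η1 η2) {x : G} (hx : x ∈ F.R g r d1) : F.t * x * F.t = x⁻¹ := by
  induction hx using closure_induction with
  | mem x hx =>
    rcases hx with rfl | rfl | rfl | rfl
    exacts [h.tg, h.td1, h.tr, by rw [F.tu1, mul_assoc, F.tt, mul_one, inv_eq_of_mul_eq_one_right F.u11]]
  | one => simp [F.tt]
  | mul x y hx hy a b => rw [cm F.tt, a, b, h.zac hx hy, mul_inv_rev]
  | inv x _ a => rw [ci F.tt, a]

theorem ZZ.zaM (h : F.ZZ u0 g g' r r' d1 d2 η1 η2) :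
    g' * g' = F.z ∧ (u0 = F.u1 → (g * r)⁻¹ * r' ∈ F.F0 → (g' * r')⁻¹ * r ∈ F.F0) := by
  have f := h.MR (h.zaF h.hg')
  refine ⟨?_, fun _ c => ?_⟩
  · rw [← mul_inv_cancel_left g g', mm (h.zac h.zaG f), h.gg, F.sqW1 (F.X1W1 (F.F0X1 h.hg')), mul_one]
  · have e : g' * r' = r * (g * g * ((g⁻¹ * g') * ((g * r)⁻¹ * r'))) := by
      calc g' * r' = g * ((g⁻¹ * g') * (g * r)) * ((g * r)⁻¹ * r') := by group
        _ = g * (g * r) * ((g⁻¹ * g') * ((g * r)⁻¹ * r')) := by rw [h.zac f (mul_mem h.zaG h.zaR)]; group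
        _ = _ := by rw [← mul_assoc g g, h.zac (mul_mem h.zaG h.zaG) h.zaR]; group
    rw [e, mul_inv_rev, inv_mul_cancel_right, h.gg]
    exact inv_mem (mul_mem (subset_closure (by simp)) (mul_mem h.hg' c))

theorem ZZ.M_sw (h : F.ZZ u0 g g' r r' d1 d2 η1 η2) :
    closure ({g', r', F.u2} : Set G) = closure ({g, r, F.u1} : Set G) := by
  refine le_antisymm ((closure_le _).2 ?_) ?_
  · rintro _ (rfl | rfl | rfl)
    exacts [h.zag, h.zar, h.zaF (subset_closure (by simp))]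
  have G' : g' ∈ closure ({g', r', F.u2} : Set G) := subset_closure (by simp)
  have l : F.F0 ≤ closure ({g', r', F.u2} : Set G) := fun x hx => by
    have z : F.z ∈ closure ({g', r', F.u2} : Set G) := h.zaM.1 ▸ mul_mem G' G'
    have u : F.u2 ∈ closure ({g', r', F.u2} : Set G) := subset_closure (by simp)
    rcases F.sw.memF0.1 (F.sw_F0 ▸ hx) with rfl | rfl | rfl | rfl
    exacts [one_mem _, z, u, mul_mem z u]
  refine (closure_le _).2 ?_
  rintro _ (rfl | rfl | rfl)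
  · exact inv_mem_iff.1 ((mul_mem_cancel_right G').1 (l h.hg'))
  · exact h.cs.elim (fun c => c.2.1 ▸ one_mem _) fun c => (mul_mem_cancel_left (inv_mem (mul_mem G'
      (subset_closure (by simp))))).1 (l (h.zaM.2 c.1 c.2.2.1))
  · exact l (subset_closure (by simp))

theorem ZZ.sw (h : F.ZZ u0 g g' r r' d1 d2 η1 η2) :
    ∃ u0', (u0' = 1 ∨ u0' = F.u2) ∧ F.sw.ZZ u0' g' g r' r d2 d1 η2 η1 := by
  have l : closure ({F.v2, F.v1, F.u2} : Set G) ≤ closure ({F.v1, F.v2, F.u1} : Set G) := (closure_le _).2 (by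
    have a : F.v1 ∈ closure ({F.v1, F.v2, F.u1} : Set G) := subset_closure (by simp)
    have b : F.v2 ∈ closure ({F.v1, F.v2, F.u1} : Set G) := subset_closure (by simp)
    rintro _ (rfl | rfl | rfl)
    exacts [b, a, F.hu.elim (fun c => c.2 ▸ one_mem _) fun c => c.1 ▸ mul_mem
      (F.hz ▸ mul_mem (mul_mem (mul_mem a b) a) b) (subset_closure (by simp))])
  refine ⟨r' * r', h.cs.imp (fun c => by rw [c.2.2.1, mul_one]) fun c => c.2.1,
    h.cs.imp (fun c => ⟨by rw [c.2.2.1, mul_one], c.2.2.1, c.2.1, c.2.2.2.sw⟩)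
      fun c => ⟨c.2.1, h.rr.trans c.1, F.sw_F0 ▸ h.zaM.2 c.1 c.2.2.1, c.2.2.2.sw⟩,
    F.sw_F0 ▸ (by simpa using inv_mem h.hg'), h.zaM.1, rfl, h.zac (h.MR h.zag) (h.MR h.zar),
    centralizer_anti l (h.zaC h.zag), centralizer_anti l (h.zaC h.zar), h.inv (h.MR h.zag), h.inv (h.MR h.zar),
    h.M_sw ▸ h.d2M, h.M_sw ▸ h.d1M, h.d22, h.d11, h.td2, h.td1, h.c2, h.c1, h.η2t, h.η1t, h.η2u, h.η1u,
    h.η2r, h.η1r, h.η2g, h.η1g, h.η2d, h.η1d⟩

theorem ZZ.R_sw (h : F.ZZ u0 g g' r r' d1 d2 η1 η2) : F.sw.R g' r' d2 = F.R g r d2 := by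
  show closure {g', d2, r', F.u2} = closure {g, d2, r, F.u1}
  rw [Set.insert_comm g', Set.insert_comm g, Set.insert_eq d2, Set.insert_eq d2, Subgroup.closure_union,
    Subgroup.closure_union,
    h.M_sw]

theorem ZZ.memM (h : F.ZZ u0 g g' r r' d1 d2 η1 η2) {x : G} : x ∈ closure ({g, r, F.u1} : Set G) ↔
    ∃ f ∈ F.F0, ∃ i j : Fin 2, x = f * g ^ (i : ℕ) * r ^ (j : ℕ) := by
  refine ⟨fun hx => ?_, ?_⟩
  · have l := h.zaF.trans h.MR
    obtain ⟨_, hp, j, rfl⟩ := adj (h.zaN (sup_le l (zpowers_le.2 h.zaG)) h.zaR) (h.rr ▸ mem_sup_left h.zau)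
      ((closure_le _).2 (by
        rintro _ (rfl | rfl | rfl)
        exacts [l1 (zr _ _) _, zr _ _, l1 (mem_sup_left (subset_closure (by simp))) _]) hx)
    obtain ⟨f, hf, i, rfl⟩ := adj (h.zaN l h.zaG) (h.gg ▸ subset_closure (by simp)) hp
    exact ⟨f, hf, i, j, rfl⟩
  · rintro ⟨f, hf, i, j, rfl⟩
    exact mul_mem (mul_mem (h.zaF hf) (pow_mem (subset_closure (by simp)) _)) (pow_mem (subset_closure (by simp)) _)

theorem ZZ.memR (h : F.ZZ u0 g g' r r' d1 d2 η1 η2) {x : G} :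
    x ∈ F.R g r d1 ↔ ∃ w ∈ F.X1, ∃ i j k : Fin 2, x = w * g ^ (i : ℕ) * d1 ^ (j : ℕ) * r ^ (k : ℕ) := by
  refine ⟨fun hx => ?_, ?_⟩
  · have l := sup_le h.XR (zpowers_le.2 h.zaG)
    obtain ⟨_, hp, k, rfl⟩ := adj (h.zaN (sup_le l (zpowers_le.2 h.zad)) h.zaR)
      (h.rr ▸ mem_sup_left (mem_sup_left (F.F0X1 h.zau))) ((closure_le _).2 (by
        rintro _ (rfl | rfl | rfl | rfl)
        exacts [l1 (l1 (zr _ _) _) _, l1 (zr _ _) _, zr _ _,
          l1 (l1 (mem_sup_left (subset_closure (by simp))) _) _]) hx)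
    obtain ⟨_, hq, j, rfl⟩ := adj (h.zaN l h.zad) (h.d11 ▸ mem_sup_left (subset_closure (by simp))) hp
    obtain ⟨f, hf, i, rfl⟩ := adj (h.zaN h.XR h.zaG) (h.gg ▸ subset_closure (by simp)) hq
    exact ⟨f, hf, i, j, k, rfl⟩
  · rintro ⟨f, hf, i, j, k, rfl⟩
    exact mul_mem (mul_mem (mul_mem (h.XR hf) (pow_mem h.zaG _)) (pow_mem h.zad _)) (pow_mem h.zaR _)

theorem ZZ.zasq (h : F.ZZ u0 g g' r r' d1 d2 η1 η2) {w : G} (hw : w ∈ F.X1) (i j k : Fin 2) :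
    w * g ^ (i : ℕ) * d1 ^ (j : ℕ) * r ^ (k : ℕ) * (w * g ^ (i : ℕ) * d1 ^ (j : ℕ) * r ^ (k : ℕ)) =
      F.v1 ^ (j : ℕ) * F.z ^ (i : ℕ) * u0 ^ (k : ℕ) := by
  have a := mul_mem (h.XR hw) (pow_mem h.zaG i)
  rw [mm (h.zac (mul_mem a (pow_mem h.zad _)) (pow_mem h.zaR _)), mm (h.zac a (pow_mem h.zad _)),
    mm (h.zac (h.XR hw) (pow_mem h.zaG _)), F.sqW1 (F.X1W1 hw), one_mul, sq2 h.gg, sq2 h.d11, sq2 h.rr,
    (Commute.pow_pow F.zv1 _ _).eq]

theorem ZZ.zaone (h : F.ZZ u0 g g' r r' d1 d2 η1 η2) {i j k : Fin 2}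
    (e : F.v1 ^ (j : ℕ) * F.z ^ (i : ℕ) * u0 ^ (k : ℕ) = 1) : i = 0 ∧ j = 0 ∧ r ^ (k : ℕ) = 1 := by
  rcases h.cs with c | c
  · have := F.ind (a := 0) (b := j) (c := 0) (d := i) (e := 0) (by simpa [c.1] using e)
    exact ⟨this.2.2.2.1, this.2.1, by simp [c.2.1]⟩
  · have := F.ind (a := 0) (b := j) (c := 0) (d := i) (e := k) (by simpa [c.1] using e)
    exact ⟨this.2.2.2.1, this.2.1, by simp [this.2.2.2.2.resolve_right c.2.2.2.u1]⟩

theorem ZZ.sq (h : F.ZZ u0 g g' r r' d1 d2 η1 η2) {x : G} (hx : x ∈ F.R g r d1) :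
    x * x ∈ F.X1 ∧ (x * x = 1 ↔ x ∈ F.X1) := by
  obtain ⟨w, hw, i, j, k, rfl⟩ := h.memR.1 hx
  refine ⟨?_, fun e => ?_, fun e => F.sqW1 (F.X1W1 e)⟩
  · rw [h.zasq hw]
    exact mul_mem (mul_mem (pow_mem (subset_closure (by simp)) _) (pow_mem (subset_closure (by simp)) _))
      (pow_mem (F.F0X1 h.zau) _)
  · obtain ⟨rfl, rfl, e'⟩ := h.zaone ((h.zasq hw i j k).symm.trans e)
    simpa [e'] using hw

theorem ZZ.zasM (h : F.ZZ u0 g g' r r' d1 d2 η1 η2) {x : G} (hx : x ∈ closure ({g, r, F.u1} : Set G))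
    (e : x * x = 1) : x ∈ F.F0 := by
  obtain ⟨f, hf, i, k, rfl⟩ := h.memM.1 hx
  obtain ⟨rfl, -, e'⟩ := h.zaone ((h.zasq (F.F0X1 hf) i 0 k).symm.trans (by simpa using e))
  simpa [e'] using hf

theorem ZZ.zatN (h : F.ZZ u0 g g' r r' d1 d2 η1 η2) : F.t ∈ 𝐍(F.R g r d1) :=
  mem_normalizer_fintype fun x hx => by
    rw [inv_eq_of_mul_eq_one_right F.tt, h.inv hx]; exact inv_mem hx

theorem ZZ.zav (h : F.ZZ u0 g g' r r' d1 d2 η1 η2) {m : G} (hm : m ∈ closure ({g, r, F.u1} : Set G)) :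
    F.v2 * m = m * F.v2 := h.zaC hm _ (subset_closure (by simp))

theorem zav2 (F : Fr G) : F.v2 * F.v1 * F.v2 = F.z * F.v1 := F.sw.v121

theorem ZZ.v2N (h : F.ZZ u0 g g' r r' d1 d2 η1 η2) : F.v2 ∈ 𝐍(F.R g r d1) := nrm (by
  have k : ∀ m ∈ closure ({g, r, F.u1} : Set G), F.v2 * m * F.v2⁻¹ ∈ F.R g r d1 := fun m hm => by
    rw [h.zav hm, mul_inv_cancel_right]; exact h.MR hm
  rintro _ (rfl | rfl | rfl | rfl)
  · exact k _ (subset_closure (by simp))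
  · have e := mul_mem (mul_mem h.zad h.zaG)
      (h.XR (mul_mem (subset_closure (by simp) : F.z ∈ F.X1) (subset_closure (by simp) : F.v1 ∈ F.X1)))
    have c := h.c1
    rw [h.zav (subset_closure (by simp)), mul_assoc, inv_mul_eq_iff_eq_mul] at c
    rw [← F.zav2] at e
    rw [inv_eq_of_mul_eq_one_right F.v22, c]
    simpa only [mul_assoc, R] using e
  · exact k _ (subset_closure (by simp))
  · exact k _ (subset_closure (by simp)))

theorem ZZ.zaP (h : F.ZZ u0 g g' r r' d1 d2 η1 η2) : IsPGroup 2 (F.R g r d1) :=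
  isP_of_P2 fun _ hx => (P2.of_sq (F.sqW1 (F.X1W1 (h.sq hx).1))).of_mul_self

theorem ZZ.isP (h : F.ZZ u0 g g' r r' d1 d2 η1 η2) :
    IsPGroup 2 (F.R g r d1 ⊔ closure {F.t, F.v2} : Subgroup G) :=
  h.zaP.to_sup_of_normal_left' (F.isPT.to_le (closure_mono (by rintro _ (rfl | rfl) <;> simp)))
    ((closure_le _).2 (Set.pair_subset h.zatN h.v2N))

theorem ZZ.ηN (h : F.ZZ u0 g g' r r' d1 d2 η1 η2) : η1 ∈ 𝐍(F.R g r d1) := nrm (by
  rintro _ (rfl | rfl | rfl | rfl)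
  · exact h.η1g ▸ h.zad
  · exact h.η1d ▸ inv_mem (mul_mem h.zaG h.zad)
  · rw [h.η1r, mul_inv_cancel_right]; exact h.zaR
  · rw [h.η1u, mul_inv_cancel_right]; exact subset_closure (by simp))

theorem ZZ.memS (h : F.ZZ u0 g g' r r' d1 d2 η1 η2) {x : G} : x ∈ F.R g r d1 ⊔ closure {F.t, F.v2} ↔
    ∃ e ∈ F.R g r d1, ∃ a b : Fin 2, x = F.t ^ (a : ℕ) * F.v2 ^ (b : ℕ) * e := by
  refine ⟨fun hx => ?_, ?_⟩
  · obtain ⟨_, hp, a, rfl⟩ := adjL (P := F.R g r d1 ⊔ zpowers F.v2) (x := F.t)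
      (le_normalizer_sup (zpowers_le.2 h.zatN) (le_normalizer_of_le_centralizer (zpowers_le.2 (by
        rw [centralizer_zpowers]; exact mem_centralizer_singleton_iff.2 F.tv2))) (mem_zpowers _))
      (F.tt ▸ one_mem _) (sup_le (le_sup_left.trans le_sup_left)
        ((closure_le _).2 (Set.pair_subset (zr _ _) (l1 (zr _ _) _))) hx)
    obtain ⟨e, he, b, rfl⟩ := adjL h.v2N (F.v22 ▸ one_mem _) hp
    exact ⟨e, he, a, b, (mul_assoc _ _ _).symm⟩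
  · rintro ⟨e, he, a, b, rfl⟩
    exact mul_mem (mem_sup_right (mul_mem (pow_mem (subset_closure (by simp)) _)
      (pow_mem (subset_closure (by simp)) _))) (mem_sup_left he)

theorem zanc (F : Fr G) : F.v2 * F.v1 ≠ F.v1 * F.v2 := fun e => F.z1 (by simpa [e] using F.v21.symm)

theorem ZZ.indS (h : F.ZZ u0 g g' r r' d1 d2 η1 η2) {a b : Fin 2}
    (e : F.t ^ (a : ℕ) * F.v2 ^ (b : ℕ) ∈ F.R g r d1) : a = 0 ∧ b = 0 := by
  have c := h.zac e (h.XR (subset_closure (by simp) : F.v1 ∈ F.X1))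
  rw [mul_assoc, ← mul_assoc F.v1, ← (Commute.pow_left F.tv1 _).eq, mul_assoc, mul_right_inj] at c
  fin_cases b
  · fin_cases a
    · exact ⟨rfl, rfl⟩
    · exact (F.tX1 ((h.sq (by simpa using e)).2.1 F.tt)).elim
  · exact (F.zanc (by simpa using c)).elim

theorem ZZ.cv2 (h : F.ZZ u0 g g' r r' d1 d2 η1 η2) {x : G} (hx : x ∈ F.R g r d1) :
    (x * F.v2 = F.v2 * x → x ∈ closure ({g, r, F.u1} : Set G)) ∧
    (F.v2 * x * F.v2 = x⁻¹ → x ∈ F.F0 ∨ (g * F.v1)⁻¹ * x ∈ F.F0) := by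
  have v1 : F.v1 ∈ F.R g r d1 := h.XR (subset_closure (by simp))
  have key : Commute (x * x) F.v2 → x ∈ closure ({g, r, F.u1} : Set G) ∨
      x * F.v1⁻¹ ∈ closure ({g, r, F.u1} : Set G) := fun c => by
    obtain ⟨p, hp, j, rfl⟩ := adj (h.zaN (sup_le h.MR (zpowers_le.2 v1)) h.zad) (h.d11 ▸ zr _ _)
      ((closure_le _).2 (by
        rintro _ (rfl | rfl | rfl | rfl)
        exacts [l1 (mem_sup_left (subset_closure (by simp))) _, zr _ _,
          l1 (mem_sup_left (subset_closure (by simp))) _, l1 (mem_sup_left (subset_closure (by simp))) _]) hx)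
    fin_cases j
    · simpa using (mem_adj (h.zaN h.MR v1) (F.v11 ▸ one_mem _)).1 hp
    · obtain ⟨m, hm, i, rfl⟩ := adj (h.zaN h.MR v1) (F.v11 ▸ one_mem _) hp
      rw [mm (h.zac (mul_mem (h.MR hm) (pow_mem v1 _)) (pow_mem h.zad _)), mm (h.zac (h.MR hm) (pow_mem v1 _)),
        sq2 F.v11, sq2 h.d11] at c
      have c' := (Commute.inv_left (h.zav (mul_mem hm hm)).symm).mul_left c
      rw [one_pow, mul_one, inv_mul_cancel_left] at c'
      exact (F.zanc (by simpa using c'.eq.symm)).elim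
  refine ⟨fun c => (key (Commute.mul_left c c)).resolve_right fun m => F.zanc ?_, fun c => ?_⟩
  · simpa using ((Commute.inv_left (h.zav m).symm).mul_left c).eq.symm
  have x4 := F.sqW1 (F.X1W1 (h.sq hx).1)
  refine (key ?_).imp (fun m => h.zasM m ?_) fun m => ?_
  · have : F.v2 * (x * x) * F.v2 = x * x := by
      rw [cm F.v22, c, ← mul_inv_rev, inv_eq_of_mul_eq_one_right x4]
    exact (by rw [← congrArg (· * F.v2) this, mul_assoc _ F.v2, F.v22, mul_one] : x * x * F.v2 = F.v2 * (x * x))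
  · rw [h.zav m, mul_assoc, F.v22, mul_one] at c
    exact eq_inv_iff_mul_eq_one.1 c
  · have G' : g ∈ closure ({g, r, F.u1} : Set G) := subset_closure (by simp)
    have e : (g * F.v1)⁻¹ * x = g⁻¹ * (x * F.v1⁻¹) := by
      rw [h.zac hx (inv_mem v1), h.zac h.zaG v1]; group
    rw [e]
    refine h.zasM (mul_mem (inv_mem G') m) ?_
    rw [mm (h.zac (inv_mem h.zaG) (h.MR m)), ← mul_inv_rev, h.gg, inv_mul_eq_one]
    generalize hm : x * F.v1⁻¹ = y at m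
    obtain rfl : x = y * F.v1 := by rw [← hm, inv_mul_cancel_right]
    rw [← mul_assoc, h.zav m, mul_assoc y, mul_assoc y, F.zav2,
      h.zac (h.MR m) v1, mul_inv_rev, inv_eq_of_mul_eq_one_right F.v11, ← mul_assoc, mul_left_inj,
      eq_inv_iff_mul_eq_one, mul_assoc, ← h.zac (h.MR m) (h.XR (subset_closure (by simp))), ← mul_assoc,
      mul_eq_one_iff_eq_inv, inv_eq_of_mul_eq_one_right F.zz] at c
    exact c.symm

theorem ZZ.zat (h : F.ZZ u0 g g' r r' d1 d2 η1 η2) {e : G} (he : e ∈ F.R g r d1) :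
    e * F.t * e⁻¹ = F.t * (e * e) := by
  rw [← inv_eq_of_mul_eq_one_right (F.sqW1 (F.X1W1 (h.sq he).1)), mul_inv_rev, ← mul_assoc, mul_left_inj,
    ← h.inv he, ← mul_assoc, ← mul_assoc, F.tt, one_mul]

theorem ZZ.omX (h : F.ZZ u0 g g' r r' d1 d2 η1 η2) {w : G} (hw : w ∈ F.X1)
    (o : ∃ n ∈ 𝐍(F.W1), n * F.t * n⁻¹ = F.t * w) :
    ∃ e ∈ F.R g r d1, e * F.t * e⁻¹ = F.t * w := by
  let S : Subgroup G :=
    { carrier := {x | ∃ e ∈ F.R g r d1, e * e = x}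
      one_mem' := ⟨1, one_mem _, mul_one 1⟩
      mul_mem' := by
        rintro _ _ ⟨a, ha, rfl⟩ ⟨b, hb, rfl⟩
        exact ⟨_, mul_mem ha hb, mm (h.zac ha hb)⟩
      inv_mem' := by
        rintro _ ⟨a, ha, rfl⟩
        exact ⟨_, inv_mem ha, (mul_inv_rev _ _).symm⟩ }
  obtain ⟨e, he, rfl⟩ : w ∈ S := by
    rcases h.cs with c | c
    · obtain ⟨n, hn, e⟩ := o
      have := c.2.2.2.orb1 n hn
      rw [e, ← mul_assoc, F.tt, one_mul] at this
      exact (closure_le S).2 (Set.pair_subset ⟨g, h.zaG, h.gg⟩ ⟨d1, h.zad, h.d11⟩) this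
    · refine (closure_le S).2 ?_ hw
      rintro _ (rfl | rfl | rfl)
      exacts [⟨g, h.zaG, h.gg⟩, ⟨d1, h.zad, h.d11⟩, ⟨r, h.zaR, h.rr.trans c.1⟩]
  exact ⟨e, he, h.zat he⟩

theorem ZZ.zaSP (h : F.ZZ u0 g g' r r' d1 d2 η1 η2) {n e : G} (hn : n ∈ 𝐍(F.R g r d1)) (he : e ∈ F.R g r d1)
    (h1 : n * F.t * n⁻¹ = F.t * e) (h2 : e * e = 1) : ∃ a ∈ F.R g r d1, ∃ k ∈ 𝐍(F.R g r d1), n = a * k ∧
      k * F.t = F.t * k ∧ k * F.u1 = F.u1 * k ∧ k ∈ 𝐍(F.V1) := by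
  obtain ⟨a, ha, e1⟩ := h.omX ((h.sq he).2.1 h2) ⟨n, nrm fun x hx => by
    rcases hx with rfl | hx
    · rw [h1]; exact mul_mem F.b2_tW (F.X1W1 ((h.sq he).2.1 h2))
    · exact F.X1W1 ((h.sq (conj_mem_of_mem_normalizer hn (h.XR (subset_closure hx)))).2.1
        (cjsq (F.sqW1 (F.X1W1 (subset_closure hx))) _)), h1⟩
  have kN := mul_mem (inv_mem (le_normalizer ha)) hn
  have kt : a⁻¹ * n * F.t = F.t * (a⁻¹ * n) := by
    calc _ = a⁻¹ * (n * F.t * n⁻¹) * n := by group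
      _ = _ := by rw [h1, ← e1]; group
  refine ⟨a, ha, _, kN, (mul_inv_cancel_left _ _).symm, kt, F.nW1 _ kt (nrm fun x hx => ?_)⟩
  have k : ∀ x ∈ F.X1, a⁻¹ * n * x * (a⁻¹ * n)⁻¹ ∈ F.W1 := fun x hx => F.X1W1
    ((h.sq (conj_mem_of_mem_normalizer kN (h.XR hx))).2.1 (cjsq (F.sqW1 (F.X1W1 hx)) _))
  rcases hx with rfl | hx
  · rw [kt, mul_inv_cancel_right]; exact subset_closure (by simp)
  · exact k x (subset_closure hx)

theorem ZZ.SP (h : F.ZZ u0 g g' r r' d1 d2 η1 η2) {n e : G} (hn : n ∈ 𝐍(F.R g r d1)) (he : e ∈ F.R g r d1)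
    (h1 : n * F.t * n⁻¹ = F.t * e) (h2 : e * e = 1) : n * F.u1 = F.u1 * n ∧ n ∈ 𝐍(F.V1) := by
  obtain ⟨a, ha, k, -, rfl, -, ku, kV⟩ := h.zaSP hn he h1 h2
  exact ⟨(Commute.mul_left (h.zac ha (subset_closure (by simp))) ku).eq,
    mul_mem (h.zaN (F.V1X1.trans h.XR) ha) kV⟩

theorem ZZ.SP' (h : F.ZZ u0 g g' r r' d1 d2 η1 η2) {n e : G} (hn : n ∈ 𝐍(F.R g r d1)) (he : e ∈ F.R g r d1)
    (h1 : n * F.t * n⁻¹ = F.t * e) (h2 : e * e = 1) (h3 : n ∈ 𝐂(F.V1)) : ∃ q ∈ F.R g r d1 ⊔ zpowers F.t,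
      ∃ o ∈ 𝐂((F.R g r d1 ⊔ zpowers F.t : Subgroup G)), Odd (orderOf o) ∧ n = q * o := by
  obtain ⟨a, ha, k, kN, rfl, kt, ku, -⟩ := h.zaSP hn he h1 h2
  have kV := (mul_mem_cancel_left (centralizer_anti (F.V1X1.trans h.XR) (h.ab ha))).1 h3
  obtain ⟨O, hO, dec, nO⟩ := F.exO1
  obtain ⟨w, hw, o, ho, rfl⟩ := dec k (cen (by
    rintro _ (rfl | rfl | rfl | rfl)
    exacts [kt.symm, kV _ (subset_closure (by simp)), kV _ (subset_closure (by simp)), ku.symm]))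
  have wQ : w ∈ F.R g r d1 ⊔ zpowers F.t := (F.memW1'.1 hw).elim (fun m => mem_sup_left (h.XR m)) fun m =>
    (mul_mem_cancel_left (zr _ _)).1 (mem_sup_left (h.XR m))
  refine ⟨a * w, mul_mem (mem_sup_left ha) wQ, o, odd_norm_cent (isP_sup h.zaP (P2.of_sq F.tt) h.zatN)
    (fun o ho => ((hO o).1 ho).2) (le_trans (sup_le (fun x hx => nrm fun y hy => ?_)
      (zpowers_le.2 (le_normalizer (subset_closure (by simp))))) nO) ho
    ((mul_mem_cancel_left (le_normalizer wQ)).1 (le_normalizer_sup (zpowers_le.2 kN)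
      (le_normalizer_of_le_centralizer (zpowers_le.2 (by
        rw [centralizer_zpowers]; exact mem_centralizer_singleton_iff.2 kt))) (mem_zpowers _))),
    ((hO o).1 ho).2, (mul_assoc _ _ _).symm⟩
  rcases hy with rfl | hy
  · rw [h.zat hx]
    exact mul_mem (subset_closure (by simp)) (F.X1W1 (h.sq hx).1)
  · rw [h.zac hx (h.XR (subset_closure hy)), mul_inv_cancel_right]
    exact subset_closure (Or.inr hy)

end Fr

end H25.A6
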