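import Mathlib
import Cfsg.Agent.Lib.A6S.ZA

/-! Type `ZZ`: `R2` is conjugate to `R1`. -/

set_option autoImplicit false

namespace H25.A6

open Subgroup H69 H36.SW

variable {G : Type*} [Group G] [Finite G]

omit [Finite G] in
theorem ZB_cjm (x a b : G) : x * (a * b) * x⁻¹ = (x * a * x⁻¹) * (x * b * x⁻¹) := by group

omit [Finite G] in
theorem ZB_cj_cl {S : Set G} {x : G} {L : Subgroup G} (h : ∀ s ∈ S, x * s * x⁻¹ ∈ L) : closure S ^ᶜ x ≤ L := by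
  rw [cj_le_iff, closure_le]
  intro s hs
  show s ∈ L ^ᶜ x⁻¹
  rw [mem_cj, inv_inv]
  exact h s hs

omit [Finite G] in
theorem ZB_cen_cl {S : Set G} {x : G} (h : ∀ s ∈ S, s * x = x * s) : x ∈ 𝐂(closure S) := by
  rw [mem_centralizer_iff_commute]
  intro a ha
  have : closure S ≤ centralizer {x} := by
    rw [closure_le]; intro s hs
    exact mem_centralizer_singleton_iff.2 (h s hs)
  exact mem_centralizer_singleton_iff.1 (this ha)

namespace Fr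
variable {F : Fr G} {u0 g g' r r' d1 d2 η1 η2 : G}

theorem ZZ.ZB_F0M (h : F.ZZ u0 g g' r r' d1 d2 η1 η2) : F.F0 ≤ closure ({g, r, F.u1} : Set G) :=
  fun f hf => h.memM.2 ⟨f, hf, 0, 0, by simp⟩

theorem ZZ.ZB_tr (h : F.ZZ u0 g g' r r' d1 d2 η1 η2) {f : G} (hf : f ∈ F.F0)
    (o : ∃ n ∈ 𝐍(F.W1), n * F.t * n⁻¹ = F.t * f) :
    ∃ m ∈ closure ({g, r, F.u1} : Set G), m⁻¹ * F.t * m = F.t * f := by
  have gM : g ∈ closure ({g, r, F.u1} : Set G) := subset_closure (by simp)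
  have rM : r ∈ closure ({g, r, F.u1} : Set G) := subset_closure (by simp)
  have key : ∀ m ∈ closure ({g, r, F.u1} : Set G), m⁻¹ * F.t * m = F.t * (m * m) := by
    intro m hm
    rw [← h.inv (h.MR hm)]
    calc F.t * m * F.t * F.t * m = F.t * m * (F.t * F.t) * m := by group
      _ = F.t * (m * m) := by rw [F.tt]; group
  have c1 : f = 1 → ∃ m ∈ closure ({g, r, F.u1} : Set G), m⁻¹ * F.t * m = F.t * f := fun e =>
    ⟨1, one_mem _, by simp [e]⟩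
  have cz : f = F.z → ∃ m ∈ closure ({g, r, F.u1} : Set G), m⁻¹ * F.t * m = F.t * f := fun e =>
    ⟨g, gM, by rw [key g gM, h.gg, e]⟩
  rcases F.memF0.1 hf with e | e | e | e
  · exact c1 e
  · exact cz e
  · rcases h.cs with ⟨-, -, -, c⟩ | ⟨e0, -, -, -⟩
    · obtain ⟨n, hn, k⟩ := o
      have := c.orb1 n hn
      rw [k, F.b2_tt, e] at this
      exact (F.b2_uV F.hu1 this).elim
    · exact ⟨r, rM, by rw [key r rM, h.rr, e0, e]⟩
  · rcases h.cs with ⟨-, -, -, c⟩ | ⟨e0, -, -, -⟩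
    · obtain ⟨n, hn, k⟩ := o
      have := c.orb1 n hn
      rw [k, F.b2_tt, e, mul_mem_cancel_left F.b2_zV] at this
      exact (F.b2_uV F.hu1 this).elim
    · refine ⟨g * r, mul_mem gM rM, ?_⟩
      rw [key _ (mul_mem gM rM), e, ← h.gg, ← e0, ← h.rr]
      calc F.t * (g * r * (g * r)) = F.t * (g * (r * g) * r) := by group
        _ = F.t * (g * g * (r * r)) := by rw [← h.gr]; group

theorem ZZ.rho (h : F.ZZ u0 g g' r r' d1 d2 η1 η2) : ∃ ρ, ρ ∈ 𝐂(closure ({g, r, F.u1} : Set G)) ∧ F.R g r d2 ^ᶜ ρ = F.R g r d1 ∧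
    (F.t * g * F.v1)⁻¹ * (ρ * F.t * ρ⁻¹) ∈ F.F0 ∧ F.v1⁻¹ * (ρ * F.v2 * ρ⁻¹) ∈ F.F0 := by
  obtain ⟨M, hM⟩ : ∃ M, M = closure ({g, r, F.u1} : Set G) := ⟨_, rfl⟩
  have gM : g ∈ M := hM ▸ subset_closure (by simp)
  have rM : r ∈ M := hM ▸ subset_closure (by simp)
  have uM : F.u1 ∈ M := hM ▸ subset_closure (by simp)
  have FM : F.F0 ≤ M := hM ▸ h.ZB_F0M
  have MR : M ≤ F.R g r d1 := hM ▸ h.MR
  have d1M : d1 ∈ 𝐂(M) := hM ▸ h.d1M
  have d2M : d2 ∈ 𝐂(M) := hM ▸ h.d2M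
  have d1R : d1 ∈ F.R g r d1 := subset_closure (by simp)
  have v1X : F.v1 ∈ F.X1 := subset_closure (by simp)
  have v1R : F.v1 ∈ F.R g r d1 := h.XR v1X
  have abR : ∀ {a b : G}, a ∈ F.R g r d1 → b ∈ F.R g r d1 → a * b = b * a := fun ha hb =>
    mem_centralizer_iff_commute.1 (h.ab hb) _ ha
  have v2M : F.v2 ∈ 𝐂(M) := by
    rw [hM]
    apply ZB_cen_cl
    have m : F.v2 ∈ closure ({F.v1, F.v2, F.u1} : Set G) := subset_closure (by simp)
    rintro s (rfl | rfl | rfl)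
    · exact (mem_centralizer_iff_commute.1 h.gT _ m).symm
    · exact (mem_centralizer_iff_commute.1 h.rT _ m).symm
    · exact F.u1v2
  have v1M : F.v1 ∈ 𝐂(M) := mem_centralizer_iff_commute.2 fun a ha => abR (MR ha) v1R
  have tM : F.t ∈ 𝐍(M) := by
    apply mem_normalizer_of_cj_le
    intro x hx
    obtain ⟨a, ha, rfl⟩ := mem_cj'.1 hx
    rw [inv_eq_of_mul_eq_one_right F.tt, h.inv (MR ha)]
    exact inv_mem ha
  have tT : F.t ∈ F.T := subset_closure (by simp)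
  have v1T : F.v1 ∈ F.T := subset_closure (by simp)
  have v2T : F.v2 ∈ F.T := subset_closure (by simp)
  have TM : F.T ≤ 𝐍(M) := by
    rw [F.T_eq, closure_le]
    rintro s (rfl | rfl | rfl | rfl)
    · exact tM
    · exact centralizer_le_normalizer _ v1M
    · exact centralizer_le_normalizer _ v2M
    · exact le_normalizer uM
  obtain ⟨P, hP⟩ : ∃ P, P = F.T ⊔ M := ⟨_, rfl⟩
  have TP : F.T ≤ P := hP ▸ le_sup_left
  have MP : M ≤ P := hP ▸ le_sup_right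
  obtain ⟨S, hS⟩ : ∃ S, S = F.R g r d1 ⊔ closure {F.t, F.v2} := ⟨_, rfl⟩
  have RS : F.R g r d1 ≤ S := hS ▸ le_sup_left
  have PS : P ≤ S := by
    rw [hP]
    refine sup_le ?_ (MR.trans RS)
    rw [F.T_eq, closure_le]
    rintro s (rfl | rfl | rfl | rfl)
    · exact hS ▸ mem_sup_right (subset_closure (by simp))
    · exact RS v1R
    · exact hS ▸ mem_sup_right (subset_closure (by simp))
    · exact RS (MR uM)
  have S2 : IsPGroup 2 S := hS ▸ h.isP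
  have P2' : IsPGroup 2 P := S2.to_le PS
  have PC : P ⊓ centralizer {F.t} ≤ F.T := by
    rintro x ⟨hx, hc⟩
    rw [hP] at hx
    obtain ⟨τ, hτ, m, hm, rfl⟩ := (mem_sup_of_le_normalizer_right TM).1 hx
    have c1 : τ ∈ centralizer ({F.t} : Set G) := F.TC hτ
    have c2 : m ∈ centralizer ({F.t} : Set G) := by
      have := mul_mem (inv_mem c1) hc
      rwa [inv_mul_cancel_left] at this
    have c3 : m * F.t = F.t * m := mem_centralizer_singleton_iff.1 c2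
    have c4 := h.inv (MR hm)
    rw [← c3, mul_assoc, F.tt, mul_one] at c4
    have : m * m = 1 := by
      calc m * m = m * m⁻¹ := by rw [← c4]
        _ = 1 := mul_inv_cancel m
    exact mul_mem hτ (F.W1T (F.X1W1 ((h.sq (MR hm)).2.1 this)))
  -- the action of `d1`, `d2`
  obtain ⟨f, hf, hg'⟩ : ∃ f ∈ F.F0, g' = g * f := ⟨_, h.hg', by group⟩
  have g'M : g' ∈ M := hg' ▸ mul_mem gM (FM hf)
  have ti : F.t⁻¹ = F.t := inv_eq_of_mul_eq_one_right F.tt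
  have v1i : F.v1⁻¹ = F.v1 := inv_eq_of_mul_eq_one_right F.v11
  have v2i : F.v2⁻¹ = F.v2 := inv_eq_of_mul_eq_one_right F.v22
  have act : ∀ {d : G}, F.t * d * F.t = d⁻¹ → d * F.t * d⁻¹ = F.t * (d * d)⁻¹ := by
    intro d e
    have : d = F.t * d⁻¹ * F.t := by
      rw [← e]
      calc d = (F.t * F.t) * d * (F.t * F.t) := by rw [F.tt]; group
        _ = _ := by group
    calc d * F.t * d⁻¹ = (F.t * d⁻¹ * F.t) * F.t * d⁻¹ := by rw [← this]
      _ = F.t * d⁻¹ * (F.t * F.t) * d⁻¹ := by group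
      _ = _ := by rw [F.tt]; group
  have a1 : d1 * F.t * d1⁻¹ = F.t * F.v1 := by rw [act h.td1, h.d11, v1i]
  have a2 : d2 * F.t * d2⁻¹ = F.t * F.v2 := by rw [act h.td2, h.d22, v2i]
  have b1 : d1 * F.v1 * d1⁻¹ = F.v1 := by rw [← h.d11]; group
  have b2 : d2 * F.v2 * d2⁻¹ = F.v2 := by rw [← h.d22]; group
  have e1 : d1 * F.v2 * d1⁻¹ = F.v1 * F.v2 * g := by
    calc d1 * F.v2 * d1⁻¹ = (d1 * d1) * (d1⁻¹ * F.v2 * d1) * (d1 * d1)⁻¹ := by group
      _ = F.v1 * F.v2 * g := by rw [h.c1, h.d11]; group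
  have e2 : d2 * F.v1 * d2⁻¹ = F.v2 * F.v1 * g' := by
    calc d2 * F.v1 * d2⁻¹ = (d2 * d2) * (d2⁻¹ * F.v1 * d2) * (d2 * d2)⁻¹ := by group
      _ = F.v2 * F.v1 * g' := by rw [h.c2, h.d22]; group
  have nrm : ∀ {d : G}, d ∈ 𝐂(M) → d * F.t * d⁻¹ ∈ P → d * F.v1 * d⁻¹ ∈ P → d * F.v2 * d⁻¹ ∈ P → d ∈ 𝐍(P) := by
    intro d c x1 x2 x3
    apply mem_normalizer_of_cj_le
    conv_lhs => rw [hP, cj_sup, cj_eq_of_mem_centralizer c, F.T_eq]
    refine sup_le (ZB_cj_cl ?_) MP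
    rintro s (rfl | rfl | rfl | rfl)
    · exact x1
    · exact x2
    · exact x3
    · rw [conj_eq_of_mem_centralizer c uM]; exact MP uM
  have n1 : d1 ∈ 𝐍(P) := nrm d1M (a1 ▸ TP (mul_mem tT v1T)) (b1.symm ▸ TP v1T)
    (e1 ▸ mul_mem (TP (mul_mem v1T v2T)) (MP gM))
  have n2 : d2 ∈ 𝐍(P) := nrm d2M (a2 ▸ TP (mul_mem tT v2T)) (e2 ▸ mul_mem (TP (mul_mem v2T v1T)) (MP g'M))
    (b2.symm ▸ TP v2T)
  have SN : S ≤ 𝐍(P) := by
    rw [hS]
    refine sup_le ?_ ?_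
    · rw [R, closure_le]
      rintro s (rfl | rfl | rfl | rfl)
      · exact le_normalizer (MP gM)
      · exact n1
      · exact le_normalizer (MP rM)
      · exact le_normalizer (MP uM)
    · rw [closure_le]
      rintro s (rfl | rfl)
      · exact le_normalizer (TP tT)
      · exact le_normalizer (TP v2T)
  obtain ⟨O, hO, NO, dec⟩ := F.exOP P2' TP PC
  obtain ⟨ρ, hρ⟩ : ∃ ρ, ρ = d2 * d1 := ⟨_, rfl⟩
  have ρM : ρ ∈ 𝐂(M) := hρ ▸ mul_mem d2M d1M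
  have ρN : ρ ∈ 𝐍(P) := hρ ▸ mul_mem n2 n1
  have gv1 : g * F.v1 = F.v1 * g := abR (MR gM) v1R
  have fv1 : f * F.v1 = F.v1 * f := abR (MR (FM hf)) v1R
  have gf : g * f = f * g := abR (MR gM) (MR (FM hf))
  have ρt : ρ * F.t * ρ⁻¹ = F.t * (F.v1 * g') := by
    calc ρ * F.t * ρ⁻¹ = d2 * (d1 * F.t * d1⁻¹) * d2⁻¹ := by rw [hρ]; group
      _ = F.t * (F.v2 * F.v2) * F.v1 * g' := by rw [a1, ZB_cjm, a2, e2]; group
      _ = _ := by rw [F.v22]; group
  have ρv : ρ * F.v2 * ρ⁻¹ = F.v1 * f := by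
    have w : F.v2 * F.v1 * F.v2 = F.z * F.v1 := F.sw.v121
    have g'v : g' * F.v2 = F.v2 * g' := mem_centralizer_iff_commute.1 v2M _ g'M
    calc ρ * F.v2 * ρ⁻¹ = d2 * (d1 * F.v2 * d1⁻¹) * d2⁻¹ := by rw [hρ]; group
      _ = F.v2 * F.v1 * (g' * F.v2) * g := by
        rw [e1, ZB_cjm, ZB_cjm, e2, b2, conj_eq_of_mem_centralizer d2M gM]; group
      _ = (F.v2 * F.v1 * F.v2) * g * (f * g) := by rw [g'v, hg']; group
      _ = (F.z * F.v1) * (g * g) * f := by rw [w, ← gf]; group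
      _ = F.v1 * (F.z * F.z) * f := by rw [h.gg, F.zv1]; group
      _ = _ := by rw [F.zz]; group
  -- `δ0`
  obtain ⟨δ, hδ⟩ : ∃ δ, δ = ρ * d2 * ρ⁻¹ := ⟨_, rfl⟩
  have δM : δ ∈ 𝐂(M) := hδ ▸ mul_mem (mul_mem ρM d2M) (inv_mem ρM)
  have δN : δ ∈ 𝐍(P) := hδ ▸ mul_mem (mul_mem ρN n2) (inv_mem ρN)
  have δδ : δ * δ = F.v1 * f := by rw [hδ, ← ZB_cjm, h.d22, ρv]
  have δv : δ * F.v1 = F.v1 * δ := by
    have c1 : f * δ = δ * f := mem_centralizer_iff_commute.1 δM _ (FM hf)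
    have : F.v1 = δ * δ * f⁻¹ := by rw [δδ]; group
    rw [this]
    calc δ * (δ * δ * f⁻¹) = δ * δ * (f⁻¹ * (f * δ) * f⁻¹) := by group
      _ = _ := by rw [c1]; group
  have δt : δ * F.t * δ⁻¹ = F.t * (F.v1 * f) := by
    have c1 : δ * (F.v1 * g') * δ⁻¹ = F.v1 * g' := by
      rw [ZB_cjm, δv, conj_eq_of_mem_centralizer δM g'M]; group
    have c2 : δ * (F.t * (F.v1 * g')) * δ⁻¹ = F.t * (F.v1 * g') * (F.v1 * f) := by
      calc δ * (F.t * (F.v1 * g')) * δ⁻¹ = ρ * (d2 * F.t * d2⁻¹) * ρ⁻¹ := by rw [← ρt, hδ]; group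
        _ = _ := by rw [a2, ZB_cjm, ρt, ρv]
    rw [ZB_cjm, c1] at c2
    have c3 : (F.v1 * g') * (F.v1 * f) = (F.v1 * f) * (F.v1 * g') :=
      abR (mul_mem v1R (MR g'M)) (mul_mem v1R (MR (FM hf)))
    rw [mul_assoc F.t, c3, ← mul_assoc F.t] at c2
    exact mul_right_cancel c2
  have kt : d1⁻¹ * δ * F.t * (d1⁻¹ * δ)⁻¹ = F.t * f := by
    have c1 : d1 * (F.t * f) * d1⁻¹ = F.t * (F.v1 * f) := by
      rw [ZB_cjm, a1, conj_eq_of_mem_centralizer d1M (FM hf)]; group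
    calc d1⁻¹ * δ * F.t * (d1⁻¹ * δ)⁻¹ = d1⁻¹ * (δ * F.t * δ⁻¹) * d1 := by group
      _ = _ := by rw [δt, ← c1]; group
  have nW : ∀ {k x : G}, k ∈ 𝐂(M) → k * F.v1 = F.v1 * k → x ∈ F.F0 → k * F.t * k⁻¹ = F.t * x → k ∈ 𝐍(F.W1) :=
    fun {k x} kM kv hx e => B2.norm_gen (by
      rintro y (rfl | rfl | rfl | rfl)
      · rw [e]; exact mul_mem F.b2_tW (F.X1W1 (F.F0X1 hx))
      · rw [conj_eq_of_mem_centralizer kM (FM (subset_closure (by simp)))]; exact F.X1W1 F.b2_zX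
      · rw [B2.cj_of_comm kv]; exact F.b2_vW
      · rw [conj_eq_of_mem_centralizer kM uM]; exact F.X1W1 F.b2_uX)
  have dv : Commute (d1⁻¹ * δ) F.v1 := (Commute.inv_left (abR d1R v1R)).mul_left δv
  obtain ⟨m, hm, em⟩ := h.ZB_tr hf ⟨_, nW (mul_mem (inv_mem d1M) δM) dv hf kt, kt⟩
  rw [← hM] at hm
  have k1 : m * (d1⁻¹ * δ) * F.t = F.t * (m * (d1⁻¹ * δ)) := by
    calc m * (d1⁻¹ * δ) * F.t = m * (d1⁻¹ * δ * F.t * (d1⁻¹ * δ)⁻¹) * (d1⁻¹ * δ) := by group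
      _ = _ := by rw [kt, ← em]; group
  obtain ⟨τ, hτ, o, ho, eo⟩ := dec _ (mul_mem (le_normalizer (MP hm)) (mul_mem (inv_mem n1) δN)) k1
    (nW (mul_mem (mem_centralizer_iff_commute.2 fun a ha => abR (MR ha) (MR hm)) (mul_mem (inv_mem d1M) δM))
      (Commute.mul_left (abR (MR hm) v1R) dv) (one_mem _) (by rw [mul_one]; exact B2.cj_of_comm k1))
  have Oodd : ∀ o ∈ O, Odd (orderOf o) := fun o ho => ((hO o).1 ho).2
  have SO : S ≤ 𝐍(O) := SN.trans NO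
  have δS : δ ∈ S ⊔ O := by
    have : δ = d1 * m⁻¹ * τ * o := by rw [mul_assoc _ τ, ← eo]; group
    rw [this]
    exact mul_mem (mem_sup_left (mul_mem (mul_mem (RS d1R) (inv_mem (RS (MR hm)))) (PS (TP hτ)))) (mem_sup_right ho)
  have vf2 : F.v1 * f * (F.v1 * f) = 1 := F.sqW1 (F.X1W1 (mul_mem v1X (F.F0X1 hf)))
  have δ2 : P2 δ := P2.of_mul_self (P2.of_sq (by rw [δδ, vf2]))
  obtain ⟨x, hx, ex⟩ := (syl_sup_odd S2 Oodd SO).exists_cj_le δ2.zpowers (zpowers_le.2 δS)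
  obtain ⟨q, hq, o', ho', rfl⟩ := (mem_sup_of_le_normalizer_right SO).1 hx
  have δ'S : o' * δ * o'⁻¹ ∈ S := by
    have := ex (cj_mem _ (mem_zpowers δ))
    have e : o' * δ * o'⁻¹ = q⁻¹ * (q * o' * δ * (q * o')⁻¹) * q := by group
    rw [e]
    exact mul_mem (mul_mem (inv_mem hq) this) hq
  have oP : o' ∈ 𝐂(P) := ((hO o').1 ho').1
  have oM : o' ∈ 𝐂(M) := centralizer_anti MP oP
  obtain ⟨ε, hε⟩ : ∃ ε, ε = o' * δ * o'⁻¹ := ⟨_, rfl⟩
  rw [← hε] at δ'S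
  have εM : ε ∈ 𝐂(M) := hε ▸ mul_mem (mul_mem oM δM) (inv_mem oM)
  have εv : ε * F.v1 = F.v1 * ε := by
    have c := conj_eq_of_mem_centralizer oP (TP v1T)
    rw [hε, ← c, ← ZB_cjm, ← ZB_cjm, δv]
  have εε : ε * ε = F.v1 * f := by
    rw [hε, ← ZB_cjm, δδ, conj_eq_of_mem_centralizer oP (mul_mem (TP v1T) (MP (FM hf)))]
  have nv : F.v2 * F.v1 ≠ F.v1 * F.v2 := by
    intro e
    rw [F.v21] at e
    exact F.z1 (mul_right_cancel (e.trans (one_mul _).symm))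
  have εR : ε ∈ F.R g r d1 := by
    rw [hS] at δ'S
    obtain ⟨e, he, a, b, ee⟩ := h.memS.1 δ'S
    have y1 : F.t ^ (a : ℕ) * F.v2 ^ (b : ℕ) * g = g * (F.t ^ (a : ℕ) * F.v2 ^ (b : ℕ)) := by
      have c1 : g * ε = ε * g := mem_centralizer_iff_commute.1 εM _ gM
      have c2 : g * e = e * g := abR (MR gM) he
      apply mul_right_cancel (b := e)
      rw [mul_assoc _ g, c2, ← mul_assoc, mul_assoc g, ← ee, c1]
    have y2 : F.t ^ (a : ℕ) * F.v2 ^ (b : ℕ) * F.v1 = F.v1 * (F.t ^ (a : ℕ) * F.v2 ^ (b : ℕ)) := by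
      have c2 : F.v1 * e = e * F.v1 := abR v1R he
      apply mul_right_cancel (b := e)
      rw [mul_assoc _ F.v1, c2, ← mul_assoc, mul_assoc F.v1, ← ee, εv]
    have gv2 : g * F.v2 = F.v2 * g := mem_centralizer_iff_commute.1 v2M _ gM
    have ntg : F.t * g ≠ g * F.t := by
      intro c
      have c4 := h.tg
      rw [c, mul_assoc, F.tt, mul_one] at c4
      apply F.z1
      rw [← h.gg]
      calc g * g = g * g⁻¹ := by rw [← c4]
        _ = 1 := mul_inv_cancel g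
    fin_cases a <;> fin_cases b <;> simp at y1 y2 ee
    · exact ee ▸ he
    · exact absurd y2 nv
    · exact absurd y1 ntg
    · rw [mul_assoc, ← gv2, ← mul_assoc, ← mul_assoc] at y1
      exact absurd (mul_right_cancel y1) ntg
  refine ⟨o' * ρ, hM ▸ mul_mem oM ρM, ?_, ?_, ?_⟩
  · have cM : o' * ρ ∈ 𝐂(M) := mul_mem oM ρM
    have εe : o' * ρ * d2 * (o' * ρ)⁻¹ = ε := by rw [hε, hδ]; group
    apply le_antisymm
    · apply ZB_cj_cl
      rintro s (rfl | rfl | rfl | rfl)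
      · rw [conj_eq_of_mem_centralizer cM gM]; exact MR gM
      · rw [εe]; exact εR
      · rw [conj_eq_of_mem_centralizer cM rM]; exact MR rM
      · rw [conj_eq_of_mem_centralizer cM uM]; exact MR uM
    · obtain ⟨Q, hQ⟩ : ∃ Q, Q = F.R g r d2 ^ᶜ (o' * ρ) := ⟨_, rfl⟩
      rw [← hQ]
      have MQ : M ≤ Q := by
        rw [hQ, ← cj_eq_of_mem_centralizer cM]
        apply cj_mono
        rw [hM, closure_le]
        rintro s (rfl | rfl | rfl) <;> exact subset_closure (by simp)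
      have εQ : ε ∈ Q := by
        rw [hQ, ← εe]; exact cj_mem _ (subset_closure (by simp))
      have zF : F.z ∈ F.F0 := subset_closure (by simp)
      have XQ : F.X1 ≤ Q := by
        rw [X1, closure_le]
        rintro s (rfl | rfl | rfl)
        · exact MQ (FM zF)
        · have : F.v1 = ε * ε * f⁻¹ := by rw [εε]; group
          show F.v1 ∈ Q
          rw [this]; exact mul_mem (mul_mem εQ εQ) (inv_mem (MQ (FM hf)))
        · exact MQ uM
      have d1Q : d1 ∈ Q := by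
        obtain ⟨w, hw, i, j, k, ew⟩ := h.memR.1 εR
        have gi : g ^ (i : ℕ) ∈ M := pow_mem gM _
        have rk : r ^ (k : ℕ) ∈ M := pow_mem rM _
        fin_cases j
        · exfalso
          simp only [pow_zero, mul_one] at ew
          have wR := h.XR hw
          have s1 : ε * ε = (g ^ (i : ℕ) * r ^ (k : ℕ)) * (g ^ (i : ℕ) * r ^ (k : ℕ)) := by
            have c := abR wR (MR (mul_mem gi rk))
            have w2 := F.sqW1 (F.X1W1 hw)
            calc ε * ε = w * ((g ^ (i : ℕ) * r ^ (k : ℕ)) * w) * (g ^ (i : ℕ) * r ^ (k : ℕ)) := by rw [ew]; group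
              _ = (w * w) * (g ^ (i : ℕ) * r ^ (k : ℕ)) * (g ^ (i : ℕ) * r ^ (k : ℕ)) := by rw [← c]; group
              _ = _ := by rw [w2, one_mul]
          have : F.v1 ∈ M := by
            have e : F.v1 = ε * ε * f⁻¹ := by rw [εε]; group
            rw [e, s1]
            exact mul_mem (mul_mem (mul_mem gi rk) (mul_mem gi rk)) (inv_mem (FM hf))
          exact nv (mem_centralizer_iff_commute.1 v2M _ this).symm
        · simp only [pow_one] at ew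
          have : d1 = (w * g ^ (i : ℕ))⁻¹ * ε * (r ^ (k : ℕ))⁻¹ := by rw [ew]; group
          rw [this]
          exact mul_mem (mul_mem (inv_mem (mul_mem (XQ hw) (MQ gi))) εQ) (inv_mem (MQ rk))
      rw [R, closure_le]
      rintro s (rfl | rfl | rfl | rfl)
      · exact MQ gM
      · exact d1Q
      · exact MQ rM
      · exact MQ uM
  · have : o' * ρ * F.t * (o' * ρ)⁻¹ = F.t * g * F.v1 * f := by
      calc o' * ρ * F.t * (o' * ρ)⁻¹ = o' * (ρ * F.t * ρ⁻¹) * o'⁻¹ := by group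
        _ = F.t * (F.v1 * g) * f := by
          rw [ρt, conj_eq_of_mem_centralizer oP (mul_mem (TP tT) (mul_mem (TP v1T) (MP g'M))), hg']; group
        _ = _ := by rw [← gv1]; group
    rw [this, inv_mul_cancel_left]; exact hf
  · have : o' * ρ * F.v2 * (o' * ρ)⁻¹ = F.v1 * f := by
      calc o' * ρ * F.v2 * (o' * ρ)⁻¹ = o' * (ρ * F.v2 * ρ⁻¹) * o'⁻¹ := by group
        _ = _ := by rw [ρv, conj_eq_of_mem_centralizer oP (mul_mem (TP v1T) (MP (FM hf)))]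
    rw [this, inv_mul_cancel_left]; exact hf

end Fr

end H25.A6
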