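import Mathlib
import Cfsg.Agent.Lib.A6S.ZC

/-! Type `ZZ`: the conjugates of `t` in `t M`. -/

set_option autoImplicit false
set_option linter.unusedSectionVars false

namespace H25.A6

open Subgroup H69 H36.SW ZC

variable {G : Type*} [Group G] [Finite G]

local notation "κ" => MulAut.conj

namespace ZD

variable {F : Fr G} {u0 g g' r r' d1 d2 η1 η2 : G}

theorem tN (h : F.ZZ u0 g g' r r' d1 d2 η1 η2) : F.t ∈ 𝐍(F.R g r d1) :=
  mem_normalizer_of_cj_le (by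
    rintro _ ⟨x, hx, rfl⟩
    have : F.t * x * F.t⁻¹ = x⁻¹ := by rw [inv_eq_of_mul_eq_one_left F.tt, h.inv hx]
    exact show F.t * x * F.t⁻¹ ∈ _ from this ▸ inv_mem hx)

theorem memQ (h : F.ZZ u0 g g' r r' d1 d2 η1 η2) {x : G} (hx : x ∈ F.R g r d1 ⊔ zpowers F.t) :
    x ∈ F.R g r d1 ∨ ∃ e ∈ F.R g r d1, x = e * F.t :=
  ((mem_adj (tN h) (F.tt ▸ one_mem _)).1 hx).imp_right fun a => ⟨_, a, by group⟩

theorem cjt (h : F.ZZ u0 g g' r r' d1 d2 η1 η2) {e : G} (he : e ∈ F.R g r d1) :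
    e * F.t * e⁻¹ = F.t * (e * e)⁻¹ := by
  calc e * F.t * e⁻¹ = (F.t * F.t) * e * F.t * e⁻¹ := by rw [F.tt, one_mul]
    _ = F.t * (F.t * e * F.t) * e⁻¹ := by group
    _ = _ := by rw [h.inv he]; group

theorem tX (F : Fr G) : F.t ∈ 𝐂(F.X1) := fun x hx =>
  comm_of_sq (fun _ => F.sqW1) (F.X1W1 hx) (subset_closure (by simp))

theorem isQ (h : F.ZZ u0 g g' r r' d1 d2 η1 η2) : IsPGroup 2 (F.R g r d1 ⊔ zpowers F.t : Subgroup G) :=
  h.isP.to_le (sup_le le_sup_left (zpowers_le.2 (mem_sup_right (subset_closure (by simp)))))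

theorem QX (h : F.ZZ u0 g g' r r' d1 d2 η1 η2) : F.R g r d1 ⊔ zpowers F.t ≤ 𝐂(F.X1) :=
  sup_le (h.ab.trans (centralizer_le h.XR)) (zpowers_le.2 (tX F))

theorem sylQ (h : F.ZZ u0 g g' r r' d1 d2 η1 η2) (c : F.CA) :
    IsSylowIn 2 (F.R g r d1 ⊔ zpowers F.t) (𝐂(F.X1) ⊓ 𝐍(F.W1)) := by
  have tW : F.t ∈ F.W1 := subset_closure (by simp)
  have key : ∀ k ∈ 𝐂(F.X1), k * F.t * k⁻¹ ∈ F.W1 → k ∈ 𝐍(F.W1) := fun k hk ht => mem_normalizer_of_cj_le (by
    rintro _ ⟨x, hx, rfl⟩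
    have a : ∀ y ∈ F.X1, k * y * k⁻¹ ∈ F.W1 := fun y hy => by
      rw [← hk y hy, mul_inv_cancel_right]; exact F.X1W1 hy
    rcases F.memW1'.1 hx with b | b
    · exact a x b
    · have := a _ b
      rw [← conj_mul] at this
      exact (mul_mem_cancel_left ht).1 this)
  refine syl_of_norm (t := F.t) (isQ h) (le_inf (QX h) (sup_le (fun e he => key e (QX h (mem_sup_left he)) ?_)
    (zpowers_le.2 (le_normalizer tW)))) ?_ fun k hk _ => ?_
  · rw [cjt h he]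
    exact mul_mem tW (inv_mem (F.X1W1 (h.sq he).1))
  · have e1 : (F.R g r d1 ⊔ zpowers F.t) ⊓ centralizer {F.t} = F.W1 := by
      have a : ∀ e ∈ F.R g r d1, e * F.t = F.t * e → e ∈ F.W1 := fun e he ce => by
        have := cjt h he
        rw [ce, mul_inv_cancel_right, left_eq_mul, inv_eq_one] at this
        exact F.X1W1 ((h.sq he).2.1 this)
      refine le_antisymm (fun x hx => ?_) fun x hx => ⟨?_, mem_centralizer_singleton_iff.2
        (comm_of_sq (fun _ => F.sqW1) hx tW)⟩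
      · have cx := mem_centralizer_singleton_iff.1 hx.2
        rcases memQ h hx.1 with b | ⟨e, he, rfl⟩
        · exact a x b cx
        · exact mul_mem (a e he (mul_right_cancel (cx.trans (mul_assoc _ _ _).symm))) tW
      · exact (F.memW1'.1 hx).elim (fun a => mem_sup_left (h.XR a))
          fun a => (mul_mem_cancel_left (mem_sup_right (mem_zpowers F.t))).1 (mem_sup_left (h.XR a))
    have e2 : 𝐂(F.X1) ⊓ 𝐍(F.W1) ⊓ centralizer {F.t} = 𝐂(F.W1) := by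
      refine le_antisymm (fun x hx y hy => ?_) fun x hx => ⟨⟨centralizer_le F.X1W1 hx,
        centralizer_le_normalizer _ hx⟩, mem_centralizer_singleton_iff.2 (hx _ tW).symm⟩
      rcases F.memW1'.1 hy with b | b
      · exact hx.1.1 y b
      · have := hx.1.1 _ b
        rw [← mul_assoc, mem_centralizer_singleton_iff.1 hx.2, mul_assoc, mul_assoc] at this
        exact mul_left_cancel this
    rw [e1, e2]
    exact F.sylW1
  · obtain ⟨e, he, e1⟩ := h.omX ((c.omW1 (cm hk.2 tW)).1 (F.om_t.cj k))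
      ⟨k, hk.2, by rw [← mul_assoc, F.tt, one_mul]⟩
    exact ⟨e, mem_sup_left he, by rw [e1, ← mul_assoc, F.tt, one_mul]⟩

/-- the transport of `R1` into `R_j` -/
theorem move (h : F.ZZ u0 g g' r r' d1 d2 η1 η2) (c : F.CA) {F' : Fr G} {w0 a a' b b' c1 c2 θ1 θ2 : G}
    (h' : F'.ZZ w0 a a' b b' c1 c2 θ1 θ2) (c' : F'.CA) (eO : F'.Om = F.Om) (e0 : F'.F0 = F.F0) {k : G}
    (hk : k * F'.t * k⁻¹ = F.t * r) (hW : F'.W1 ^ᶜ k = F.X1 ⊔ zpowers (F.t * r))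
    (hN : F.R g r d1 ⊔ zpowers F.t ≤ 𝐍((F.X1 ⊔ zpowers (F.t * r) : Subgroup G))) :
    ∃ m, F.R g r d1 ^ᶜ m ≤ F'.R a b c1 ∧ ∃ w ∈ F'.X1, m * (F.t * r) * m⁻¹ = F'.t * w := by
  have eX : F.X1 ^ᶜ k⁻¹ = F'.X1 := eq_of_le_of_card_ge (fun x hx => by
    have hx' := mem_cj.1 hx
    rw [inv_inv] at hx'
    have xW : x ∈ F'.W1 := cj_mem_iff.1 (hW ▸ mem_sup_left hx')
    refine (F'.memW1'.1 xW).resolve_right fun b => F.nX1 c.n1 c.n2 hx' ?_
    exact (eO ▸ (c'.omW1 xW).2 b : F.Om x).cj k) (by rw [card_cj, F.cardX1, F'.cardX1, e0])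
  obtain ⟨l, hl, hq⟩ := (sylQ h' c').exists_cj_le (isPGroup_cj (isQ h) k⁻¹) (by
    rw [← eX, ← cj_cj_inv F'.W1 k, hW, ← cj_centralizer, ← cj_normalizer, ← cj_inf]
    exact cj_mono _ (le_inf (QX h) hN))
  rw [cj_cj] at hq
  have tW : F'.t ∈ F'.W1 := subset_closure (by simp)
  refine ⟨l * k⁻¹, ?_, F'.t * (l * F'.t * l⁻¹), (c'.omW1 (cm hl.2 tW)).1 (F'.om_t.cj l), ?_⟩
  · rintro _ ⟨x, hx, rfl⟩
    by_cases x2 : x * x = 1
    · refine h'.XR ?_
      rw [← cj_eq_of_mem_centralizer hl.1, ← eX, cj_cj]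
      exact cj_mem _ ((h.sq hx).2.1 x2)
    · refine (memQ h' (hq (cj_mem _ (mem_sup_left hx)))).resolve_right ?_
      rintro ⟨e, he, e1⟩
      have : e * F'.t * (e * F'.t) = 1 := by
        rw [mul_assoc, ← mul_assoc F'.t, h'.inv he, mul_inv_cancel]
      rw [← e1, conj_mul, conj_eq_one_iff] at this
      exact x2 this
  · rw [← hk, ← mul_assoc F'.t, F'.tt]; group

theorem ex_u (h : F.ZZ u0 g g' r r' d1 d2 η1 η2) {ρ : G}
    (hρ : ρ ∈ 𝐂(closure ({g, r, F.u1} : Set G)) ∧ F.R g r d2 ^ᶜ ρ = F.R g r d1 ∧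
    (F.t * g * F.v1)⁻¹ * (ρ * F.t * ρ⁻¹) ∈ F.F0 ∧ F.v1⁻¹ * (ρ * F.v2 * ρ⁻¹) ∈ F.F0) (c : F.CA) (h0 : u0 = F.u1)
    (o : F.Om (F.t * r)) : ∃ n, Pt (F.R g r d1) F.t n F.u1 := by
  have rR : r ∈ F.R g r d1 := subset_closure (by simp)
  have rr : r * r = F.u1 := h.rr.trans h0
  have ss := o.sq.1
  have sX : F.t * r ∈ 𝐂(F.X1) := mul_mem (tX F) (QX h (mem_sup_left rR))
  have mW : ∀ {x}, x ∈ F.X1 ⊔ zpowers (F.t * r) ↔ x ∈ F.X1 ∨ x * (F.t * r)⁻¹ ∈ F.X1 :=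
    mem_adj (centralizer_le_normalizer _ sX) (ss ▸ one_mem _)
  have sW : F.t * r ∈ F.X1 ⊔ zpowers (F.t * r) := mem_sup_right (mem_zpowers _)
  have key : ∀ k ∈ 𝐂(F.X1), k * (F.t * r) * k⁻¹ ∈ F.X1 ⊔ zpowers (F.t * r) →
      k ∈ 𝐍((F.X1 ⊔ zpowers (F.t * r) : Subgroup G)) := fun k hk ht => mem_normalizer_of_cj_le (by
    rw [cj_sup, cj_eq_of_mem_centralizer hk, cj_zpowers]
    exact sup_le le_sup_left (zpowers_le.2 ht))
  have hN : F.R g r d1 ⊔ zpowers F.t ≤ 𝐍((F.X1 ⊔ zpowers (F.t * r) : Subgroup G)) := by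
    refine sup_le (fun e he => key e (QX h (mem_sup_left he)) ?_) (zpowers_le.2 (key _ (tX F) ?_))
    · have : e * (F.t * r) * e⁻¹ = F.t * r * (e * e)⁻¹ := by
        rw [← conj_mul, cjt h he, ← h.ab he r rR, mul_inv_cancel_right, mul_assoc, mul_assoc,
          h.ab rR _ (inv_mem (mul_mem he he))]
      exact this ▸ mul_mem sW (mem_sup_left (inv_mem (h.sq he).1))
    · have : F.t * (F.t * r) * F.t⁻¹ = F.t * r * (r * r)⁻¹ := by
        rw [inv_eq_of_mul_eq_one_left F.tt, mul_assoc, h.tr]; group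
      exact this ▸ mul_mem sW (mem_sup_left (inv_mem (h.sq rR).1))
  have sq : ∀ x ∈ F.X1 ⊔ zpowers (F.t * r), x * x = 1 := fun x hx => by
    rcases mW.1 hx with a | a
    · exact F.sqW1 (F.X1W1 a)
    · rw [← inv_mul_cancel_right x (F.t * r), (show Commute (F.t * r) _ from (sX _ a).symm).mul_mul_mul_comm,
        F.sqW1 (F.X1W1 a), ss, one_mul]
  obtain ⟨k, hk, hW⟩ := F.ea_cj o sq (fun x hx => mem_centralizer_singleton_iff.2 (comm_of_sq sq hx sW)) (by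
    rw [card_adj (centralizer_le_normalizer _ sX) (ss ▸ one_mem _) fun a => F.nX1 c.n1 c.n2 a o, F.cardX1,
      F.cardW1]
    omega)
  rcases hW with hW | hW
  · obtain ⟨m, hm, w, hw, e⟩ := move h c h c rfl rfl hk hW hN
    exact ⟨m⁻¹, (Pt.of h.ab (inv_mem (mem_normalizer_of_cj_le hm)) (h.XR hw) rR (by rw [← e]; group)).cg (by
      rw [F.sqW1 (F.X1W1 hw), map_one, inv_one, mul_one, rr])⟩
  · obtain ⟨u0', -, h'⟩ := h.sw
    obtain ⟨m, hm, w, hw, e⟩ := move h c h' c.sw rfl F.sw_F0 hk hW hN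
    rw [h.R_sw] at hm
    obtain ⟨e1, he1, te, ee⟩ := e0 h hρ.2.2.1
    obtain ⟨f, -, fN, pf⟩ := h.exf hρ
    have wR : ρ * w * ρ⁻¹ ∈ F.R g r d1 := hρ.2.1 ▸ cj_mem ρ (h.R_sw ▸ h'.XR hw)
    have nN : ρ * m ∈ 𝐍(F.R g r d1) := mem_normalizer_of_cj_le (by
      rw [← cj_cj]
      exact (cj_mono ρ hm).trans hρ.2.1.le)
    have p := Pt.of (t := F.t) h.ab (inv_mem nN) (mul_mem he1 wR) rR (by
      have e' : m * (F.t * r) * m⁻¹ = F.t * w := e
      rw [← mul_assoc F.t, ← te, conj_mul, ← e']; group)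
    rw [(show Commute _ e1 from h.ab he1 _ wR).mul_mul_mul_comm, ee, cjsq (F.sw.sqW1 (F.sw.X1W1 hw)), mul_one,
      rr] at p
    exact ⟨_, (p.mul h.ab ⟨fN, pf⟩).cg (inv_mul_cancel_right _ _)⟩

theorem Xmem (F : Fr G) {x : G} (hx : x ∈ F.X1) : x ∈ F.V1 ∨ x * F.u1 ∈ F.V1 := by
  obtain ⟨b, d, e, rfl⟩ := F.memX1.1 hx
  have := mul_mem (pow_mem (vV F) b) (pow_mem (zV F) d)
  fin_cases e
  · exact Or.inl (by simpa using this)
  · exact Or.inr (by simpa [mul_assoc, F.u11] using this)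

theorem ex_c (h : F.ZZ u0 g g' r r' d1 d2 η1 η2) (c : F.CA) {n : G} (p : Pt (F.R g r d1) F.t n F.u1) :
    ∃ n ∈ 𝐂(F.X1), Pt (F.R g r d1) F.t n F.u1 := by
  obtain ⟨q, e1, e2, e3⟩ := eta h
  have cX : ∀ {m x}, m ∈ 𝐍(F.R g r d1) → x ∈ F.X1 → κ m x ∈ F.X1 := fun hm hx =>
    (h.sq (cm hm (h.XR hx))).2.1 (cjsq (F.sqW1 (F.X1W1 hx)) _)
  have uX : F.u1 ∈ F.X1 := subset_closure (by simp)
  obtain ⟨a1, a2⟩ := SP1 h (((p.inv h.ab).mul h.ab (q.mul h.ab p)).cg (by rw [one_mul, e3, inv_mul_cancel]))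
  have kk : ∀ x, κ (n⁻¹ * (η1 * n)) x = κ n⁻¹ (κ η1 (κ n x)) := fun x => by simp only [map_mul, MulAut.mul_apply]
  have ki : ∀ x, κ n (κ n⁻¹ x) = x := fun x => by simp only [MulAut.conj_apply]; group
  have nz : F.z ≠ 1 := F.z1
  have n1 : F.v1 ≠ 1 := fun e => by simpa using (F.ind (a := 0) (b := 1) (c := 0) (d := 0) (e := 0) (by simpa)).2.1
  have n2 : F.z * F.v1 ≠ 1 := fun e => by
    simpa using (F.ind (a := 0) (b := 1) (c := 0) (d := 1) (e := 0) (by simpa [F.zv1] using e)).2.1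
  have fx : ∀ x ∈ F.V1, κ η1 x = x → x = 1 := fun x hx e => by
    rcases F.memV1.1 hx with rfl | rfl | rfl | rfl
    · rfl
    · rw [e1] at e
      exact absurd (by rw [e, F.zz]) n2
    · rw [e2, mul_eq_right] at e
      exact absurd e nz
    · rw [map_mul, e1, e2] at e
      simp only [mul_assoc, xr F, mul_one, left_eq_mul] at e
      exact absurd e n1
  have nu : κ n F.u1 = F.u1 := by
    have a : κ η1 (κ n F.u1) = κ n F.u1 := by rw [← ki (κ η1 _), ← kk, kfix a1]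
    rcases Xmem F (cX p.nm uX) with b | b
    · exact absurd ((map_eq_one_iff _ (κ n).injective).1 (fx _ b a)) c.u1
    · have := fx _ b (by rw [map_mul, a, e3])
      rwa [mul_eq_one_iff_eq_inv, (xr F).1.2.2.2.2.2.2.2.2] at this
  have mv : ∀ y ∈ F.X1, κ n⁻¹ (y⁻¹ * κ η1 y) ∈ F.V1 := fun y hy => by
    have : κ n⁻¹ (y⁻¹ * κ η1 y) = (κ n⁻¹ y)⁻¹ * κ (n⁻¹ * (η1 * n)) (κ n⁻¹ y) := by rw [kk, ki, map_mul, map_inv]
    rw [this]
    rcases Xmem F (cX (inv_mem p.nm) hy) with b | b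
    · exact mul_mem (inv_mem b) (cm a2 b)
    · have := mul_mem (inv_mem b) (cm a2 b)
      change _ * κ _ _ ∈ _ at this
      rw [map_mul, kfix a1, mul_inv_rev] at this
      have t2 := cm (centralizer_le_normalizer _ (show F.u1 ∈ 𝐂(F.V1) from fun x hx =>
        comm_of_sq (fun _ => F.sqW1) (F.X1W1 (F.V1X1 hx)) (F.X1W1 uX))) this
      convert t2 using 1
      group
  have nV : n ∈ 𝐍(F.V1) := by
    refine inv_mem_iff.1 (mem_normalizer_of_cj_le ?_)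
    rw [Fr.V1, MonoidHom.map_closure, closure_le]
    rintro _ ⟨_, rfl | rfl, rfl⟩
    · have := mv _ (F.V1X1 (vV F))
      rw [e2] at this
      simp only [xr F, mul_one] at this
      exact this
    · have := mv _ (F.V1X1 (zV F))
      rw [e1, (xr F).1.2.2.2.2.2.2.1] at this
      have t2 := mv _ (F.V1X1 (vV F))
      rw [e2] at t2
      simp only [xr F, mul_one] at t2
      rw [map_mul] at this
      exact (mul_mem_cancel_left t2).1 this
  have ηV : η1 ∈ 𝐍(F.V1) := (SP1 h q).2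
  have fin : ∀ m, Pt (F.R g r d1) F.t m F.u1 → m ∈ 𝐍(F.V1) → κ m F.u1 = F.u1 → κ m F.z = F.z →
      ∃ n ∈ 𝐂(F.X1), Pt (F.R g r d1) F.t n F.u1 := fun m pm mV mu mz => by
    rcases F.pure (of_kfix mz) (of_kfix mu) mV with b | b
    · exact ⟨m, b, pm⟩
    · exact ⟨_, b, (pm.mul h.ab (Pt.one h.v2N F.tv2.symm)).cg (by rw [map_one, mul_one])⟩
  rcases F.memV1.1 (show κ n F.z ∈ F.V1 from cm nV (zV F)) with b | b | b | b
  · exact absurd ((map_eq_one_iff _ (κ n).injective).1 b) nz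
  · exact fin n p nV nu b
  · refine fin _ ((q.mul h.ab (q.mul h.ab p)).cg ?_) (mul_mem ηV (mul_mem ηV nV)) ?_ ?_ <;>
      simp only [map_mul, MulAut.mul_apply, b, nu, e1, e2, e3, xr F, one_mul, mul_one]
  · refine fin _ ((q.mul h.ab p).cg ?_) (mul_mem ηV nV) ?_ ?_ <;>
      simp only [map_mul, MulAut.mul_apply, b, nu, e1, e2, e3, xr F, one_mul, mul_one]

end ZD

open ZD

namespace Fr
variable {F : Fr G} {u0 g g' r r' d1 d2 η1 η2 : G}

theorem ZZ.nr (h : F.ZZ u0 g g' r r' d1 d2 η1 η2) {ρ : G} (hρ : ρ ∈ 𝐂(closure ({g, r, F.u1} : Set G)) ∧ F.R g r d2 ^ᶜ ρ = F.R g r d1 ∧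
    (F.t * g * F.v1)⁻¹ * (ρ * F.t * ρ⁻¹) ∈ F.F0 ∧ F.v1⁻¹ * (ρ * F.v2 * ρ⁻¹) ∈ F.F0) (c : F.CA) (h0 : u0 = F.u1) : ¬ F.Om (F.t * r) := by
  intro o
  obtain ⟨n0, p0⟩ := ex_u h hρ c h0 o
  obtain ⟨n, hn, p⟩ := ex_c h c p0
  obtain ⟨μ, q, m1, -, m3⟩ := mu h hρ
  rw [F.u2_eq c.u1] at m3
  have mu : κ μ F.u1 = ρ * F.v2 * ρ⁻¹ * (F.z * F.u1) := by
    rw [← m1, ← m3, ← map_mul]; simp only [xr F]
  have nz : κ n F.z = F.z := kfix (hn _ (F.V1X1 (zV F))).symm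
  have nv : κ n F.v1 = F.v1 := kfix (hn _ (F.V1X1 (vV F))).symm
  have nu : κ n F.u1 = F.u1 := kfix (hn _ (subset_closure (by simp))).symm
  have key := fun e => kfix (SP1 h ((p.mul h.ab (q.mul h.ab p)).cg e)).1
  rcases h.plane hρ with e | e <;> rw [e] at key mu <;>
    simp only [map_mul, MulAut.mul_apply, mu, nz, nv, nu, mul_inv_rev, mul_assoc, xr F, mul_one, one_mul,
      true_implies] at key
  · simpa using (F.ind (a := 0) (b := 1) (c := 0) (d := 1) (e := 0) (by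
      simpa [← mul_assoc, F.zv1] using key)).2.1
  · simpa using (F.ind (a := 0) (b := 1) (c := 0) (d := 0) (e := 0) (by simpa using key)).2.1

theorem ZZ.nv (h : F.ZZ u0 g g' r r' d1 d2 η1 η2) {ρ : G} (hρ : ρ ∈ 𝐂(closure ({g, r, F.u1} : Set G)) ∧ F.R g r d2 ^ᶜ ρ = F.R g r d1 ∧
    (F.t * g * F.v1)⁻¹ * (ρ * F.t * ρ⁻¹) ∈ F.F0 ∧ F.v1⁻¹ * (ρ * F.v2 * ρ⁻¹) ∈ F.F0) 
    (n34 : u0 = 1 → ¬ F.Om (F.t * F.u1) ∧ ¬ F.Om (F.t * F.u2)) {m : G} (hm : m ∈ closure ({g, r, F.u1} : Set G))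
    (o : F.Om (F.t * m)) : m ∈ closure ({g, u0} : Set G) := by
  have gM : g ∈ closure ({g, r, F.u1} : Set G) := subset_closure (by simp)
  have rM : r ∈ closure ({g, r, F.u1} : Set G) := subset_closure (by simp)
  have gL : g ∈ closure ({g, u0} : Set G) := subset_closure (by simp)
  have uL : u0 ∈ closure ({g, u0} : Set G) := subset_closure (by simp)
  have zL : F.z ∈ closure ({g, u0} : Set G) := h.gg ▸ mul_mem gL gL
  have cM : ∀ a ∈ closure ({g, r, F.u1} : Set G), ∀ b ∈ closure ({g, r, F.u1} : Set G), a * b = b * a :=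
    fun a ha b hb => h.ab (h.MR hb) a (h.MR ha)
  have sqo : ∀ a ∈ closure ({g, r, F.u1} : Set G), ∀ b ∈ closure ({g, r, F.u1} : Set G),
      F.Om (F.t * (a * a * b)) → F.Om (F.t * b) := fun a ha b hb o => by
    have := o.cj a
    rwa [← conj_mul, cjt h (h.MR ha), cM a ha _ (mul_mem (mul_mem ha ha) hb), mul_inv_cancel_right, mul_assoc,
      inv_mul_cancel_left] at this
  have go : ∀ b ∈ closure ({g, r, F.u1} : Set G), F.Om (F.t * (g * b)) → F.Om (F.t * b) := fun b hb o => by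
    have t1 : d1⁻¹ * F.t * d1 = F.t * F.v1 := by
      rw [← h.td1, ← h.d11, mul_assoc _ F.t F.t, F.tt]; group
    have t2 : d2⁻¹ * F.t * d2 = F.t * F.v2 := by
      rw [← h.td2, ← h.d22, mul_assoc _ F.t F.t, F.tt]; group
    have gv : F.v1 * g = g * F.v1 := h.gT _ (subset_closure (by simp))
    have t3 : d1⁻¹ * (F.t * F.v2) * d1 = F.t * F.v2 * (F.z * g) := by
      calc d1⁻¹ * (F.t * F.v2) * d1 = (d1⁻¹ * F.t * d1) * (d1⁻¹ * F.v2 * d1) := by group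
        _ = F.t * (F.v1 * F.v2 * F.v1) * g := by rw [t1, h.c1, mul_assoc F.v2, ← gv]; group
        _ = _ := by rw [F.v121, show F.z * F.v2 = F.v2 * F.z from F.sw.zv1]; group
    have zM := F0M h (show F.z ∈ F.F0 from subset_closure (by simp))
    have o1 : F.Om (F.t * F.v2 * (g * b)) := by
      have := o.cj d2⁻¹
      rwa [← conj_mul, ← inv_mem h.d2M _ (mul_mem gM hb), mul_inv_cancel_right, inv_inv, t2] at this
    have o2 : F.Om (F.t * F.v2 * (F.z * g * (g * b))) := by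
      have := o1.cj d1⁻¹
      rwa [← conj_mul, ← inv_mem h.d1M _ (mul_mem gM hb), mul_inv_cancel_right, inv_inv, t3, mul_assoc] at this
    rw [mul_assoc F.z, ← mul_assoc g, h.gg, ← mul_assoc F.z, F.zz, one_mul, ← t2] at o2
    have := o2.cj d2
    rwa [← conj_mul, ← h.d2M _ hb, mul_inv_cancel_right, show d2 * (d2⁻¹ * F.t * d2) * d2⁻¹ = F.t by group] at this
  obtain ⟨f, hf, i, j, rfl⟩ := h.memM.1 hm
  have fM := F0M h hf
  have o' : F.Om (F.t * (f * r ^ (j : ℕ))) := by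
    fin_cases i
    · simpa using o
    · refine go _ (mul_mem fM (pow_mem rM _)) ?_
      rw [← mul_assoc g, cM g gM f fM]
      simpa using o
  rcases h.cs with ⟨rfl, rfl, -, c⟩ | ⟨rfl, -, -, c⟩
  · rw [one_pow, mul_one] at o' ⊢
    refine mul_mem ?_ (pow_mem gL _)
    by_cases hu : F.u1 = 1
    · rcases F.memF0.1 hf with rfl | rfl | rfl | rfl
      exacts [one_mem _, zL, by rw [hu]; exact one_mem _, by rwa [hu, mul_one]]
    · rcases F.memF0.1 hf with rfl | rfl | rfl | rfl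
      exacts [one_mem _, zL, ((n34 rfl).1 o').elim, ((n34 rfl).2 (F.u2_eq hu ▸ o')).elim]
  · have fL : f ∈ closure ({g, F.u1} : Set G) := by
      rcases F.memF0.1 hf with rfl | rfl | rfl | rfl
      exacts [one_mem _, zL, uL, mul_mem zL uL]
    fin_cases j
    · simpa using mul_mem fL (pow_mem gL _)
    · refine (h.nr hρ c rfl ?_).elim
      simp only [pow_one] at o'
      rcases F.memF0.1 hf with rfl | rfl | rfl | rfl
      · rwa [one_mul] at o'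
      · exact sqo g gM r rM (h.gg ▸ o')
      · exact sqo r rM r rM (h.rr ▸ o')
      · refine sqo r rM r rM (sqo g gM _ (mul_mem (mul_mem rM rM) rM) ?_)
        rwa [h.gg, h.rr, ← mul_assoc F.z]

end Fr

end H25.A6
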