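import Mathlib
import Cfsg.Agent.Lib.A6S.ZE
import Cfsg.Agent.Lib.A6S.ZD
import Cfsg.Agent.Lib.A6S.ZB
import Cfsg.Agent.Lib.A6S.EC
import Cfsg.Agent.Lib.A6S.GA
import Cfsg.Agent.Lib.A6S.Bas3

/-! Standard subgroups of type `A₆`: definitions for the cases with a swap of the two sides. -/

set_option autoImplicit false

namespace H25.A6

open Subgroup H69 H36.SW

variable {G : Type*} [Group G]

/-- every elementary subgroup of `S` of order at least `n` lies in `U` -/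
def WC (n : ℕ) (U S : Subgroup G) : Prop :=
  ∀ X : Subgroup G, X ≤ S → (∀ x ∈ X, x * x = 1) → n ≤ Nat.card X → X ≤ U

namespace Fr
variable (F : Fr G)

/-- `U0 = ⟨v1, v2, d1, d2⟩` -/
def UO (d1 d2 : G) : Subgroup G := closure {F.v1, F.v2, d1, d2}
/-- the derived group `⟨z, g⟩` of `U` -/
def Ud (g : G) : Subgroup G := closure {F.z, g}
/-- `U ⟨t, κ, k⟩` -/
def SK (g v d1 d2 κ k : G) : Subgroup G := F.U g v d1 d2 ⊔ closure {F.t, κ, k}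

/-- `EK` with the element `η` of order three on `E1` and a swap `κ` -/
structure ES (u0 g v d1 d2 η κ : G) : Prop where
  ek : F.EK u0 g v d1 d2
  tr : F.Tr u0 1 1 1 g d1 v η
  κ2 : P2 κ
  κU : κ ∈ 𝐍(F.U g v d1 d2)
  κZ : κ ∈ 𝐍(F.Z0 g v)
  κv1 : κ * F.v1 * κ⁻¹ = F.v2
  κv2 : κ * F.v2 * κ⁻¹ = F.v1
  κu1 : κ * F.u1 * κ⁻¹ = F.u2
  κu2 : κ * F.u2 * κ⁻¹ = F.u1
  κd : κ * d1 * κ⁻¹ = d2
  kd : (F.dl ≠ 1 ∧ κ * F.t = F.t * κ ∧ (κ * κ = 1 ∨ κ * κ = F.t) ∧ (u0 = 1 → F.IIa)) ∨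
    (F.dl = 1 ∧ u0 = 1 ∧ κ * F.t * κ⁻¹ = F.t * F.u2)

/-- `ES` normalised: `κ` fixes `g` -/
structure EN (u0 g v d1 d2 η κ : G) : Prop extends F.ES u0 g v d1 d2 η κ where
  κg : κ * g = g * κ
  sq : (F.dl ≠ 1 ∧ κ * κ = 1) ∨ (F.dl = 1 ∧ (κ * κ = g ∨ κ * κ = g * F.z))
  ty : d1 * d2 * d1 * d2 = g ∨ d1 * d2 * d1 * d2 = g * F.z

/-- an element `k` that conjugates `t` into `t κ U`; on `U / Z0` it swaps `d1, d2` and fixes `v1 d1, v2 d2` -/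
structure KK (g v d1 d2 κ k : G) : Prop where
  W : d1 * d2 * d1 * d2 = g
  d : F.dl ≠ 1
  kU : k ∈ 𝐍(F.U g v d1 d2)
  kZ : k ∈ 𝐍(F.Z0 g v)
  kg : k * g = g * k
  kz : k * F.z = F.z * k
  ke : d2⁻¹ * (k * d1 * k⁻¹) ∈ F.Z0 g v
  kf : d1⁻¹ * (k * d2 * k⁻¹) ∈ F.Z0 g v
  ke' : (F.v1 * d1)⁻¹ * (k * (F.v1 * d1) * k⁻¹) ∈ F.Z0 g v
  kf' : (F.v2 * d2)⁻¹ * (k * (F.v2 * d2) * k⁻¹) ∈ F.Z0 g v
  kt : (F.t * κ)⁻¹ * (k * F.t * k⁻¹) ∈ F.U g v d1 d2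
  kκ : κ⁻¹ * (k * κ * k⁻¹) ∈ F.U g v d1 d2
  kk : k * k ∈ F.U g v d1 d2

/-- `U ⟨t, κ, k⟩` is a Sylow 2-subgroup -/
structure SY (u0 g v d1 d2 η κ k : G) : Prop extends F.EN u0 g v d1 d2 η κ where
  hk : k = 1 ∨ F.KK g v d1 d2 κ k
  syl : IsSylowIn 2 (F.SK g v d1 d2 κ k) ⊤
  wc : WC (4 * Nat.card (F.Z0 g v)) (F.U g v d1 d2) (F.SK g v d1 d2 κ k)

/-- `K = ⟨g, d⟩ ≅ 4 × 4` -/
def K4 (_F : Fr G) (g d : G) : Subgroup G := closure {g, d}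
/-- `Q = R ⟨t⟩` -/
def QQ (g d : G) : Subgroup G := F.R g 1 d ⊔ zpowers F.t
/-- `A = K ⟨a, b⟩` -/
def AA (_F : Fr G) (g d a b : G) : Subgroup G := closure {g, d, a, b}
/-- `A ⟨t⟩` -/
def M0 (g d a b : G) : Subgroup G := closure {g, d, a, b, F.t}
/-- `A ⟨t, v2⟩` -/
def M1 (g d a b : G) : Subgroup G := closure {g, d, a, b, F.t, F.v2}
/-- `P = Q ⟨a, b⟩` -/
def PP (g d a b : G) : Subgroup G := closure {g, d, a, b, F.t, F.u1}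
/-- `P ⟨v2⟩` -/
def SP (g d a b : G) : Subgroup G := closure {g, d, a, b, F.t, F.u1, F.v2}

/-- type `ZZ` in case `IIa`: a 2-group `Q ⟨a, b⟩` normalised by `η1` and `v2` -/
structure ZQ (g g' d1 d2 η1 η2 a b : G) : Prop where
  zz : F.ZZ 1 g g' 1 1 d1 d2 η1 η2
  c : F.IIa
  aV : a ∈ 𝐂(F.V1)
  aK : a ∈ 𝐍(F.K4 g d1)
  aT : a * F.t * a⁻¹ = F.t * g
  au : a * F.u1 * a⁻¹ = F.u2
  ηa : η1 * a * η1⁻¹ = b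
  isP : IsPGroup 2 (F.PP g d1 a b)
  ηP : η1 ∈ 𝐍(F.PP g d1 a b)
  vP : F.v2 ∈ 𝐍(F.PP g d1 a b)

/-- `ZQ` normalised: `A = K ⟨a, b⟩` is invariant -/
structure ZP (g g' d1 d2 η1 η2 a b : G) : Prop extends F.ZQ g g' d1 d2 η1 η2 a b where
  φ : (a * g = g * a ∧ a * d1 = d1 * a) ∨
    (a * g * a⁻¹ = g * F.z ∧ a * d1 * a⁻¹ = d1 * F.z * F.v1)
  aa : a * a ∈ F.K4 g d1
  ab : a * b * a⁻¹ * b⁻¹ ∈ F.V1
  ηb : a * b * (η1 * b * η1⁻¹) ∈ F.K4 g d1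
  va : F.v2 * a * F.v2 * a⁻¹ ∈ F.K4 g d1
  vb : F.v2 * b * F.v2 * (a * b)⁻¹ ∈ F.K4 g d1

end Fr

end H25.A6
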