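import Mathlib
import Cfsg.Agent.Lib.A6S.HD

/-! Type `EE`: an element of `N(U ⟨t⟩)` that swaps the two sides. -/

set_option autoImplicit false
set_option linter.unusedSectionVars false

namespace H25.A6

open Subgroup H69 H36.SW H25.A7

variable {G : Type*} [Group G] [Finite G]

namespace HAH

theorem zero {K : Subgroup G} {p x q : G} (hp : p ∈ K) (hq : q ∈ K) (hx : x ∉ K) {j : Fin 2}
    (h : p * x ^ (j : ℕ) * q ∈ K) : j = 0 := by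
  fin_cases j
  · rfl
  · exact absurd (by simpa using (mul_mem_cancel_left hp).1 ((mul_mem_cancel_right hq).1 h)) hx

theorem swap_pow {A B : Subgroup G} {w : G} (h1 : A ^ᶜ w = B) (h2 : B ^ᶜ w = A) {m : ℕ} (hm : Odd m) :
    A ^ᶜ (w ^ m) = B := by
  obtain ⟨k, rfl⟩ := hm
  have h3 : w * w ∈ 𝐍(A) := by rw [← cj_eq_self_iff, ← cj_cj, h1, h2]
  rw [pow_succ', pow_mul, pow_two, ← cj_cj, cj_eq_self_iff.2 (pow_mem h3 k), h1]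

end HAH

namespace Fr
variable {F : Fr G} {u0 g v d1 d2 η η1 η2 κ k a b γ : G}

theorem EK.HA_isP (h : F.EK u0 g v d1 d2) : IsPGroup 2 (F.U g v d1 d2 ⊔ zpowers F.t : Subgroup G) :=
  isP_sup h.isP (.of_sq F.tt) h.tN

theorem EK.HA_MF (h : F.EK u0 g v d1 d2) {y f : G} (hy : y ∈ F.U g v d1 d2 ⊔ zpowers F.t) (hf : f ∈ F.F0) :
    y * f = f * y := by
  refine mem_centralizer_singleton_iff.1 ((sup_le (fun y hy => ?_) (zpowers_le.2 ?_) : _ ≤ centralizer {f}) hy)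
  exacts [mem_centralizer_singleton_iff.2 (h.toEE.b_UC hy _ (EA_F0Z g v hf)).symm,
    mem_centralizer_singleton_iff.2 (EA_F0t hf).symm]

/-- an element of `U ⟨t⟩` that commutes with `t f` lies in `T` -/
theorem EK.HA_cT (h : F.EK u0 g v d1 d2) {y f : G} (hy : y ∈ F.U g v d1 d2 ⊔ zpowers F.t) (hf : f ∈ F.F0)
    (c : y * (F.t * f) = F.t * f * y) : y ∈ F.T := by
  rw [← h.cT]
  refine ⟨hy, mem_centralizer_singleton_iff.2 ?_⟩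
  rwa [mul_assoc, ← h.HA_MF hy hf, ← mul_assoc, ← mul_assoc, mul_left_inj] at c

theorem EK.HA_card (h : F.EK u0 g v d1 d2) : 8 ≤ Nat.card (F.Z0 g v) := by
  have := (F.cardF0.resolve_left fun c => F.hu1 c.1).2
  rcases h.toEE.cardZ0 with ⟨-, c3⟩ | ⟨-, -, c3⟩ <;> omega

/-- the large elementary subgroups of `U ⟨t⟩` lie in `U` -/
theorem EK.HA_wc (h : F.EK u0 g v d1 d2) {X : Subgroup G} (hX : X ≤ F.U g v d1 d2 ⊔ zpowers F.t)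
    (h2 : ∀ x ∈ X, x * x = 1) (hc : 32 ≤ Nat.card X) : X ≤ F.U g v d1 d2 := by
  intro s hs
  by_contra hn
  have m := conj_mem_of_mem_normalizer h.tN ((h.c_mem (hX hs)).resolve_left hn)
  rw [mul_assoc, mul_inv_cancel_right] at m
  obtain ⟨l, hl, f, hf, e⟩ := h.invt m (by rw [F.b2_tt]; exact h2 s hs)
  rw [F.b2_tt] at e
  have le : X ^ᶜ l⁻¹ ≤ F.T := fun y hy => by
    rw [mem_cj, inv_inv] at hy
    have yM : y ∈ F.U g v d1 d2 ⊔ zpowers F.t :=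
      (mul_mem_cancel_left (mem_sup_left hl)).1 ((mul_mem_cancel_right (inv_mem (mem_sup_left hl))).1 (hX hy))
    refine h.HA_cT yM hf (B2.cj_inj' (g := l) ?_)
    rw [B2.cj_mul, B2.cj_mul l (F.t * f), ← e]
    exact comm_of_sq h2 hy hs
  have sq : ∀ x ∈ X ^ᶜ l⁻¹, x * x = 1 := fun x hx => by
    obtain ⟨y, hy, rfl⟩ := mem_cj'.1 hx
    exact cjsq (h2 y hy) _
  have c1 := F.card16
  have c2 := F.b2_card
  have c3 := card_cj X l⁻¹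
  rcases F.eaT le sq with k | k <;> have := card_le_of_le k <;> omega

theorem EK.HA_NU (h : F.EK u0 g v d1 d2) :
    𝐍((F.U g v d1 d2 ⊔ zpowers F.t : Subgroup G)) ≤ 𝐍(F.U g v d1 d2) := by
  intro n hn
  have e := h.toEE
  have c8 := h.HA_card
  have key : ∀ {X : Subgroup G}, X ≤ F.U g v d1 d2 → (∀ x ∈ X, x * x = 1) → Nat.card X = 4 * Nat.card (F.Z0 g v) →
      X ≤ F.U g v d1 d2 ^ᶜ n⁻¹ := fun {X} h1 h2 h3 => by
    rw [← cj_le_iff]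
    refine h.HA_wc ?_ (fun x hx => ?_) (by rw [card_cj]; omega)
    · rw [← cj_eq_self_iff.2 hn]; exact cj_mono _ (h1.trans le_sup_left)
    · obtain ⟨y, hy, rfl⟩ := mem_cj'.1 hx
      exact cjsq (h2 y hy) _
  obtain ⟨p1, q1⟩ := h.b_four e.b_v1U e.b_d1U F.v11 h.d11 h.d1v.symm h.b_i0 h.b_i1
  obtain ⟨p2, q2⟩ := h.b_four e.b_v2U e.b_d2U F.v22 h.d22 h.d2v.symm (fun x => h.b_i2 (mem_sup_left (mem_sup_left x)))
      (fun x => h.b_i3 (SetLike.le_def.1 (sup_le (le_sup_of_le_left (le_sup_of_le_left le_sup_left)) le_sup_right) x))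
  have k1 := key (h.b_le1 (h.b_le1 e.b_ZU e.b_v1U) e.b_d1U) p1 q1
  have k2 := key (h.b_le1 (h.b_le1 e.b_ZU e.b_v2U) e.b_d2U) p2 q2
  refine mem_normalizer_of_cj_le (cj_le_iff.2 (e.b_U_le ?_ ?_ ?_ ?_ ?_))
  · exact (le_sup_left.trans le_sup_left).trans k1
  · exact k1 (mem_sup_left (mem_sup_right (mem_zpowers _)))
  · exact k1 (mem_sup_right (mem_zpowers _))
  · exact k2 (mem_sup_left (mem_sup_right (mem_zpowers _)))
  · exact k2 (mem_sup_right (mem_zpowers _))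

/-- `Z0` is the centre of `U` -/
theorem EK.HA_Z (h : F.EK u0 g v d1 d2) : F.U g v d1 d2 ⊓ 𝐂(F.U g v d1 d2) = F.Z0 g v := by
  have e := h.toEE
  refine le_antisymm (fun x hx => ?_) h.Zc
  have hN : F.t ∈ 𝐍(F.U g v d1 d2 ⊓ 𝐂(F.U g v d1 d2)) :=
    le_normalizer_inf le_rfl (normalizer_le_normalizer_centralizer _) h.tN
  have hy : F.t * x * F.t * x⁻¹ ∈ F.U g v d1 d2 ⊓ 𝐂(F.U g v d1 d2) := by
    have := conj_mem_of_mem_normalizer hN hx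
    rw [EA_inv F.tt] at this
    exact mul_mem this (inv_mem hx)
  have hc : ∀ {w y : G}, w ∈ F.U g v d1 d2 → y ∈ F.U g v d1 d2 ⊓ 𝐂(F.U g v d1 d2) →
      y ∈ F.U g v d1 d2 ⊓ centralizer {w} := fun hw hy => ⟨hy.1, mem_centralizer_singleton_iff.2 (hy.2 _ hw).symm⟩
  have z1 : F.Z0 g v ≤ F.U g v d1 d2 ⊓ centralizer {F.v1} := fun c hc' => hc e.b_v1U (h.Zc hc')
  have z2 : F.Z0 g v ≤ F.U g v d1 d2 ⊓ centralizer {F.v2} := fun c hc' => hc e.b_v2U (h.Zc hc')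
  have n1 := h.b_nrm z1 inf_le_left
  have n2 := h.b_nrm z2 inf_le_left
  have m11 : F.v1 ∈ F.U g v d1 d2 ⊓ centralizer {F.v1} := ⟨e.b_v1U, mem_centralizer_singleton_iff.2 rfl⟩
  have m22 : F.v2 ∈ F.U g v d1 d2 ⊓ centralizer {F.v2} := ⟨e.b_v2U, mem_centralizer_singleton_iff.2 rfl⟩
  have m12 : F.v1 ∉ F.U g v d1 d2 ⊓ centralizer {F.v2} := fun k => F.b_nc12 (mem_centralizer_singleton_iff.1 k.2)
  have m21 : F.v2 ∉ F.U g v d1 d2 ⊓ centralizer {F.v1} :=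
    fun k => F.b_nc12 (mem_centralizer_singleton_iff.1 k.2).symm
  have k1 : x ∈ EB.tk F.t (F.U g v d1 d2) _ n1 F.tt := EB.mem_tk.2 ⟨hx.1, hc e.b_v1U hy⟩
  have k2 : x ∈ EB.tk F.t (F.U g v d1 d2) _ n2 F.tt := EB.mem_tk.2 ⟨hx.1, hc e.b_v2U hy⟩
  have x1 := hc e.b_v1U hx
  have x2 := hc e.b_v2U hx
  obtain ⟨c, hc, a, b, i, j, rfl⟩ := h.memU.1 hx.1
  obtain rfl : j = 0 := by
    refine HAH.zero (K := EB.tk F.t (F.U g v d1 d2) _ n1 F.tt) (q := 1) ?_ (one_mem _)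
      (fun k => m21 (h.b_td2 ▸ (EB.mem_tk.1 k).2)) (by rw [mul_one]; exact k1)
    exact mul_mem (mul_mem (mul_mem (h.b_tZ z1 _ hc) (pow_mem (b_tk_of_comm e.b_v1U F.tv1) _))
      (pow_mem (EB.mem_tk.2 ⟨e.b_d1U, h.b_td1 ▸ m11⟩) _)) (pow_mem (b_tk_of_comm e.b_v2U F.tv2) _)
  simp only [Fin.val_zero, pow_zero, mul_one] at k2 x1 x2 ⊢
  obtain rfl : b = 0 := HAH.zero (mul_mem (h.b_tZ z2 _ hc) (pow_mem (b_tk_of_comm e.b_v1U F.tv1) _))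
    (pow_mem (b_tk_of_comm e.b_v2U F.tv2) _) (fun k => m12 (h.b_td1 ▸ (EB.mem_tk.1 k).2)) k2
  simp only [Fin.val_zero, pow_zero, mul_one] at x1 x2 ⊢
  obtain rfl : a = 0 := HAH.zero (z2 hc) (pow_mem m22 _) m12 x2
  simp only [Fin.val_zero, pow_zero, mul_one] at x1 ⊢
  obtain rfl : i = 0 := HAH.zero (z1 hc) (one_mem _) m21 (by rw [mul_one]; exact x1)
  simpa using hc

theorem EK.NU (h : F.EK u0 g v d1 d2) : 𝐍((F.U g v d1 d2 ⊔ zpowers F.t : Subgroup G)) ≤ 𝐍(F.U g v d1 d2) ⊓ 𝐍(F.Z0 g v) := by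
  refine le_inf h.HA_NU (h.HA_NU.trans ?_)
  rw [← h.HA_Z]
  exact le_normalizer_inf le_rfl (normalizer_le_normalizer_centralizer _)

theorem HA_NN (F : Fr G) {c f : G} (hc : c ∈ 𝐂(closure ({F.v1, F.v2, F.u1} : Set G))) (hf : f ∈ F.F0)
    (e : c * F.t * c⁻¹ = F.t * f) : c ∈ F.NN := by
  have k : ∀ {y}, y ∈ closure ({F.v1, F.v2, F.u1} : Set G) → c * y * c⁻¹ = y := conj_eq_of_mem_centralizer hc
  have tf : F.t * f ∈ F.W1 := mul_mem F.b2_tW (F.X1W1 (F.F0X1 hf))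
  refine F.mem_NN ?_ (B2.norm_gen ?_)
  · rw [F.T_eq]
    refine B2.norm_gen ?_
    rw [← F.T_eq]
    rintro y (rfl | rfl | rfl | rfl)
    · rw [e]; exact F.W1T tf
    · rw [k (subset_closure (by simp))]; exact F.b2_v1T
    · rw [k (subset_closure (by simp))]; exact F.b2_v2T
    · rw [k (subset_closure (by simp))]; exact F.b2_uT
  · rintro y (rfl | rfl | rfl | rfl)
    · rw [e]; exact tf
    · rw [k F.EA_zD]; exact F.X1W1 F.b2_zX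
    · rw [k (subset_closure (by simp))]; exact F.b2_vW
    · rw [k (subset_closure (by simp))]; exact F.X1W1 F.b2_uX

theorem EK.HA_T1NN (h : F.EK u0 g v d1 d2) : F.T ⊔ F.Z0 g v ≤ F.NN := by
  refine sup_le F.TNN ((closure_le _).2 ?_)
  rintro y (rfl | rfl | rfl | rfl)
  · exact F.TNN (F.W1T (F.X1W1 F.b2_zX))
  · exact F.TNN F.b2_uT
  · exact F.HA_NN (f := F.z) h.gT (subset_closure (by simp)) (by rw [EA_inv h.gg, h.gt])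
  · exact F.HA_NN h.vT h.toEE.EA_u0F (by rw [EA_inv h.vv, h.vt])

theorem EK.HA_T1M (h : F.EK u0 g v d1 d2) : F.T ⊔ F.Z0 g v ≤ F.U g v d1 d2 ⊔ zpowers F.t :=
  sup_le h.TU (le_sup_of_le_left h.toEE.b_ZU)

theorem EK.HA_cT1 (h : F.EK u0 g v d1 d2) : (F.T ⊔ F.Z0 g v) ⊓ centralizer {F.t} = F.T :=
  le_antisymm ((inf_le_inf_right _ h.HA_T1M).trans h.cT.le) (le_inf le_sup_left F.TC)

theorem EK.HA_MN (h : F.EK u0 g v d1 d2) : F.U g v d1 d2 ⊔ zpowers F.t ≤ 𝐍(F.T ⊔ F.Z0 g v) := by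
  have e := h.toEE
  have tT : F.t ∈ F.T ⊔ F.Z0 g v := mem_sup_left F.b2_tT
  refine sup_le ?_ (zpowers_le.2 (le_normalizer tT))
  have z : F.Z0 g v ≤ F.U g v d1 d2 ⊓ (F.T ⊔ F.Z0 g v) := le_inf e.b_ZU le_sup_right
  have n := h.b_nrm z inf_le_left
  have m1 : F.v1 ∈ F.U g v d1 d2 ⊓ (F.T ⊔ F.Z0 g v) := ⟨e.b_v1U, mem_sup_left F.b2_v1T⟩
  have m2 : F.v2 ∈ F.U g v d1 d2 ⊓ (F.T ⊔ F.Z0 g v) := ⟨e.b_v2U, mem_sup_left F.b2_v2T⟩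
  have le : F.U g v d1 d2 ≤ EB.tk F.t (F.U g v d1 d2) _ n F.tt :=
    e.b_U_le (h.b_tZ z _) (b_tk_of_comm e.b_v1U F.tv1) (EB.mem_tk.2 ⟨e.b_d1U, h.b_td1 ▸ m1⟩)
      (b_tk_of_comm e.b_v2U F.tv2) (EB.mem_tk.2 ⟨e.b_d2U, h.b_td2 ▸ m2⟩)
  refine le_normalizer_of_cj_le fun l hl => cj_le_iff.2 ?_
  have k : ∀ {y}, y ∈ F.U g v d1 d2 ⊓ (F.T ⊔ F.Z0 g v) → y ∈ (F.T ⊔ F.Z0 g v) ^ᶜ l⁻¹ := fun hy => by
    rw [mem_cj, inv_inv]
    exact (conj_mem_of_mem_normalizer (n hl) hy).2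
  refine sup_le ?_ fun y hy => k (z hy)
  rw [F.T_eq, closure_le, ← F.T_eq]
  rintro y (rfl | rfl | rfl | rfl)
  · rw [SetLike.mem_coe, mem_cj, inv_inv]
    have := mul_mem tT (EB.mem_tk.1 (le hl)).2.2
    rwa [mul_assoc F.t l, mul_assoc F.t, F.b2_tt] at this
  · exact k m1
  · exact k m2
  · exact k (z e.b_uZ)

theorem EK.HA_syl (h : F.EK u0 g v d1 d2) : IsSylowIn 2 (F.T ⊔ F.Z0 g v) F.NN := by
  refine syl_of_norm (t := F.t) (h.HA_isP.to_le h.HA_T1M) h.HA_T1NN ?_ fun n hn _ => ?_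
  · rw [h.HA_cT1]
    exact F.sylT1.mono (le_inf F.TNN F.TC) fun x hx => ⟨hx.2, hx.1.2.1⟩
  · have m := conj_mem_of_mem_normalizer (F.NZT hn.1) F.b2_tZ
    have f := (F.memZT.1 m).resolve_left fun k => h.nOm (h.toEE.b_ZU (EA_F0Z g v k)) (F.om_t.cj n)
    obtain ⟨c, hc, e⟩ := h.toEE.tr f ⟨n, hn.2.1, (F.b2_tt _).symm⟩
    exact ⟨c, mem_sup_right hc, by rw [e, F.b2_tt]⟩

theorem EK.HA_NT (h : F.EK u0 g v d1 d2) {m f : G} (hm : m ∈ 𝐍(F.T ⊔ F.Z0 g v)) (hf : f ∈ F.F0)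
    (e : m * F.t * m⁻¹ = F.t * f) : m ∈ 𝐍(F.T) := by
  refine mem_normalizer_of_cj_le fun y hy => ?_
  obtain ⟨p, hp, rfl⟩ := mem_cj'.1 hy
  refine h.HA_cT (h.HA_T1M (conj_mem_of_mem_normalizer hm (mem_sup_left hp))) hf ?_
  rw [← e]
  exact B2.comm_cj m (mem_centralizer_singleton_iff.1 (F.TC hp))

/-- the centre of `T Z0` lies in `F0` -/
theorem EK.HA_fix (h : F.EK u0 g v d1 d2) {n : G} (hn : n ∈ 𝐍(F.T ⊔ F.Z0 g v)) : n * F.u1 * n⁻¹ ∈ F.F0 := by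
  have uF : F.u1 ∈ F.F0 := subset_closure (by simp)
  have m : F.u1 ∈ (F.T ⊔ F.Z0 g v) ⊓ 𝐂(F.T ⊔ F.Z0 g v) :=
    ⟨mem_sup_left F.b2_uT, fun y hy => h.HA_MF (h.HA_T1M hy) uF⟩
  have m' := conj_mem_of_mem_normalizer (le_normalizer_inf le_rfl (normalizer_le_normalizer_centralizer _) hn) m
  generalize n * F.u1 * n⁻¹ = s at m'
  have sT : s ∈ F.T := h.HA_cT1.le ⟨m'.1, mem_centralizer_singleton_iff.2 (m'.2 _ (mem_sup_left F.b2_tT)).symm⟩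
  refine (F.memZT.1 ((F.cenT sT).1 (centralizer_anti le_sup_left m'.2))).resolve_right fun q => ?_
  have q1 := h.toEE.EA_gF _ q
  have q2 := m'.2 g (mem_sup_right h.toEE.b_gZ)
  rw [mul_assoc, ← q2, ← mul_assoc, ← mul_assoc g, mul_left_inj] at q1
  have := h.gt
  rw [← q1, mul_assoc, h.gg, mul_one] at this
  exact absurd (left_eq_mul.1 this) F.z1

theorem EK.HA_claim (h : F.EK u0 g v d1 d2) {O : Subgroup G}
    (hO : ∀ n ∈ 𝐍(F.T ⊔ F.Z0 g v), n * F.t = F.t * n → n ∈ 𝐍(F.W1) → ∃ τ ∈ F.T, ∃ o ∈ O, n = τ * o)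
    {n : G} (hn : n ∈ 𝐍(F.T ⊔ F.Z0 g v)) (hu : n * F.u1 = F.u1 * n) :
    n ∈ F.U g v d1 d2 ⊔ zpowers F.t ⊔ O := by
  have uF : F.u1 ∈ F.F0 := subset_closure (by simp)
  obtain ⟨l, hl, f, hf, e⟩ := h.omU (h.HA_T1M (conj_mem_of_mem_normalizer hn (mem_sup_left F.b2_tT)))
    (F.om_t.cj n)
  have red : ∀ {l n : G}, l ∈ F.U g v d1 d2 → n ∈ 𝐍(F.T ⊔ F.Z0 g v) → n * F.u1 = F.u1 * n →
      l⁻¹ * n ∈ 𝐍(F.T ⊔ F.Z0 g v) ∧ l⁻¹ * n * F.u1 = F.u1 * (l⁻¹ * n) := fun {l n} hl hn hu =>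
    ⟨mul_mem (inv_mem (h.HA_MN (mem_sup_left hl))) hn, by
      rw [mul_assoc, hu, ← mul_assoc, h.HA_MF (inv_mem (mem_sup_left hl)) uF, mul_assoc]⟩
  obtain ⟨m1, m2⟩ := red hl hn hu
  have e1 : l⁻¹ * n * F.t * (l⁻¹ * n)⁻¹ = F.t * f := by
    calc _ = l⁻¹ * (n * F.t * n⁻¹) * l := by group
      _ = _ := by rw [e]; group
  have mT := h.HA_NT m1 hf e1
  obtain ⟨c, hc, e2⟩ : ∃ c ∈ F.Z0 g v, c * F.t * c⁻¹ = F.t * f := by
    rcases F.permW mT with ⟨k, -⟩ | ⟨k1, k2⟩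
    · exact h.toEE.tr hf ⟨_, k, e1⟩
    · rcases F.memF0.1 hf with rfl | rfl | rfl | rfl
      · exact ⟨1, one_mem _, by simp⟩
      · exact ⟨g, h.toEE.b_gZ, by rw [EA_inv h.gg, h.gt]⟩
      · exact absurd e1 (F.b2_swu F.hu1 mT m2 k1)
      · rw [← F.u2_eq F.hu1] at e1
        refine absurd e1 (F.sw.b2_swu F.sw.hu1 (F.sw_T ▸ mT) ?_ k2)
        show _ * F.u2 = F.u2 * _
        rw [F.u2_eq F.hu1, ← mul_assoc, F.Nz mT, mul_assoc, m2, ← mul_assoc]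
  obtain ⟨m3, m4⟩ := red (h.toEE.b_ZU hc) m1 m2
  have e3 : c⁻¹ * (l⁻¹ * n) * F.t * (c⁻¹ * (l⁻¹ * n))⁻¹ = F.t := by
    calc _ = c⁻¹ * (l⁻¹ * n * F.t * (l⁻¹ * n)⁻¹) * c := by group
      _ = _ := by rw [e1, ← e2]; group
  have mT' := h.HA_NT m3 (one_mem _) (by rw [e3, mul_one])
  have nn := (F.swu (B2.comm_of_cj e3) mT').resolve_right fun k => F.u12ne ((B2.cj_of_comm m4).symm.trans k.2.2.1)
  obtain ⟨τ, hτ, o, ho, e4⟩ := hO _ m3 (B2.comm_of_cj e3) nn.2.1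
  have : n = l * c * τ * o := by rw [mul_assoc (l * c), ← e4]; group
  rw [this]
  exact mul_mem_sup (mul_mem (mem_sup_left (mul_mem hl (h.toEE.b_ZU hc))) (h.TU hτ)) ho

theorem EK.exx (h : F.EK u0 g v d1 d2) {x : G} (hx : x ∈ 𝐍(F.T)) (hW : F.W1 ^ᶜ x = F.W2) :
    ∃ y ∈ 𝐍((F.U g v d1 d2 ⊔ zpowers F.t : Subgroup G)), P2 y ∧ y ∈ 𝐍(F.T) ∧ F.W1 ^ᶜ y = F.W2 ∧ y ∈ 𝐍(F.U g v d1 d2) ∧ y ∈ 𝐍(F.Z0 g v) := by
  have other : ∀ {y}, y ∈ 𝐍(F.T) → F.W1 ^ᶜ y = F.W2 → F.W2 ^ᶜ y = F.W1 := fun hy e =>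
    ((F.permW hy).resolve_left fun k => F.W1ne ((cj_eq_self_iff.2 k.1).symm.trans e)).2
  have p1 := h.HA_isP.to_le h.HA_T1M
  obtain ⟨n, hn, e1⟩ := h.HA_syl.exists_cj_le (isPGroup_cj p1 x) (fun y hy => by
    obtain ⟨p, hp, rfl⟩ := mem_cj'.1 hy
    have := h.HA_T1NN hp
    exact F.mem_NN (mul_mem (mul_mem hx this.1) (inv_mem hx)) (B2.norm_cj (other hx hW) this.2.2))
  rw [cj_cj] at e1
  have n1 := mem_normalizer_of_cj_le e1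
  have n2 : n * x ∈ 𝐍(F.T) := mul_mem hn.1 hx
  have n3 : F.W1 ^ᶜ (n * x) = F.W2 := by rw [← cj_cj, hW, cj_eq_self_iff.2 hn.2.2]
  generalize n * x = x1 at n1 n2 n3
  obtain ⟨O, o1, o2, o3⟩ := F.exOP p1 le_sup_left h.HA_cT1.le
  have le : (F.U g v d1 d2 ⊔ zpowers F.t) ^ᶜ x1 ≤ F.U g v d1 d2 ⊔ zpowers F.t ⊔ O := fun y hy => by
    obtain ⟨p, hp, rfl⟩ := mem_cj'.1 hy
    refine h.HA_claim o3 (mul_mem (mul_mem n1 (h.HA_MN hp)) (inv_mem n1)) ?_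
    have := B2.comm_cj x1 (h.HA_MF hp (h.HA_fix (inv_mem n1)))
    rwa [show x1 * (x1⁻¹ * F.u1 * x1⁻¹⁻¹) * x1⁻¹ = F.u1 by group] at this
  obtain ⟨o, ho, n4⟩ := frat_odd h.HA_isP (fun o ho => ((o1 o).1 ho).2) (h.HA_MN.trans o2) le
  have oT : o ∈ 𝐂(F.T) := centralizer_anti le_sup_left ((o1 o).1 ho).1
  have n5 : o * x1 ∈ 𝐍(F.T) := mul_mem (centralizer_le_normalizer _ oT) n2
  have n6 : F.W1 ^ᶜ (o * x1) = F.W2 := by
    rw [← cj_cj, n3, cj_eq_of_mem_centralizer (centralizer_anti F.b2_W2T oT)]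
  obtain ⟨m, hm, p⟩ := exists_odd_P2 (o * x1)
  have n7 := pow_mem n4 m
  exact ⟨_, n7, p, pow_mem n5 m, HAH.swap_pow n6 (other n5 n6) hm, (h.NU n7).1, (h.NU n7).2⟩

end Fr

end H25.A6
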