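import Mathlib
import Cfsg.Agent.Lib.A6S.HA
import Cfsg.Agent.Lib.A6S.HN

/-! Type `EE`: existence of `ES`. -/

set_option autoImplicit false
set_option linter.unusedSectionVars false
set_option linter.unusedVariables false

namespace H25.A6

open Subgroup H69 H36.SW H25.A7

variable {G : Type*} [Group G] [Finite G]

namespace Fr
variable {F : Fr G} {u0 g g' v d1 d2 η η1 η2 κ k a b γ : G}

theorem EK.swap (h : F.EK u0 g v d1 d2) (tr : F.Tr u0 1 1 1 g d1 v η) (κU : κ ∈ 𝐍(F.U g v d1 d2)) (κZ : κ ∈ 𝐍(F.Z0 g v))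
    (a1 : κ * F.v1 * κ⁻¹ = F.v2) (a2 : κ * F.v2 * κ⁻¹ = F.v1) (a3 : κ * F.u1 * κ⁻¹ = F.u2)
    (a4 : κ * F.t * κ⁻¹ = F.t ∨ κ * F.t * κ⁻¹ = F.t * F.u2) :
    F.EK u0 g v d1 (κ * d1 * κ⁻¹) ∧ F.U g v d1 (κ * d1 * κ⁻¹) = F.U g v d1 d2 := by
  have e := h.toEE
  have dZ : κ * d1 * κ⁻¹ ∈ 𝐂(F.Z0 g v) :=
    conj_mem_of_mem_normalizer (normalizer_le_normalizer_centralizer _ κZ) h.d1Z
  have dU : κ * d1 * κ⁻¹ ∈ F.U g v d1 d2 := conj_mem_of_mem_normalizer κU e.b_d1U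
  have dd := cjsq h.d11 κ
  have k0 : κ * d1 * κ⁻¹ * (κ * F.t * κ⁻¹) * (κ * d1 * κ⁻¹) = κ * F.t * κ⁻¹ * F.v2 := by
    rw [← a1, conj_mul, conj_mul, conj_mul, h.d1t]
  have h' : F.EK u0 g v d1 (κ * d1 * κ⁻¹) :=
    { e with
      d2Z := dZ
      d22 := dd
      d2v := by rw [← a1]; exact B2.comm_cj κ h.d1v
      d2t := by
        rcases a4 with a4 | a4
        · rwa [a4] at k0
        · have c := dZ F.u2 (EA_F0Z g v (subset_closure (by simp)))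
          rw [a4] at k0
          generalize κ * d1 * κ⁻¹ = e at k0 c
          rw [mul_assoc, mul_assoc F.t, c, mul_assoc F.t, F.u2v2, ← mul_assoc, ← mul_assoc, ← mul_assoc,
            mul_left_inj] at k0
          exact k0
      c2 := by
        rw [← a2, conj_mul, conj_mul, conj_mul]
        exact conj_mem_of_mem_normalizer κZ h.c1
      d2E := F.En.conj_mem _ h.d1E κ
      kk := by
        have := h.comm e.b_d1U dU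
        rwa [EA_inv h.d11, EA_inv dd] at this }
  exact ⟨h', eq_of_le_of_card_ge (h'.toEE.b_U_le e.b_ZU e.b_v1U e.b_d1U e.b_v2U dU) (by rw [h.cardU, h'.cardU])⟩

/-- the data of a swap that centralises `t` -/
structure HBs (F : Fr G) (Q : Subgroup G) (y : G) : Prop where
  m : y ∈ Q
  t : y * F.t * y⁻¹ = F.t
  u1 : y * F.u1 * y⁻¹ = F.u2
  u2 : y * F.u2 * y⁻¹ = F.u1

theorem HBs.mul {Q : Subgroup G} {y w : G} (s : F.HBs Q y) (hw : w ∈ Q) (hT : w ∈ F.T) : F.HBs Q (w * y) := by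
  have k : ∀ {x}, x ∈ F.ZT → w * x * w⁻¹ = x := fun hx =>
    B2.cj_of_comm ((F.cenT (F.W1T (F.ZTW1 hx))).2 hx w hT)
  exact ⟨mul_mem hw s.m, by rw [HNcj, s.t, k F.b2_tZ], by rw [HNcj, s.u1, k (subset_closure (by simp))],
    by rw [HNcj, s.u2, k F.b2_uZ]⟩

theorem EK.HB1 (h : F.EK u0 g v d1 d2) (d : F.dl ≠ 1) : ∃ Q : Subgroup G, IsPGroup 2 Q ∧ F.T ≤ Q ∧
    Q ≤ 𝐍((F.U g v d1 d2 ⊔ zpowers F.t : Subgroup G)) ∧ ∃ y, F.HBs Q y ∧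
      (y * F.v1 * y⁻¹ = F.v2 ∨ y * F.v1 * y⁻¹ = F.z * F.v2) ∧
      (y * F.v2 * y⁻¹ = F.v1 ∨ y * F.v2 * y⁻¹ = F.z * F.v1) := by
  obtain ⟨y, yM, y2, yT, yW, -, -⟩ := h.exx F.dlT (F.dlW d)
  refine ⟨_, isP_sup h.HA_isP y2 yM, h.TU.trans le_sup_left, sup_le le_normalizer (zpowers_le.2 yM), ?_⟩
  have nN : ∀ {y}, F.W1 ^ᶜ y = F.W2 → y ∉ F.NN := fun e k => F.W1ne ((cj_eq_self_iff.2 k.2.1).symm.trans e)
  have hn := (F.toNN d yT).resolve_left (nN yW)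
  have e0 : y * F.dl * F.t * (y * F.dl)⁻¹ = y * F.t * y⁻¹ := by rw [HNcj, B2.cj_of_comm F.dlt]
  have m := conj_mem_of_mem_normalizer (F.NZT yT) F.b2_tZ
  have f := (F.memZT.1 m).resolve_left fun k => h.nOm (h.toEE.b_ZU (EA_F0Z g v k)) (F.om_t.cj y)
  obtain ⟨c, hc, e⟩ := h.toEE.tr f ⟨_, hn.2.1, by rw [e0, F.b2_tt]⟩
  rw [F.b2_tt] at e
  have cN := inv_mem (h.HA_T1NN (mem_sup_right hc))
  have a1 : c⁻¹ * y * F.t * (c⁻¹ * y)⁻¹ = F.t := by rw [HNcj, ← e]; group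
  have a2 : c⁻¹ * y ∈ 𝐍(F.T) := mul_mem cN.1 yT
  have a3 := HNmul yW cN
  have a0 : c⁻¹ * y ∈ F.U g v d1 d2 ⊔ zpowers F.t ⊔ zpowers y :=
    mul_mem_sup (inv_mem (mem_sup_left (h.toEE.b_ZU hc))) (mem_zpowers y)
  generalize c⁻¹ * y = x at a0 a1 a2 a3
  obtain ⟨-, -, s1, s2⟩ := (F.swu (B2.comm_of_cj a1) a2).resolve_left (nN a3)
  have hn := (F.toNN d a2).resolve_left (nN a3)
  have nt : x * F.dl * F.t = F.t * (x * F.dl) := B2.comm_of_cj (by rw [HNcj, B2.cj_of_comm F.dlt, a1])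
  obtain ⟨l1, l2, -⟩ := F.hdl.resolve_left d
  refine ⟨x, ⟨a0, a1, s1, s2⟩, ?_, ?_⟩
  · rw [← l2, ← HNcj]
    exact F.sw.b2_vc (F.Nz hn.1) (F.nW2 _ nt hn.2.2).2
  · rw [← l1, ← HNcj]
    exact F.b2_vc (F.Nz hn.1) (F.nW1 _ nt hn.2.1).2

theorem HB2 {Q : Subgroup G} (hT : F.T ≤ Q) {y : G} (s : F.HBs Q y)
    (h1 : y * F.v1 * y⁻¹ = F.v2 ∨ y * F.v1 * y⁻¹ = F.z * F.v2)
    (h2 : y * F.v2 * y⁻¹ = F.v1 ∨ y * F.v2 * y⁻¹ = F.z * F.v1) :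
    ∃ y, F.HBs Q y ∧ y * F.v1 * y⁻¹ = F.v2 ∧ y * F.v2 * y⁻¹ = F.v1 := by
  have p1 : F.v1 * (F.z * F.v2) * F.v1⁻¹ = F.v2 := by
    rw [B2.cj_mul, B2.cj_of_comm F.zv1.symm, EA_inv F.v11, F.v121, F.b2_zz]
  have p2 : F.v2 * (F.z * F.v1) * F.v2⁻¹ = F.v1 := by
    rw [B2.cj_mul, B2.cj_of_comm F.B1zv2.symm, F.b2_v2v, F.b2_zz]
  obtain ⟨y, s, h1, h2⟩ : ∃ y, F.HBs Q y ∧ y * F.v1 * y⁻¹ = F.v2 ∧
      (y * F.v2 * y⁻¹ = F.v1 ∨ y * F.v2 * y⁻¹ = F.z * F.v1) := by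
    rcases h1 with h1 | h1
    · exact ⟨y, s, h1, h2⟩
    · refine ⟨_, s.mul (hT F.b2_v1T) F.b2_v1T, by rw [HNcj, h1, p1], h2.imp (fun k => ?_) fun k => ?_⟩
      · rw [HNcj, k, mul_inv_cancel_right]
      · rw [HNcj, k, B2.cj_mul, B2.cj_of_comm F.zv1.symm, mul_inv_cancel_right]
  rcases h2 with h2 | h2
  · exact ⟨y, s, h1, h2⟩
  · exact ⟨_, s.mul (hT F.b2_v2T) F.b2_v2T, by rw [HNcj, h1, mul_inv_cancel_right], by rw [HNcj, h2, p2]⟩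

theorem HB3 {Q : Subgroup G} (hQ : IsPGroup 2 Q) (hT : F.T ≤ Q) {y : G} (s : F.HBs Q y)
    (h1 : y * F.v1 * y⁻¹ = F.v2) (h2 : y * F.v2 * y⁻¹ = F.v1) :
    ∃ y, F.HBs Q y ∧ y * F.v1 * y⁻¹ = F.v2 ∧ y * F.v2 * y⁻¹ = F.v1 ∧ (y * y = 1 ∨ y * y = F.t) := by
  have c : y * y ∈ 𝐂(F.T) := by
    rw [F.T_eq]
    refine EA_cen ?_
    rintro x (rfl | rfl | rfl | rfl) <;> refine (B2.comm_of_cj ?_).symm
    · rw [HNcj, s.t, s.t]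
    · rw [HNcj, h1, h2]
    · rw [HNcj, h2, h1]
    · rw [HNcj, s.u1, s.u2]
  have mT : y * y ∈ F.T := F.p2T (c _ F.b2_tT).symm (centralizer_le_normalizer _ c)
    (centralizer_le_normalizer _ (centralizer_anti F.W1T c)) (P2.of_mem hQ (mul_mem s.m s.m))
  have fx : ∀ {r}, r ∈ F.F0 → y * r * y⁻¹ = r → r = 1 ∨ r = F.z := fun {r} hr e => by
    rcases F.memF0.1 hr with rfl | rfl | rfl | rfl
    · exact Or.inl rfl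
    · exact Or.inr rfl
    · exact absurd (e.symm.trans s.u1) F.u12ne
    · rw [← F.HNu2] at e
      exact absurd (s.u2.symm.trans e) F.u12ne
  have yy : y * (y * y) * y⁻¹ = y * y := by group
  have sq : F.u1 * y * (F.u1 * y) = F.z * (y * y) := by
    calc _ = F.u1 * (y * F.u1 * y⁻¹) * (y * y) := by group
      _ = _ := by rw [s.u1, F.HNu2, F.zu1, ← mul_assoc F.u1 F.u1, F.u11, one_mul]
  have s' := s.mul (hT F.b2_uT) F.b2_uT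
  have k1 : F.u1 * y * F.v1 * (F.u1 * y)⁻¹ = F.v2 := by rw [HNcj, h1, B2.cj_of_comm F.u1v2]
  have k2 : F.u1 * y * F.v2 * (F.u1 * y)⁻¹ = F.v1 := by rw [HNcj, h2, B2.cj_of_comm F.u1v1]
  rcases F.memZT.1 ((F.cenT mT).1 c) with q | q
  · rcases fx q yy with e | e
    · exact ⟨y, s, h1, h2, Or.inl e⟩
    · exact ⟨_, s', k1, k2, Or.inl (by rw [sq, e, F.zz])⟩
  · rcases fx q (by rw [B2.cj_mul, s.t, yy]) with e | e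
    · exact ⟨y, s, h1, h2, Or.inr (by rw [← F.b2_tt (y * y), e, mul_one])⟩
    · exact ⟨_, s', k1, k2, Or.inr (by rw [sq, ← F.b2_tt (y * y), e, ← F.zt, F.b2_zz])⟩

theorem EK.esD (h : F.EK u0 g v d1 d2) (tr : F.Tr u0 1 1 1 g d1 v η) (d : F.dl ≠ 1) (c : u0 = 1 → F.IIa) :
    ∃ d2 κ, F.ES u0 g v d1 d2 η κ := by
  obtain ⟨Q, hQ, hT, hN, y, s, h1, h2⟩ := h.HB1 d
  obtain ⟨y, s, h1, h2⟩ := HB2 hT s h1 h2
  obtain ⟨y, s, h1, h2, h3⟩ := HB3 hQ hT s h1 h2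
  obtain ⟨n1, n2⟩ := h.NU (hN s.m)
  obtain ⟨h', e⟩ := h.swap tr n1 n2 h1 h2 s.u1 (Or.inl s.t)
  exact ⟨_, y, h', tr, P2.of_mem hQ s.m, e ▸ n1, n2, h1, h2, s.u1, s.u2, rfl,
    Or.inl ⟨d, B2.comm_of_cj s.t, h3, c⟩⟩

theorem EK.esZ (h : F.EK 1 g v d1 d2) (tr : F.Tr 1 1 1 1 g d1 v η) (c : F.SZ γ) : ∃ d2 κ, F.ES 1 g v d1 d2 η κ := by
  obtain ⟨y, yM, -, yT, yW, -, -⟩ := h.exx c.γT c.γW
  obtain ⟨y, yM, s, h1, h2, h3, -⟩ := c.nrm h.HA_isP h.TU yM yT yW (mem_sup_left (h.toEE.b_ZU h.toEE.b_gZ)) h.gT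
    (by rw [EA_inv h.gg, h.gt])
  obtain ⟨n1, n2⟩ := h.NU yM
  obtain ⟨h', e⟩ := h.swap tr n1 n2 h1 h2 s.γu (Or.inr s.γt)
  exact ⟨_, y, h', tr, s.γ2, e ▸ n1, n2, h1, h2, s.γu, h3, rfl, Or.inr ⟨c.d1, rfl, s.γt⟩⟩

end Fr

end H25.A6
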