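import Mathlib
import Cfsg.Agent.Lib.A6S.HE
import Cfsg.Agent.Lib.A6S.HVb

/-! The quadratic map on `U / Z0`: singular vectors fixed by `t`, `κ`, `t κ`, `k`; cosets of `U` in `SS`. -/

set_option autoImplicit false

namespace H25.A6

open Subgroup H69 H36.SW H25.A7

variable {G : Type*} [Group G] [Finite G]

namespace Fr
variable {F : Fr G} {u0 g g' v d1 d2 η η1 η2 κ k a b γ : G}

theorem EN.fixκ (h : F.EN u0 g v d1 d2 η κ) {x : G} (hx : x ∈ F.U g v d1 d2) (h2 : x * x = 1) (e : x⁻¹ * (κ * x * κ⁻¹) ∈ F.Z0 g v) : x ∈ F.Z0 g v :=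
  h.HVb_fixκ hx h2 e

theorem EN.fix1 (h : F.EN u0 g v d1 d2 η κ) {s : G} (hs : s = F.t ∨ s = F.t * κ ∨ (F.KK g v d1 d2 κ k ∧ (s = k ∨ s = κ * k))) {x y : G}
    (hx : x ∈ F.U g v d1 d2) (hy : y ∈ F.U g v d1 d2) (x2 : x * x = 1) (y2 : y * y = 1) (c : x * y = y * x)
    (ex : x⁻¹ * (s * x * s⁻¹) ∈ F.Z0 g v) (ey : y⁻¹ * (s * y * s⁻¹) ∈ F.Z0 g v) : x ∈ F.Z0 g v ∨ y ∈ F.Z0 g v ∨ x * y ∈ F.Z0 g v :=
  h.HVb_fix1 hs hx hy x2 y2 c ex ey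

end Fr

end H25.A6
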