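import Mathlib
import Cfsg.Agent.Lib.A6S.HE
import Cfsg.Agent.Lib.A6S.HV2

/-! The quadratic map on `U / Z0`: singular vectors fixed by `t`, `κ`, `t κ`, `k`; cosets of `U` in `SS`. -/

set_option autoImplicit false
set_option linter.unusedSectionVars false

namespace H25.A6

open Subgroup H69 H36.SW H25.A7

variable {G : Type*} [Group G] [Finite G]

namespace HV
open EB

/-- coordinates on `U / Z0` -/
abbrev V := Fin 2 × Fin 2 × Fin 2 × Fin 2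
/-- the action of `t` -/
def ma (a : V) : V := (a.1 + a.2.1, a.2.1, a.2.2.1 + a.2.2.2, a.2.2.2)
/-- the action of `κ` -/
def mq (a : V) : V := (a.2.2.1, a.2.2.2, a.1, a.2.1)
/-- the action of `k` -/
def mw (a : V) : V := (a.1, a.1 + a.2.2.1 + a.2.2.2, a.2.2.1, a.1 + a.2.1 + a.2.2.1)
/-- the normal form -/
def nf (F : Fr G) (d1 d2 : G) (a : V) : G :=
  F.v1 ^ (a.1 : ℕ) * d1 ^ (a.2.1 : ℕ) * (F.v2 ^ (a.2.2.1 : ℕ) * d2 ^ (a.2.2.2 : ℕ))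

theorem eqns : True := by
  have := @ma.eq_1
  have := @mq.eq_1
  have := @mw.eq_1
  have := @nf.eq_1.{0}
  have := @V.eq_1
  trivial

/-- the coordinate map -/
structure Pi (F : Fr G) (g v d1 d2 : G) (π : G → V) : Prop where
  mul : ∀ x ∈ F.U g v d1 d2, ∀ y ∈ F.U g v d1 d2, π (x * y) = π x + π y
  val : ∀ c ∈ F.Z0 g v, ∀ a, π (c * nf F d1 d2 a) = a
  ex : ∀ x ∈ F.U g v d1 d2, ∃ c ∈ F.Z0 g v, x = c * nf F d1 d2 (π x)

/-- `s` acts on the coordinates as `M` -/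
structure Act (U : Subgroup G) (π : G → V) (s : G) (M : V → V) : Prop where
  n : s ∈ 𝐍(U)
  a : ∀ x ∈ U, π (s * x * s⁻¹) = M (π x)

theorem Act.mul {U : Subgroup G} {π : G → V} {s s' : G} {M M' : V → V} (h : Act U π s M)
    (h' : Act U π s' M') : Act U π (s * s') fun a => M (M' a) :=
  ⟨mul_mem h.n h'.n, fun x hx => by
    rw [← h'.a x hx, ← h.a _ (conj_mem_of_mem_normalizer h'.n hx)]
    congr 1
    group⟩

theorem Act.pw {U : Subgroup G} {π : G → V} {s : G} {M : V → V} (h : Act U π s M) (i : Fin 2) :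
    Act U π (s ^ (i : ℕ)) fun a => if i = 0 then a else M a := by
  refine ⟨pow_mem h.n _, fun x hx => ?_⟩
  fin_cases i
  · simp
  · simpa using h.a x hx

theorem ab {x y : G} (hx : x * x = 1) (hy : y * y = 1) (c : y * x = x * y) (i j i' j' : Fin 2) :
    x ^ ((i + i' : Fin 2) : ℕ) * y ^ ((j + j' : Fin 2) : ℕ) =
      x ^ (i : ℕ) * y ^ (j : ℕ) * (x ^ (i' : ℕ) * y ^ (j' : ℕ)) := by
  rw [B1.pw hx, B1.pw hy]
  exact (Commute.pow_pow (show Commute x y from c.symm) _ _).mul_mul_mul_comm _ _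

theorem lc {x y : G} (e : x * y = y * x) (w : G) : x * (y * w) = y * (x * w) := by
  rw [← mul_assoc, e, mul_assoc]

theorem l2 {x : G} (e : x * x = 1) (w : G) : x * (x * w) = w := by
  rw [← mul_assoc, e, one_mul]

theorem step {P : Subgroup G} {x y : G} {m : Fin 2} (hx : x ∉ P) (hy : y ∈ P) (h : y * x ^ (m : ℕ) ∈ P) :
    m = 0 := by
  fin_cases m
  · rfl
  · exact absurd (by simpa using (mul_mem_cancel_left hy).1 h) hx

theorem nsup {P : Subgroup G} {x s : G} (hn : x ∈ 𝐍(P)) (h2 : x * x ∈ P) (hs : s ∈ 𝐍(P))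
    (e : s * x * s⁻¹ ∈ P ⊔ zpowers x) : s ∈ 𝐍(P ⊔ zpowers x) := by
  refine mem_normalizer_fintype fun y hy => ?_
  obtain ⟨p, hp, i, rfl⟩ := (mem_adj' hn h2).1 hy
  rw [B2.cj_mul, ← conj_pow]
  exact mul_mem (mem_sup_left (conj_mem_of_mem_normalizer hs hp)) (pow_mem e _)

theorem memL {P : Subgroup G} {x : G} (hn : x ∈ 𝐍(P)) (h2 : x * x ∈ P) {y : G} :
    y ∈ P ⊔ zpowers x ↔ ∃ p ∈ P, ∃ i : Fin 2, y = x ^ (i : ℕ) * p := by
  constructor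
  · intro hy
    obtain ⟨p, hp, i, rfl⟩ := (mem_adj' hn h2).1 hy
    exact ⟨_, conj_mem_of_mem_normalizer' (pow_mem hn (i : ℕ)) hp, i, by group⟩
  · rintro ⟨p, hp, i, rfl⟩
    exact mul_mem (mem_sup_right (pow_mem (mem_zpowers x) _)) (mem_sup_left hp)

variable {F : Fr G} {u0 g v d1 d2 η κ k : G} {π : G → V}

theorem nfU (h : F.EK u0 g v d1 d2) (a : V) : nf F d1 d2 a ∈ F.U g v d1 d2 :=
  mul_mem (mul_mem (pow_mem h.toEE.b_v1U _) (pow_mem h.toEE.b_d1U _))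
    (mul_mem (pow_mem h.toEE.b_v2U _) (pow_mem h.toEE.b_d2U _))

theorem cZ (h : F.EK u0 g v d1 d2) {c x : G} (hc : c ∈ F.Z0 g v) (hx : x ∈ F.U g v d1 d2) : x * c = c * x :=
  (mem_centralizer_iff_commute.1 (h.toEE.b_UC hx) c hc).symm

theorem nf_mul (h : F.EK u0 g v d1 d2) (a b : V) :
    ∃ c ∈ F.Z0 g v, nf F d1 d2 a * nf F d1 d2 b = c * nf F d1 d2 (a + b) := by
  have hA : ∀ i j : Fin 2, F.v1 ^ (i : ℕ) * d1 ^ (j : ℕ) ∈ F.U g v d1 d2 := fun i j =>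
    mul_mem (pow_mem h.toEE.b_v1U _) (pow_mem h.toEE.b_d1U _)
  have hB : ∀ i j : Fin 2, F.v2 ^ (i : ℕ) * d2 ^ (j : ℕ) ∈ F.U g v d1 d2 := fun i j =>
    mul_mem (pow_mem h.toEE.b_v2U _) (pow_mem h.toEE.b_d2U _)
  have hc := h.comm (hB a.2.2.1 a.2.2.2) (hA b.1 b.2.1)
  refine ⟨_, hc, ?_⟩
  simp only [nf, Prod.fst_add, Prod.snd_add]
  rw [ab F.v11 h.d11 h.d1v, ab F.v22 h.d22 h.d2v, mul_assoc (F.v1 ^ (a.1 : ℕ) * _) (F.v1 ^ (b.1 : ℕ) * _),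
    ← lc (cZ h hc (hA _ _))]
  group

theorem nf_ker (h : F.EK u0 g v d1 d2) {a : V} (e : nf F d1 d2 a ∈ F.Z0 g v) : a = 0 := by
  obtain ⟨i, j, l, m⟩ := a
  simp only [nf, ← mul_assoc] at e
  have m1 : F.v1 ^ (i : ℕ) ∈ F.Z0 g v ⊔ zpowers F.v1 := mem_sup_right (pow_mem (mem_zpowers _) _)
  have m2 : F.v1 ^ (i : ℕ) * d1 ^ (j : ℕ) ∈ F.Z0 g v ⊔ zpowers F.v1 ⊔ zpowers d1 :=
    mul_mem_sup m1 (pow_mem (mem_zpowers _) _)
  have m3 : F.v1 ^ (i : ℕ) * d1 ^ (j : ℕ) * F.v2 ^ (l : ℕ) ∈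
      F.Z0 g v ⊔ zpowers F.v1 ⊔ zpowers d1 ⊔ zpowers F.v2 := mul_mem_sup m2 (pow_mem (mem_zpowers _) _)
  obtain rfl := step h.b_i3 m3 (mem_sup_left (mem_sup_left (mem_sup_left e)))
  rw [Fin.val_zero, pow_zero, mul_one] at e
  obtain rfl := step h.b_i2 m2 (mem_sup_left (mem_sup_left e))
  rw [Fin.val_zero, pow_zero, mul_one] at e
  obtain rfl := step h.b_i1 m1 (mem_sup_left e)
  rw [Fin.val_zero, pow_zero, mul_one] at e
  obtain rfl := step h.b_i0 (one_mem _) (by rwa [one_mul])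
  rfl

theorem uniq (h : F.EK u0 g v d1 d2) {c c' : G} (hc : c ∈ F.Z0 g v) (hc' : c' ∈ F.Z0 g v) {a b : V}
    (e : c * nf F d1 d2 a = c' * nf F d1 d2 b) : a = b := by
  obtain ⟨w, hw, e1⟩ := nf_mul h a b
  have e2 : nf F d1 d2 (a + b) = w⁻¹ * c⁻¹ * c' * (nf F d1 d2 b * nf F d1 d2 b) := by
    rw [← mul_assoc, mul_assoc _ c', ← e, ← mul_assoc, mul_assoc _ _ (nf F d1 d2 b), e1]
    group
  have e3 := nf_ker h (e2 ▸ mul_mem (mul_mem (mul_mem (inv_mem hw) (inv_mem hc)) hc') (h.b_sqU (nfU h b)))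
  revert e3 a b
  simp only [Prod.forall, Prod.mk_add_mk, Prod.mk_eq_zero, Prod.mk.injEq]
  have t : ∀ i j : Fin 2, i + j = 0 → i = j := by decide
  exact fun _ _ _ _ _ _ _ _ _ _ _ e => ⟨t _ _ e.1, t _ _ e.2.1, t _ _ e.2.2.1, t _ _ e.2.2.2⟩

theorem exPi (h : F.EK u0 g v d1 d2) : ∃ π, Pi F g v d1 d2 π := by
  have h1 : ∀ x ∈ F.U g v d1 d2, ∃ a, ∃ c ∈ F.Z0 g v, x = c * nf F d1 d2 a := fun x hx => by
    obtain ⟨c, hc, a, b, i, j, e⟩ := h.memU.1 hx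
    exact ⟨(a, b, i, j), c, hc, by simp only [e, nf, mul_assoc]⟩
  choose! π hπ using h1
  have val : ∀ c ∈ F.Z0 g v, ∀ a, π (c * nf F d1 d2 a) = a := fun c hc a => by
    obtain ⟨c', hc', e⟩ := hπ _ (mul_mem (h.toEE.b_ZU hc) (nfU h a))
    exact (uniq h hc hc' e).symm
  refine ⟨π, fun x hx y hy => ?_, val, hπ⟩
  obtain ⟨c, hc, e⟩ := hπ x hx
  obtain ⟨c', hc', e'⟩ := hπ y hy
  obtain ⟨w, hw, e1⟩ := nf_mul h (π x) (π y)
  rw [← val _ (mul_mem (mul_mem hc hc') hw) (π x + π y), mul_assoc, ← e1]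
  congr 1
  conv_lhs => rw [e, e']
  rw [mul_assoc, ← mul_assoc _ c', cZ h hc' (nfU h _)]
  simp only [mul_assoc]

theorem Pi.z (p : Pi F g v d1 d2 π) {c : G} (hc : c ∈ F.Z0 g v) : π c = 0 := by
  simpa [nf] using p.val c hc 0

theorem Pi.eqv (h : F.EK u0 g v d1 d2) (p : Pi F g v d1 d2 π) {x y : G} (hx : x ∈ F.U g v d1 d2)
    (e : x⁻¹ * y ∈ F.Z0 g v) : π y = π x := by
  rw [← mul_inv_cancel_left x y, p.mul _ hx _ (h.toEE.b_ZU e), p.z e, add_zero]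

theorem Pi.v1 (p : Pi F g v d1 d2 π) : π F.v1 = (1, 0, 0, 0) := by
  simpa [nf] using p.val 1 (one_mem _) (1, 0, 0, 0)
theorem Pi.e1 (p : Pi F g v d1 d2 π) : π d1 = (0, 1, 0, 0) := by
  simpa [nf] using p.val 1 (one_mem _) (0, 1, 0, 0)
theorem Pi.v2 (p : Pi F g v d1 d2 π) : π F.v2 = (0, 0, 1, 0) := by
  simpa [nf] using p.val 1 (one_mem _) (0, 0, 1, 0)
theorem Pi.e2 (p : Pi F g v d1 d2 π) : π d2 = (0, 0, 0, 1) := by
  simpa [nf] using p.val 1 (one_mem _) (0, 0, 0, 1)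

theorem Pi.pw (p : Pi F g v d1 d2 π) (y : G) (i : Fin 2) : π (y ^ (i : ℕ)) = if i = 0 then 0 else π y := by
  fin_cases i
  · simpa using p.z (one_mem _)
  · simp

theorem Pi.act (h : F.EK u0 g v d1 d2) (p : Pi F g v d1 d2 π) {s : G} (hU : s ∈ 𝐍(F.U g v d1 d2))
    (hZ : s ∈ 𝐍(F.Z0 g v)) {M : V → V} (e : ∀ a : V, (if a.1 = 0 then 0 else π (s * F.v1 * s⁻¹)) +
      (if a.2.1 = 0 then 0 else π (s * d1 * s⁻¹)) + ((if a.2.2.1 = 0 then 0 else π (s * F.v2 * s⁻¹)) +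
      (if a.2.2.2 = 0 then 0 else π (s * d2 * s⁻¹))) = M a) : Act (F.U g v d1 d2) π s M := by
  refine ⟨hU, fun x hx => ?_⟩
  obtain ⟨c, hc, e1⟩ := p.ex x hx
  have m : ∀ y ∈ F.U g v d1 d2, ∀ i : Fin 2, (s * y * s⁻¹) ^ (i : ℕ) ∈ F.U g v d1 d2 := fun y hy i =>
    pow_mem (conj_mem_of_mem_normalizer hU hy) _
  have m1 := m _ h.toEE.b_v1U (π x).1
  have m2 := m _ h.toEE.b_d1U (π x).2.1
  have m3 := m _ h.toEE.b_v2U (π x).2.2.1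
  have m4 := m _ h.toEE.b_d2U (π x).2.2.2
  have hc' := conj_mem_of_mem_normalizer hZ hc
  rw [← e, ← p.pw, ← p.pw, ← p.pw, ← p.pw, ← p.mul _ m1 _ m2, ← p.mul _ m3 _ m4,
    ← p.mul _ (mul_mem m1 m2) _ (mul_mem m3 m4), ← zero_add (π (_ * (_ * _))), ← p.z hc',
    ← p.mul _ (h.toEE.b_ZU hc') _ (mul_mem (mul_mem m1 m2) (mul_mem m3 m4))]
  congr 1
  conv_lhs => rw [e1]
  simp only [nf, B2.cj_mul, conj_pow]

theorem Pi.triv (h : F.EK u0 g v d1 d2) (p : Pi F g v d1 d2 π) {s : G} {M : V → V}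
    (A : Act (F.U g v d1 d2) π s M) (hs : s ∈ F.U g v d1 d2) (a : V) : M a = a := by
  have e := p.val 1 (one_mem _) a
  rw [one_mul] at e
  rw [← e, ← A.a _ (nfU h a)]
  refine p.eqv h (nfU h a) ?_
  simpa only [inv_inv, mul_assoc] using h.comm (inv_mem (nfU h a)) hs

theorem Pi.at (h : F.EK u0 g v d1 d2) (p : Pi F g v d1 d2 π) : Act (F.U g v d1 d2) π F.t ma := by
  refine p.act h h.tN h.toEE.tN ?_
  rw [B2.cj_of_comm F.tv1, B2.cj_of_comm F.tv2, inv_self F.tt, mul_inv_eq_iff_eq_mul.1 h.b_td1,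
    mul_inv_eq_iff_eq_mul.1 h.b_td2, p.mul _ h.toEE.b_v1U _ h.toEE.b_d1U,
    p.mul _ h.toEE.b_v2U _ h.toEE.b_d2U, p.v1, p.v2, p.e1, p.e2]
  decide

theorem Pi.aq (h : F.EN u0 g v d1 d2 η κ) (p : Pi F g v d1 d2 π) : Act (F.U g v d1 d2) π κ mq := by
  refine p.act h.ek h.κU h.κZ ?_
  rw [h.κv1, h.κv2, h.κd, h.κd2, p.v1, p.v2, p.e1, p.e2]
  decide

theorem Pi.ak (h : F.EK u0 g v d1 d2) (q : F.KK g v d1 d2 κ k) (p : Pi F g v d1 d2 π) :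
    Act (F.U g v d1 d2) π k mw := by
  refine p.act h q.kU q.kZ ?_
  have m1 := mul_mem h.toEE.b_v1U h.toEE.b_d1U
  have m2 := mul_mem h.toEE.b_v2U h.toEE.b_d2U
  have e1 : k * F.v1 * k⁻¹ = k * (F.v1 * d1) * k⁻¹ * (k * d1 * k⁻¹) := by
    rw [← B2.cj_mul, mul_assoc F.v1, h.d11, mul_one]
  have e2 : k * F.v2 * k⁻¹ = k * (F.v2 * d2) * k⁻¹ * (k * d2 * k⁻¹) := by
    rw [← B2.cj_mul, mul_assoc F.v2, h.d22, mul_one]
  rw [e1, e2, p.mul _ (conj_mem_of_mem_normalizer q.kU m1) _ (conj_mem_of_mem_normalizer q.kU h.toEE.b_d1U),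
    p.mul _ (conj_mem_of_mem_normalizer q.kU m2) _ (conj_mem_of_mem_normalizer q.kU h.toEE.b_d2U),
    p.eqv h h.toEE.b_d2U q.ke, p.eqv h h.toEE.b_d1U q.kf, p.eqv h m1 q.ke', p.eqv h m2 q.kf',
    p.mul _ h.toEE.b_v1U _ h.toEE.b_d1U, p.mul _ h.toEE.b_v2U _ h.toEE.b_d2U, p.v1, p.v2, p.e1, p.e2]
  decide

theorem u2U (h : F.EN u0 g v d1 d2 η κ) : F.u2 ∈ F.U g v d1 d2 := by
  rw [F.u2_eq F.hu1]
  exact h.ek.toEE.b_ZU (mul_mem h.ek.toEE.b_zZ h.ek.toEE.b_uZ)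

theorem κκ (h : F.EN u0 g v d1 d2 η κ) : κ * κ ∈ F.U g v d1 d2 := by
  have E := h.ek.toEE
  rcases h.sq with ⟨-, e⟩ | ⟨-, e | e⟩ <;> rw [e]
  exacts [one_mem _, E.b_ZU E.b_gZ, E.b_ZU (mul_mem E.b_gZ E.b_zZ)]

theorem tN1 (h : F.EN u0 g v d1 d2 η κ) : F.t ∈ 𝐍(F.U g v d1 d2 ⊔ zpowers κ) := by
  refine nsup h.κU (κκ h) h.ek.tN ?_
  rcases h.kd with ⟨-, e, -⟩ | ⟨-, -, e⟩
  · rw [B2.cj_of_comm e.symm]
    exact mem_sup_right (mem_zpowers _)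
  · rw [inv_self F.tt, mul_assoc, mul_inv_eq_iff_eq_mul.1 e, mul_assoc, l2 F.tt]
    exact mul_mem_sup (u2U h) (mem_zpowers _)

theorem tt1 (F : Fr G) (P : Subgroup G) : F.t * F.t ∈ P := F.tt ▸ one_mem P

theorem eq3 (k : G) : F.SK g v d1 d2 κ k = F.U g v d1 d2 ⊔ zpowers κ ⊔ zpowers F.t ⊔ zpowers k := by
  refine le_antisymm (sup_le ((le_sup_left.trans le_sup_left).trans le_sup_left) ((closure_le _).2 ?_))
    (sup_le (sup_le (sup_le le_sup_left ?_) ?_) ?_)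
  · rintro x (rfl | rfl | rfl)
    exacts [mem_sup_left (mem_sup_right (mem_zpowers _)),
      mem_sup_left (mem_sup_left (mem_sup_right (mem_zpowers _))), mem_sup_right (mem_zpowers _)]
  all_goals exact zpowers_le.2 (mem_sup_right (subset_closure (by simp)))

theorem eq2 : F.SK g v d1 d2 κ 1 = F.U g v d1 d2 ⊔ zpowers κ ⊔ zpowers F.t := by
  rw [eq3, zpowers_one_eq_bot, sup_bot_eq]

theorem kN2 (h : F.EN u0 g v d1 d2 η κ) (q : F.KK g v d1 d2 κ k) :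
    k ∈ 𝐍(F.U g v d1 d2 ⊔ zpowers κ ⊔ zpowers F.t) := by
  refine nsup (tN1 h) (tt1 F _) (nsup h.κU (κκ h) q.kU ?_) ?_
  · rw [← mul_inv_cancel_left κ (k * κ * k⁻¹)]
    exact mul_mem (mem_sup_right (mem_zpowers _)) (mem_sup_left q.kκ)
  · rw [← mul_inv_cancel_left (F.t * κ) (k * F.t * k⁻¹)]
    exact mul_mem (mul_mem (mem_sup_right (mem_zpowers _)) (mem_sup_left (mem_sup_right (mem_zpowers _))))
      (mem_sup_left (mem_sup_left q.kt))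

end HV

open HV EB

namespace Fr
variable {F : Fr G} {u0 g g' v d1 d2 η η1 η2 κ k a b γ : G}

theorem EN.mem2 (h : F.EN u0 g v d1 d2 η κ) {x : G} : x ∈ F.SK g v d1 d2 κ 1 ↔ ∃ y ∈ F.U g v d1 d2, ∃ i j : Fin 2, x = F.t ^ (i : ℕ) * κ ^ (j : ℕ) * y := by
  rw [eq2, memL (tN1 h) (tt1 F _)]
  constructor
  · rintro ⟨p, hp, i, rfl⟩
    obtain ⟨y, hy, j, rfl⟩ := (memL h.κU (κκ h)).1 hp
    exact ⟨y, hy, i, j, (mul_assoc _ _ _).symm⟩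
  · rintro ⟨y, hy, i, j, rfl⟩
    exact ⟨_, (memL h.κU (κκ h)).2 ⟨y, hy, j, rfl⟩, i, mul_assoc _ _ _⟩

theorem EN.ind2 (h : F.EN u0 g v d1 d2 η κ) {i j : Fin 2} (e : F.t ^ (i : ℕ) * κ ^ (j : ℕ) ∈ F.U g v d1 d2) : i = 0 ∧ j = 0 := by
  obtain ⟨π, p⟩ := exPi h.ek
  have := p.triv h.ek (((p.at h.ek).pw i).mul ((p.aq h).pw j)) e
  revert this
  clear e
  revert i j
  decide

theorem EN.card2 (h : F.EN u0 g v d1 d2 η κ) : Nat.card (F.SK g v d1 d2 κ 1) = 4 * Nat.card (F.U g v d1 d2) := by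
  have n1 : κ ∉ F.U g v d1 d2 := fun e => by
    have := (h.ind2 (i := 0) (j := 1) (by simpa using e)).2
    exact absurd this (by decide)
  have n2 : F.t ∉ F.U g v d1 d2 ⊔ zpowers κ := fun e => by
    obtain ⟨y, hy, j, e1⟩ := (memL h.κU (κκ h)).1 e
    have e2 : F.t ^ ((1 : Fin 2) : ℕ) * κ ^ (j : ℕ) = y⁻¹ := by
      rw [eq_inv_iff_mul_eq_one, mul_assoc, ← e1, Fin.val_one, pow_one, F.tt]
    exact absurd (h.ind2 (e2 ▸ inv_mem hy)).1 (by decide)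
  rw [eq2, card_adj (tN1 h) (tt1 F _) n2, card_adj h.κU (κκ h) n1]
  ring

theorem EN.mem3 (h : F.EN u0 g v d1 d2 η κ) (q : F.KK g v d1 d2 κ k) {x : G} : x ∈ F.SK g v d1 d2 κ k ↔
    ∃ y ∈ F.U g v d1 d2, ∃ i j l : Fin 2, x = F.t ^ (i : ℕ) * κ ^ (j : ℕ) * k ^ (l : ℕ) * y := by
  rw [eq3, mem_adj' (kN2 h q) (mem_sup_left (mem_sup_left q.kk)), ← eq2]
  constructor
  · rintro ⟨p, hp, l, rfl⟩
    obtain ⟨y, hy, i, j, rfl⟩ := h.mem2.1 hp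
    exact ⟨_, conj_mem_of_mem_normalizer' (pow_mem q.kU (l : ℕ)) hy, i, j, l, by group⟩
  · rintro ⟨y, hy, i, j, l, rfl⟩
    exact ⟨_, h.mem2.2 ⟨_, conj_mem_of_mem_normalizer (pow_mem q.kU (l : ℕ)) hy, i, j, rfl⟩, l, by group⟩

theorem EN.ind3 (h : F.EN u0 g v d1 d2 η κ) (q : F.KK g v d1 d2 κ k) {i j l : Fin 2}
    (e : F.t ^ (i : ℕ) * κ ^ (j : ℕ) * k ^ (l : ℕ) ∈ F.U g v d1 d2) : i = 0 ∧ j = 0 ∧ l = 0 := by
  obtain ⟨π, p⟩ := exPi h.ek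
  have := p.triv h.ek ((((p.at h.ek).pw i).mul ((p.aq h).pw j)).mul ((p.ak h.ek q).pw l)) e
  revert this
  clear e
  revert i j l
  decide

theorem EN.card3 (h : F.EN u0 g v d1 d2 η κ) (q : F.KK g v d1 d2 κ k) : Nat.card (F.SK g v d1 d2 κ k) = 8 * Nat.card (F.U g v d1 d2) := by
  have n3 : k ∉ F.U g v d1 d2 ⊔ zpowers κ ⊔ zpowers F.t := fun e => by
    rw [← eq2] at e
    obtain ⟨y, hy, i, j, e1⟩ := h.mem2.1 (inv_mem e)
    have e2 : F.t ^ (i : ℕ) * κ ^ (j : ℕ) * k ^ ((1 : Fin 2) : ℕ) = k⁻¹ * y⁻¹ * k := by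
      rw [Fin.val_one, pow_one, mul_left_inj, e1, mul_inv_cancel_right]
    exact absurd (h.ind3 q (e2 ▸ conj_mem_of_mem_normalizer' q.kU (inv_mem hy))).2.2 (by decide)
  rw [eq3, card_adj (kN2 h q) (mem_sup_left (mem_sup_left q.kk)) n3, ← eq2, h.card2]
  ring

theorem EN.isPS (h : F.EN u0 g v d1 d2 η κ) (q : k = 1 ∨ F.KK g v d1 d2 κ k) : IsPGroup 2 (F.SK g v d1 d2 κ k) ∧ F.SK g v d1 d2 κ k ≤ 𝐍(F.U g v d1 d2) := by
  have p2 := isP_sup (isP_sup h.ek.isP h.κ2 h.κU) (P2.of_sq F.tt) (tN1 h)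
  have n2 : F.U g v d1 d2 ⊔ zpowers κ ⊔ zpowers F.t ≤ 𝐍(F.U g v d1 d2) :=
    sup_le (sup_le le_normalizer (zpowers_le.2 h.κU)) (zpowers_le.2 h.ek.tN)
  rcases q with rfl | q
  · rw [eq2]
    exact ⟨p2, n2⟩
  · rw [eq3]
    exact ⟨isP_sup p2 (P2.of_mul_self (P2.of_mem h.ek.isP q.kk)) (kN2 h q), sup_le n2 (zpowers_le.2 q.kU)⟩

theorem EN.ku (h : F.EN u0 g v d1 d2 η κ) (q : F.KK g v d1 d2 κ k) : ∃ c ∈ F.Ud g, c ≠ 1 ∧ c ≠ F.z ∧ k * F.u1 * k⁻¹ = F.u1 * c := by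
  have E := h.ek.toEE
  have wZ : k * F.u1 * k⁻¹ ∈ F.Z0 g v := conj_mem_of_mem_normalizer q.kZ E.b_uZ
  have m : ∀ a ∈ F.Z0 g v, ∀ b ∈ F.Z0 g v, a * b = b * a := fun a ha b hb => cZ h.ek hb (E.b_ZU ha)
  have fx : F.t * κ * (k * F.u1 * k⁻¹) * (F.t * κ)⁻¹ = k * F.u1 * k⁻¹ := by
    have e1 : Commute (k * F.t * k⁻¹) (k * F.u1 * k⁻¹) := B2.comm_cj k F.tu1
    have e2 : Commute ((F.t * κ)⁻¹ * (k * F.t * k⁻¹)) (k * F.u1 * k⁻¹) := cZ h.ek wZ q.kt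
    have e3 := e1.mul_left e2.inv_left
    rw [mul_inv_rev, mul_inv_cancel_left, inv_inv] at e3
    exact B2.cj_of_comm e3
  have uUd : F.u1 ∉ F.Ud g := fun e =>
    absurd (h.indZ (i := 1) (j := 0) (by simpa using h.UdU0 e)).1 (by decide)
  have cj : ∀ x, F.t * κ * x * (F.t * κ)⁻¹ = F.t * (κ * x * κ⁻¹) * F.t⁻¹ := fun x => by group
  have su : F.t * κ * F.u1 * (F.t * κ)⁻¹ = F.z * F.u1 := by
    rw [cj, h.κu1, B2.cj_of_comm F.tu2, F.u2_eq F.hu1]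
  have sz : F.t * κ * F.z * (F.t * κ)⁻¹ = F.z := by
    have : κ * (F.v1 * F.v2 * F.v1 * F.v2) * κ⁻¹ = F.z := by
      rw [B2.cj_mul, B2.cj_mul, B2.cj_mul, h.κv1, h.κv2, F.hz']
    rw [cj, ← F.hz, this, B2.cj_of_comm F.zt.symm, F.hz]
  have zU : F.z ∈ F.Ud g := subset_closure (by simp)
  have gU : g ∈ F.Ud g := subset_closure (by simp)
  obtain ⟨c, hc, i, e⟩ : ∃ c ∈ F.Ud g, ∃ i : Fin 2, k * F.u1 * k⁻¹ = c * F.u1 ^ (i : ℕ) := by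
    obtain ⟨c, hc, i, j, e⟩ := h.memZ.1 wZ
    refine ⟨c, hc, i, ?_⟩
    rcases E.cs with ⟨-, hv, -⟩ | ⟨h0, ca⟩
    · rwa [hv, one_pow, mul_one] at e
    fin_cases j
    · simpa using e
    exfalso
    obtain ⟨c0, hc0, e0⟩ : ∃ c0 ∈ F.Ud g, κ * v * κ⁻¹ = v * c0 := by
      rcases h.κv ca h0 with e | e
      exacts [⟨_, gU, e⟩, ⟨_, mul_mem gU zU, e.trans (mul_assoc _ _ _)⟩]
    have tv : F.t * v * F.t⁻¹ = F.u1 * v := by
      rw [← h0, inv_self F.tt, ← l2 F.tt u0, ← E.vt]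
      simp only [mul_assoc, E.vv, mul_one]
    have hc1 := conj_mem_of_mem_normalizer (h.NUd h.ek.tN) hc0
    have hc' := conj_mem_of_mem_normalizer (h.NUd (mul_mem h.ek.tN h.κU)) hc
    rw [e, B2.cj_mul, B2.cj_mul, ← conj_pow, ← conj_pow, su, cj v, e0, B2.cj_mul F.t v, tv] at fx
    generalize F.t * c0 * F.t⁻¹ = c1 at hc1 fx
    generalize F.t * κ * c * (F.t * κ)⁻¹ = c' at hc' fx
    simp only [pow_one] at fx
    have e2 : c' * F.z ^ (i : ℕ) * F.u1 * c1 * (F.u1 ^ (i : ℕ) * v) = c * (F.u1 ^ (i : ℕ) * v) := by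
      rw [← mul_assoc c, ← fx, (show Commute F.z F.u1 from F.zu1).mul_pow, mul_assoc F.u1 v,
        m v E.b_vZ c1 (h.UdZ hc1), ← mul_assoc F.u1 c1, mul_assoc (c' * _) F.u1, mul_assoc (c' * _) (F.u1 * c1),
        lc (m _ (mul_mem E.b_uZ (h.UdZ hc1)) _ (pow_mem E.b_uZ _))]
      simp only [mul_assoc]
    rw [← mul_right_cancel e2, mul_mem_cancel_right hc1,
      mul_mem_cancel_left (mul_mem hc' (pow_mem zU _))] at hc
    exact uUd hc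
  fin_cases i
  · refine absurd ?_ uUd
    have := conj_mem_of_mem_normalizer' (h.NUd q.kU) hc
    simp only [pow_zero, mul_one] at e
    rw [← e] at this
    simpa [mul_assoc] using this
  · simp only [pow_one] at e
    have n : F.t * κ * c * (F.t * κ)⁻¹ ≠ c := fun e1 => by
      rw [e, B2.cj_mul, e1, su, mul_right_inj] at fx
      exact F.z1 (mul_right_cancel (fx.trans (one_mul _).symm))
    refine ⟨c, hc, ?_, ?_, e.trans (m _ (h.UdZ hc) _ E.b_uZ)⟩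
    · rintro rfl
      exact n (by simp)
    · rintro rfl
      exact n sz

theorem EN.noinv (h : F.EN u0 g v d1 d2 η κ) (q : F.KK g v d1 d2 κ k) {y : G} (hy : y ∈ F.U g v d1 d2) :
    F.t * k * y * (F.t * k * y) ∉ F.U g v d1 d2 ∧ F.t * κ * k * y * (F.t * κ * k * y) ∉ F.U g v d1 d2 := by
  obtain ⟨π, p⟩ := exPi h.ek
  have Ay : Act (F.U g v d1 d2) π y fun a => a := ⟨le_normalizer hy, fun x hx => p.eqv h.ek hx (by
    simpa only [inv_inv, mul_assoc] using h.ek.comm (inv_mem hx) hy)⟩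
  have A1 := ((p.at h.ek).mul (p.ak h.ek q)).mul Ay
  have A2 := (((p.at h.ek).mul (p.aq h)).mul (p.ak h.ek q)).mul Ay
  exact ⟨fun e => absurd (p.triv h.ek (A1.mul A1) e (1, 0, 0, 0)) (by decide),
    fun e => absurd (p.triv h.ek (A2.mul A2) e (1, 0, 0, 0)) (by decide)⟩

end Fr

end H25.A6
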