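import Mathlib
import Cfsg.Agent.Lib.A6S.HV

/-! `U` is weakly closed in `SS`. -/

set_option autoImplicit false

namespace H25.A6

open Subgroup H69 H36.SW H25.A7

variable {G : Type*} [Group G] [Finite G]

theorem HW_cov {U X : Subgroup G} {n : ℕ} (a : Fin n → G) (h : ∀ x ∈ X, ∃ i, (a i)⁻¹ * x ∈ U) :
    Nat.card X ≤ n * Nat.card (X ⊓ U : Subgroup G) := by
  choose f hf using fun x : X => h x x.2
  have i : Function.Injective fun q : X ⧸ U.subgroupOf X => f q.out := fun p q e => by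
    have e' : f p.out = f q.out := e
    have := mul_mem (inv_mem (hf p.out)) (e' ▸ hf q.out)
    rw [← p.out_eq', ← q.out_eq', QuotientGroup.eq, mem_subgroupOf]
    simpa [mul_assoc] using this
  have c := Nat.card_le_card_of_injective _ i
  rw [Nat.card_eq_fintype_card (α := Fin n), Fintype.card_fin] at c
  have : Nat.card (U.subgroupOf X) = Nat.card (X ⊓ U : Subgroup G) := by
    rw [← inf_subgroupOf_right, inf_comm]
    exact Nat.card_congr (subgroupOfEquivOfLe inf_le_left).toEquiv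
  rw [← (U.subgroupOf X).card_mul_index, mul_comm]
  exact Nat.mul_le_mul c this.le

theorem HW_half {Y Z : Subgroup G} (h : Y ≤ Z) {w : G} (hw : w ∈ Z) (n : w ∉ Y) :
    2 * Nat.card Y ≤ Nat.card Z := by
  obtain ⟨m, e⟩ := card_dvd_of_le h
  have p : 0 < Nat.card Z := Nat.card_pos
  have a : m ≠ 1 := fun k => n (eq_of_le_of_card_ge h (by rw [e, k, mul_one]) ▸ hw)
  have b : m ≠ 0 := fun k => by rw [k] at e; omega
  rw [e, mul_comm]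
  exact Nat.mul_le_mul_left _ (by omega)

omit [Finite G] in
theorem HW_mul {U : Subgroup G} {s s' x x' : G} (n : s' ∈ 𝐍(U)) (h : s⁻¹ * x ∈ U) (h' : s'⁻¹ * x' ∈ U) :
    (s * s')⁻¹ * (x * x') ∈ U := by
  have := mul_mem (conj_mem_of_mem_normalizer' n h) h'
  convert this using 1
  group

namespace Fr
variable {F : Fr G} {u0 g g' v d1 d2 η η1 η2 κ k a b γ : G}

theorem EK.HW_fix (h : F.EK u0 g v d1 d2) {s x x0 : G} (n : s ∈ 𝐍(F.Z0 g v)) (m : s⁻¹ * x0 ∈ F.U g v d1 d2)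
    (hx : x ∈ F.U g v d1 d2) (c : x0 * x = x * x0) : x⁻¹ * (s * x * s⁻¹) ∈ F.Z0 g v := by
  have := conj_mem_of_mem_normalizer n (h.comm m (inv_mem hx))
  convert this using 1
  have e : x0 * x⁻¹ * x0⁻¹ = x⁻¹ := by
    rw [mul_inv_eq_iff_eq_mul, mul_inv_eq_iff_eq_mul, mul_assoc, c, inv_mul_cancel_left]
  calc x⁻¹ * (s * x * s⁻¹) = x0 * x⁻¹ * x0⁻¹ * (s * x * s⁻¹) := by rw [e]
    _ = _ := by group

theorem EK.HW_cz (h : F.EK u0 g v d1 d2) {X : Subgroup G} (ab : ∀ x ∈ X, ∀ y ∈ X, x * y = y * x) {s x0 w : G}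
    (h0 : x0 ∈ X) (m : s⁻¹ * x0 ∈ F.U g v d1 d2) (hw : w ∈ F.Z0 g v) (n : s * w ≠ w * s) :
    2 * Nat.card (X ⊓ F.Z0 g v : Subgroup G) ≤ Nat.card (F.Z0 g v) := by
  refine HW_half inf_le_right hw fun k => n ?_
  have c : w * (s⁻¹ * x0)⁻¹ = (s⁻¹ * x0)⁻¹ * w := h.toEE.b_UC (inv_mem m) w hw
  calc s * w = x0 * ((s⁻¹ * x0)⁻¹ * w) := by group
    _ = x0 * w * (s⁻¹ * x0)⁻¹ := by rw [← c, mul_assoc]
    _ = _ := by rw [ab x0 h0 w k.1]; group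

theorem EN.HW_tg (h : F.EN u0 g v d1 d2 η κ) : F.t * g ≠ g * F.t := fun e => by
  have := h.ek.gt
  rw [← e, mul_assoc, h.ek.gg] at this
  exact F.z1 (mul_left_cancel this).symm

theorem EN.HW_u2 (_ : F.EN u0 g v d1 d2 η κ) : F.u2 = F.z * F.u1 :=
  (F.hu.resolve_left fun k => F.hu1 k.1).1

theorem EN.HW_κu (h : F.EN u0 g v d1 d2 η κ) : κ * F.u1 ≠ F.u1 * κ := fun e => by
  have := h.κu1
  rw [e, mul_inv_cancel_right, h.HW_u2] at this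
  exact F.z1 (mul_right_cancel (this.symm.trans (one_mul _).symm))

theorem EN.HW_κz (h : F.EN u0 g v d1 d2 η κ) : κ * F.z * κ⁻¹ = F.z :=
  calc κ * F.z * κ⁻¹ = κ * F.v1 * κ⁻¹ * (κ * F.v2 * κ⁻¹) * (κ * F.v1 * κ⁻¹) * (κ * F.v2 * κ⁻¹) := by
        rw [← F.hz]; group
    _ = F.z := by rw [h.κv1, h.κv2, F.hz']

theorem EN.HW_ku (h : F.EN u0 g v d1 d2 η κ) (q : F.KK g v d1 d2 κ k) :
    k * F.u1 ≠ F.u1 * k ∧ κ * k * F.u1 ≠ F.u1 * (κ * k) := by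
  obtain ⟨c, m, c1, cz, e⟩ := h.ku q
  refine ⟨fun n => c1 ?_, fun n => cz ?_⟩
  · rw [n, mul_inv_cancel_right] at e
    exact (mul_left_cancel (e.symm.trans (mul_one _).symm))
  · have cc : κ ∈ 𝐂(F.Ud g) := EA_cen (by
      rintro y (rfl | rfl)
      exacts [(mul_inv_eq_iff_eq_mul.1 h.HW_κz).symm, h.κg.symm])
    have zu : F.z * F.u1 = F.u1 * F.z := h.ek.toEE.b_Zab h.ek.toEE.b_uZ _ h.ek.toEE.b_zZ
    have : F.u1 = F.u1 * (F.z * c) :=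
      calc F.u1 = κ * (k * F.u1 * k⁻¹) * κ⁻¹ := by
            rw [show κ * (k * F.u1 * k⁻¹) * κ⁻¹ = κ * k * F.u1 * (κ * k)⁻¹ by group, n, mul_inv_cancel_right]
        _ = κ * F.u1 * κ⁻¹ * (κ * c * κ⁻¹) := by rw [e]; group
        _ = _ := by rw [h.κu1, conj_eq_of_mem_centralizer cc m, h.HW_u2, zu, mul_assoc]
    have := mul_left_cancel (this.symm.trans (mul_one _).symm)
    exact mul_left_cancel (this.trans F.zz.symm)

theorem EN.wc (h : F.EN u0 g v d1 d2 η κ) (q : k = 1 ∨ F.KK g v d1 d2 κ k) : WC (4 * Nat.card (F.Z0 g v)) (F.U g v d1 d2) (F.SK g v d1 d2 κ k) := by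
  intro X hX h2 hc
  by_contra hn
  have p : 0 < Nat.card (F.Z0 g v) := Nat.card_pos
  have ab : ∀ x ∈ X, ∀ y ∈ X, x * y = y * x := fun x hx y hy =>
    EB.comm_of_sq (h2 x hx) (h2 y hy) (h2 _ (mul_mem hx hy))
  have no1 : F.KK g v d1 d2 κ k → ∀ w ∈ X, (F.t * k)⁻¹ * w ∉ F.U g v d1 d2 := fun q w hw m =>
    (h.noinv q m).1 (by rw [mul_inv_cancel_left, h2 w hw]; exact one_mem _)
  have no2 : F.KK g v d1 d2 κ k → ∀ w ∈ X, (F.t * κ * k)⁻¹ * w ∉ F.U g v d1 d2 := fun q w hw m =>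
    (h.noinv q m).2 (by rw [mul_inv_cancel_left, h2 w hw]; exact one_mem _)
  have cls : ∀ x ∈ X, x ∈ F.U g v d1 d2 ∨ κ⁻¹ * x ∈ F.U g v d1 d2 ∨
      (F.t⁻¹ * x ∈ F.U g v d1 d2 ∨ (F.t * κ)⁻¹ * x ∈ F.U g v d1 d2) ∨
      (F.KK g v d1 d2 κ k ∧ (k⁻¹ * x ∈ F.U g v d1 d2 ∨ (κ * k)⁻¹ * x ∈ F.U g v d1 d2)) := fun x hx => by
    rcases q with rfl | q
    · obtain ⟨y, hy, i, j, e⟩ := h.mem2.1 (hX hx)
      have m := (inv_mul_eq_iff_eq_mul.2 e).symm ▸ hy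
      fin_cases i <;> fin_cases j <;> simp only [pow_zero, pow_one, one_mul, mul_one, inv_one] at m <;> tauto
    · obtain ⟨y, hy, i, j, l, e⟩ := (h.mem3 q).1 (hX hx)
      have m := (inv_mul_eq_iff_eq_mul.2 e).symm ▸ hy
      have a1 := no1 q x hx
      have a2 := no2 q x hx
      fin_cases i <;> fin_cases j <;> fin_cases l <;>
        simp only [pow_zero, pow_one, one_mul, mul_one, inv_one] at m <;> tauto
  have bad : F.KK g v d1 d2 κ k → ∀ x ∈ X, ∀ y ∈ X,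
      (F.t⁻¹ * x ∈ F.U g v d1 d2 ∨ (F.t * κ)⁻¹ * x ∈ F.U g v d1 d2) →
      (k⁻¹ * y ∈ F.U g v d1 d2 ∨ (κ * k)⁻¹ * y ∈ F.U g v d1 d2) → False := fun q x hx y hy a b => by
    have kk : κ * κ = 1 := (h.sq.resolve_right fun e => q.d e.1).2
    rcases a with a | a <;> rcases b with b | b
    · exact no1 q _ (mul_mem hx hy) (HW_mul q.kU a b)
    · exact no2 q _ (mul_mem hx hy) (mul_assoc F.t κ k ▸ HW_mul (mul_mem h.κU q.kU) a b)
    · exact no2 q _ (mul_mem hx hy) (HW_mul q.kU a b)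
    · have := HW_mul (mul_mem h.κU q.kU) a b
      rw [show F.t * κ * (κ * k) = F.t * (κ * κ) * k by group, kk, mul_one] at this
      exact no1 q _ (mul_mem hx hy) this
  by_cases hA : ∃ x0 ∈ X, κ⁻¹ * x0 ∈ F.U g v d1 d2
  · obtain ⟨x0, h0, m0⟩ := hA
    have l1 : X ⊓ F.U g v d1 d2 ≤ X ⊓ F.Z0 g v := fun x hx =>
      ⟨hx.1, h.fixκ hx.2 (h2 x hx.1) (h.ek.HW_fix h.κZ m0 hx.2 (ab _ h0 _ hx.1))⟩
    have c1 := card_le_of_le l1
    have c2 := h.ek.HW_cz ab h0 m0 h.ek.toEE.b_uZ h.HW_κu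
    have c3 : Nat.card X ≤ 4 * Nat.card (X ⊓ F.U g v d1 d2 : Subgroup G) := by
      by_cases hk : ∃ y ∈ X, F.KK g v d1 d2 κ k ∧ (k⁻¹ * y ∈ F.U g v d1 d2 ∨ (κ * k)⁻¹ * y ∈ F.U g v d1 d2)
      · obtain ⟨y, hy, q, b⟩ := hk
        refine HW_cov ![1, κ, k, κ * k] fun x hx => ?_
        rcases cls x hx with m | m | m | ⟨-, m | m⟩
        exacts [⟨0, by simpa using m⟩, ⟨1, m⟩, (bad q x hx y hy m b).elim, ⟨2, m⟩, ⟨3, m⟩]
      · refine HW_cov ![1, κ, F.t, F.t * κ] fun x hx => ?_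
        rcases cls x hx with m | m | (m | m) | m
        exacts [⟨0, by simpa using m⟩, ⟨1, m⟩, ⟨2, m⟩, ⟨3, m⟩, (hk ⟨x, hx, m⟩).elim]
    omega
  obtain ⟨x0, h0, n0⟩ := SetLike.not_le_iff_exists.1 hn
  have fin : ∀ s, (s = F.t ∨ s = F.t * κ ∨ (F.KK g v d1 d2 κ k ∧ (s = k ∨ s = κ * k))) →
      s⁻¹ * x0 ∈ F.U g v d1 d2 → s ∈ 𝐍(F.Z0 g v) → (∀ x ∈ X, x ∈ F.U g v d1 d2 ∨ s⁻¹ * x ∈ F.U g v d1 d2) →
      ∀ w ∈ F.Z0 g v, s * w ≠ w * s → False := fun s hs m0 sZ cv w hw n => by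
    have c1 : Nat.card X ≤ 2 * Nat.card (X ⊓ F.U g v d1 d2 : Subgroup G) :=
      HW_cov ![1, s] fun x hx => (cv x hx).elim (fun m => ⟨0, by simpa using m⟩) fun m => ⟨1, m⟩
    have c2 : Nat.card (X ⊓ F.U g v d1 d2 : Subgroup G) ≤
        2 * Nat.card (X ⊓ F.U g v d1 d2 ⊓ F.Z0 g v : Subgroup G) := by
      by_cases ha : ∃ a ∈ X ⊓ F.U g v d1 d2, a ∉ F.Z0 g v
      · obtain ⟨a, ha, na⟩ := ha
        refine HW_cov ![1, a] fun y hy => ?_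
        rcases h.fix1 hs ha.2 hy.2 (h2 a ha.1) (h2 y hy.1) (ab a ha.1 y hy.1)
          (h.ek.HW_fix sZ m0 ha.2 (ab _ h0 _ ha.1)) (h.ek.HW_fix sZ m0 hy.2 (ab _ h0 _ hy.1)) with m | m | m
        · exact (na m).elim
        · exact ⟨0, by simpa using m⟩
        · exact ⟨1, by rw [← EB.inv_self (h2 a ha.1)] at m; exact m⟩
      · exact HW_cov ![1, 1] fun y hy => ⟨0, by simpa using not_not.1 fun m => ha ⟨y, hy, m⟩⟩
    have c3 := card_le_of_le (inf_le_inf_right (F.Z0 g v) (inf_le_left : X ⊓ F.U g v d1 d2 ≤ X))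
    have c4 := h.ek.HW_cz ab h0 m0 hw n
    omega
  have tκ : ∀ x ∈ X, ∀ y ∈ X, F.t⁻¹ * x ∈ F.U g v d1 d2 → (F.t * κ)⁻¹ * y ∈ F.U g v d1 d2 → False :=
    fun x hx y hy a b => by
      have := HW_mul (mul_mem h.ek.tN h.κU) a b
      rw [← mul_assoc F.t, F.tt, one_mul] at this
      exact hA ⟨_, mul_mem hx hy, this⟩
  have κk : F.KK g v d1 d2 κ k → ∀ x ∈ X, ∀ y ∈ X, (κ * k)⁻¹ * x ∈ F.U g v d1 d2 → k⁻¹ * y ∈ F.U g v d1 d2 →
      False := fun q x hx y hy a b => by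
    refine hA ⟨_, mul_mem hx hy, ?_⟩
    convert mul_mem q.kk (HW_mul q.kU a b) using 1
    group
  rcases cls x0 h0 with m0 | m0 | (m0 | m0) | ⟨q, m0 | m0⟩
  · exact n0 m0
  · exact hA ⟨x0, h0, m0⟩
  · refine fin _ (.inl rfl) m0 h.ek.toEE.tN (fun x hx => ?_) g h.ek.toEE.b_gZ h.HW_tg
    rcases cls x hx with m | m | (m | m) | ⟨q, m⟩
    exacts [.inl m, (hA ⟨x, hx, m⟩).elim, .inr m, (tκ _ h0 _ hx m0 m).elim, (bad q _ h0 _ hx (.inl m0) m).elim]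
  · refine fin _ (.inr (.inl rfl)) m0 (mul_mem h.ek.toEE.tN h.κZ) (fun x hx => ?_) g h.ek.toEE.b_gZ fun e =>
      h.HW_tg (mul_right_cancel (b := κ) (by rw [mul_assoc, ← h.κg, ← mul_assoc, e, mul_assoc]))
    rcases cls x hx with m | m | (m | m) | ⟨q, m⟩
    exacts [.inl m, (hA ⟨x, hx, m⟩).elim, (tκ _ hx _ h0 m m0).elim, .inr m, (bad q _ h0 _ hx (.inr m0) m).elim]
  · refine fin _ (.inr (.inr ⟨q, .inl rfl⟩)) m0 q.kZ (fun x hx => ?_) _ h.ek.toEE.b_uZ (h.HW_ku q).1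
    rcases cls x hx with m | m | m | ⟨-, m | m⟩
    exacts [.inl m, (hA ⟨x, hx, m⟩).elim, (bad q _ hx _ h0 m (.inl m0)).elim, .inr m, (κk q _ hx _ h0 m m0).elim]
  · refine fin _ (.inr (.inr ⟨q, .inr rfl⟩)) m0 (mul_mem h.κZ q.kZ) (fun x hx => ?_) _ h.ek.toEE.b_uZ (h.HW_ku q).2
    rcases cls x hx with m | m | m | ⟨-, m | m⟩
    exacts [.inl m, (hA ⟨x, hx, m⟩).elim, (bad q _ hx _ h0 m (.inr m0)).elim, (κk q _ h0 _ hx m0 m).elim, .inr m]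

theorem EK.wcN (h : F.EK u0 g v d1 d2) {S : Subgroup G} (w : WC (4 * Nat.card (F.Z0 g v)) (F.U g v d1 d2) S) {x : G}
    (hx : F.U g v d1 d2 ^ᶜ x ≤ S) : x ∈ 𝐍(F.U g v d1 d2) := by
  have key : ∀ a ∈ F.U g v d1 d2, ∀ b ∈ F.U g v d1 d2, a * a = 1 → b * b = 1 → a * b = b * a → a ∉ F.Z0 g v →
      b ∉ F.Z0 g v ⊔ zpowers a → F.Z0 g v ⊔ zpowers a ⊔ zpowers b ≤ F.U g v d1 d2 ^ᶜ x⁻¹ :=
    fun a ha b hb aa bb ab h1 h2 => by
      obtain ⟨e, c⟩ := h.b_four ha hb aa bb ab h1 h2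
      refine cj_le_iff.1 (w _ ((cj_mono x (h.b_le1 (h.b_le1 h.toEE.b_ZU ha) hb)).trans hx) (fun y hy => ?_)
        (by rw [card_cj, c]))
      obtain ⟨y, m, rfl⟩ := mem_cj'.1 hy
      rw [show x * y * x⁻¹ * (x * y * x⁻¹) = x * (y * y) * x⁻¹ by group, e y m, mul_one, mul_inv_cancel]
  have k1 := key _ h.toEE.b_v1U _ h.toEE.b_d1U F.v11 h.d11 h.d1v.symm h.b_i0 h.b_i1
  have k2 := key _ h.toEE.b_v2U _ h.toEE.b_d2U F.v22 h.d22 h.d2v.symm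
    (fun m => h.b_i2 (mem_sup_left (mem_sup_left m)))
    fun m => h.b_i3 (SetLike.le_def.1 (sup_le_sup_right (le_sup_left.trans le_sup_left) _) m)
  exact mem_normalizer_of_cj_le (cj_le_iff.2 (h.toEE.b_U_le ((le_sup_left.trans le_sup_left).trans k1)
    (k1 (mem_sup_left (mem_sup_right (mem_zpowers _)))) (k1 (mem_sup_right (mem_zpowers _)))
    (k2 (mem_sup_left (mem_sup_right (mem_zpowers _)))) (k2 (mem_sup_right (mem_zpowers _)))))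

end Fr

end H25.A6
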