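import Mathlib
import Cfsg.Agent.Lib.A6S.HW

/-! Fusion: `N(U)` controls `Z0`; classes in `E1` and `E2`. -/

set_option autoImplicit false

namespace H25.A6

open Subgroup H69 H36.SW H25.A7

variable {G : Type*} [Group G] [Finite G]

namespace Fr
variable {F : Fr G} {u0 g g' v d1 d2 η η1 η2 κ k a b γ : G}

theorem SY.burn (h : F.SY u0 g v d1 d2 η κ k) {x y s : G} (hx : x ∈ F.Z0 g v) (hy : y ∈ F.Z0 g v) (e : s * x * s⁻¹ = y) :
    ∃ n ∈ 𝐍(F.U g v d1 d2), n * x * n⁻¹ = y := by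
  have c : ∀ {w}, w ∈ F.Z0 g v → F.U g v d1 d2 ≤ centralizer {w} := fun hw r hr =>
    mem_centralizer_singleton_iff.2 (mem_centralizer_iff_commute.1 (h.ek.Zc hw).2 r hr)
  obtain ⟨P, hP, h1⟩ := exists_isSylowIn_le h.ek.isP (c hy)
  obtain ⟨d, hd, h2⟩ := hP.exists_cj_le (isPGroup_cj h.ek.isP s)
    ((cj_mono s (c hx)).trans (by rw [cj_centralizer_singleton, e]))
  obtain ⟨r, -, h3⟩ := h.syl.exists_cj_le hP.isP le_top
  have p := h.ek.wcN h.wc ((cj_mono r h1).trans h3)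
  have q := h.ek.wcN h.wc (x := r * (d * s)) (by rw [← cj_cj, ← cj_cj]; exact (cj_mono r h2).trans h3)
  refine ⟨d * s, (mul_mem_cancel_left p).1 q, ?_⟩
  calc _ = d * (s * x * s⁻¹) * d⁻¹ := by group
    _ = y := by rw [e, mem_centralizer_singleton_iff.1 hd, mul_inv_cancel_right]

theorem SY.nUd (h : F.SY u0 g v d1 d2 η κ k) {x s : G} (hx : x ∈ F.Z0 g v) (e : s * x * s⁻¹ ∈ F.Ud g) : x ∈ F.Ud g := by
  obtain ⟨n, hn, e'⟩ := h.burn hx (h.toEN.UdZ e) rfl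
  exact (mem_normalizer_iff.1 (h.toEN.NUd hn) x).2 (e' ▸ e)

/-- conjugate into `Ud` by an element centralising `u1` and `v` -/
def HFgood (F : Fr G) (g v x : G) : Prop := ∃ s, s * F.u1 = F.u1 * s ∧ s * v = v * s ∧ s * x * s⁻¹ ∈ F.Ud g

omit [Finite G] in
theorem HFgood.cj {x y r : G} (h : F.HFgood g v x) (h1 : r * F.u1 = F.u1 * r) (h2 : r * v = v * r)
    (e : r * x * r⁻¹ = y) : F.HFgood g v y := by
  obtain ⟨s, a1, a2, a3⟩ := h
  refine ⟨s * r⁻¹, (Commute.mul_left a1 (Commute.inv_left h1)).eq, (Commute.mul_left a2 (Commute.inv_left h2)).eq, ?_⟩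
  rw [← e]; simpa [mul_assoc] using a3

omit [Finite G] in
theorem HFgood.of {x : G} (h : x ∈ F.Ud g) : F.HFgood g v x := ⟨1, by simp, by simp, by simpa using h⟩

theorem EN.toZ (h : F.EN u0 g v d1 d2 η κ) {x : G} (hx : x ∈ closure ({F.z, F.v1, g, d1} : Set G)) :
    ∃ s, s * F.u1 = F.u1 * s ∧ s * v = v * s ∧ s * x * s⁻¹ ∈ F.Ud g := by
  show F.HFgood g v x
  have cZ : ∀ {r w}, r ∈ 𝐂(F.Z0 g v) → w ∈ F.Z0 g v → r * w = w * r := fun hr hw =>
    (mem_centralizer_iff_commute.1 hr _ hw).symm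
  have gV : g ∈ 𝐂(F.V1) := centralizer_anti F.V1X1 h.tr.gX
  have gd : g * d1 = d1 * g := (cZ h.ek.d1Z (EA_g g v)).symm
  have dV : d1 ∈ 𝐂((F.V1 ⊔ zpowers g : Subgroup G)) := by
    rw [H69.centralizer_sup, H69.centralizer_zpowers]
    exact ⟨centralizer_anti F.V1X1 h.tr.dX, mem_centralizer_singleton_iff.2 gd.symm⟩
  have hx' : x ∈ F.V1 ⊔ zpowers g ⊔ zpowers d1 := (closure_le _).2 (by
    rintro _ (rfl | rfl | rfl | rfl)
    exacts [mem_sup_left (mem_sup_left F.b2_zV), mem_sup_left (mem_sup_left F.b2_vV),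
      mem_sup_left (mem_sup_right (mem_zpowers _)), mem_sup_right (mem_zpowers _)]) hx
  obtain ⟨p, hp, j, rfl⟩ := (EB.mem_adj' (centralizer_le_normalizer _ dV) (by rw [h.ek.d11]; exact one_mem _)).1 hx'
  obtain ⟨p, hq, i, rfl⟩ := (EB.mem_adj' (centralizer_le_normalizer _ gV) (by rw [h.ek.gg]; exact one_mem _)).1 hp
  have z0 : F.z ∈ F.Ud g := subset_closure (by simp)
  have g0 : g ∈ F.Ud g := subset_closure (by simp)
  have e : ∀ {x y}, F.HFgood g v x → η * x * η⁻¹ = y → F.HFgood g v y := fun f e => f.cj (GI.ηu h.tr) h.tr.ηv e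
  have e' : ∀ {x y}, F.HFgood g v x → d2 * x * d2⁻¹ = y → F.HFgood g v y := fun f e =>
    f.cj (cZ h.ek.d2Z (EA_u g v)) (cZ h.ek.d2Z (EA_v g v)) e
  have a1 : η * F.z * η⁻¹ = F.v1 := (h.tr.act (F.X1W1 F.b2_zX)).trans F.y1z
  have a2 : η * F.v1 * η⁻¹ = F.z * F.v1 := (h.tr.act F.b2_vW).trans F.y1v
  have a3 : η * g * η⁻¹ = d1 := h.tr.ηg
  have a4 : η * d1 * η⁻¹ = g * d1 := by
    rw [h.tr.ηd, mul_inv_rev, inv_eq_of_mul_eq_one_right h.ek.gg, inv_eq_of_mul_eq_one_right h.ek.d11, gd]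
  have a5 : η * (F.z * F.v1) * η⁻¹ = F.z := by
    rw [B2.cj_mul, a1, a2, F.zv1, ← mul_assoc, F.v11, one_mul]
  have b1 : d2 * F.v1 * d2⁻¹ = F.v1 * g := by
    rw [inv_eq_of_mul_eq_one_right h.ek.d22, mem_centralizer_iff_commute.1 gV _ F.b2_vV, ← h.c2, mul_assoc _ F.v1 F.v1,
      F.v11, mul_one]
  have b2 : d2 * F.z * d2⁻¹ = F.z := B2.cj_of_comm (cZ h.ek.d2Z (EA_z g v))
  have c1 : F.HFgood g v F.z := .of z0
  have c2 := e c1 a1
  have c3 := e c2 a2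
  have c4 : F.HFgood g v g := .of g0
  have c5 : F.HFgood g v (F.z * g) := .of (mul_mem z0 g0)
  have c6 := e' c2 b1
  have c7 : F.HFgood g v (F.z * F.v1 * g) := e' c3 (by rw [B2.cj_mul, b1, b2, mul_assoc])
  have c8 := e c4 a3
  have c9 : F.HFgood g v (F.z * d1) := e c7 (by rw [B2.cj_mul, a5, a3])
  have c10 : F.HFgood g v (F.v1 * d1) := e c5 (by rw [B2.cj_mul, a1, a3])
  have c11 : F.HFgood g v (F.z * F.v1 * d1) := e c6 (by rw [B2.cj_mul, a2, a3])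
  have c12 := e c8 a4
  have c13 : F.HFgood g v (F.z * g * d1) := e c11 (by rw [B2.cj_mul, a5, a4, mul_assoc])
  have c14 : F.HFgood g v (F.v1 * g * d1) := e c9 (by rw [B2.cj_mul, a1, a4, mul_assoc])
  have c15 : F.HFgood g v (F.z * F.v1 * g * d1) := e c10 (by rw [B2.cj_mul, a2, a4, ← mul_assoc])
  have c0 : F.HFgood g v 1 := .of (one_mem _)
  rcases F.memV1.1 hq with rfl | rfl | rfl | rfl <;> fin_cases i <;> fin_cases j <;>
    simp only [pow_zero, pow_one, mul_one, one_mul] <;> assumption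

theorem SY.HFcls (h : F.SY u0 g v d1 d2 η κ k) {x s : G} (hx : x ∈ F.Z0 g v ⊔ closure {F.v1, d1})
    (e : s * x * s⁻¹ ∈ F.Ud g) : x ∈ F.UO d1 d2 := by
  have hc : closure {F.v1, d1} ≤ 𝐂(F.Z0 g v) := (closure_le _).2 (by
    rintro _ (rfl | rfl)
    exacts [h.ek.toEE.b_v1Z, h.ek.d1Z])
  obtain ⟨p, hp, q, hq, rfl⟩ := (mem_sup_of_le_normalizer_left (hc.trans (centralizer_le_normalizer _))).1 hx
  obtain ⟨c, hc', i, j, rfl⟩ := h.toEN.memZ.1 hp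
  have hw : F.u1 ^ (i : ℕ) * v ^ (j : ℕ) ∈ F.Z0 g v := mul_mem (pow_mem (EA_u g v) _) (pow_mem (EA_v g v) _)
  obtain ⟨r, r1, r2, r3⟩ := h.toEN.toZ (x := c * q) (mul_mem (closure_mono (by intro y; simp; tauto) hc')
    (closure_mono (by intro y; simp; tauto) hq))
  have r4 : Commute r (F.u1 ^ (i : ℕ) * v ^ (j : ℕ)) :=
    (Commute.pow_right r1 _).mul_right (Commute.pow_right r2 _)
  rw [mul_assoc c] at e ⊢
  generalize F.u1 ^ (i : ℕ) * v ^ (j : ℕ) = w at hw r4 e ⊢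
  have k1 : c * w * q = c * q * w := by rw [mul_assoc, mem_centralizer_iff_commute.1 (hc hq) _ hw, mul_assoc]
  rw [k1] at e ⊢
  have k2 : r * (c * q) * r⁻¹ * w ∈ F.Ud g := h.nUd (s := s * r⁻¹) (mul_mem (h.toEN.UdZ r3) hw) (by
    rwa [mul_assoc (r * (c * q)) r⁻¹, r4.inv_left.eq, show s * r⁻¹ * (r * (c * q) * (w * r⁻¹)) * (s * r⁻¹)⁻¹ =
      s * (c * q * w) * s⁻¹ by group])
  exact mul_mem (mul_mem (h.toEN.UdU0 hc') (closure_mono (by intro y; simp; tauto) hq))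
    (h.toEN.UdU0 ((mul_mem_cancel_left r3).1 k2))

theorem SY.cls (h : F.SY u0 g v d1 d2 η κ k) {x s : G} (hx : x ∈ F.Z0 g v ⊔ closure {F.v1, d1} ∨ x ∈ F.Z0 g v ⊔ closure {F.v2, d2})
    (e : s * x * s⁻¹ ∈ F.Ud g) : x ∈ F.UO d1 d2 := by
  refine hx.elim (h.HFcls · e) fun hx => ?_
  have : F.Z0 g v ⊔ closure {F.v2, d2} ≤ (F.Z0 g v ⊔ closure {F.v1, d1}).comap (MulAut.conj κ).toMonoidHom :=
    sup_le (fun y hy => mem_sup_left (conj_mem_of_mem_normalizer h.κZ hy)) ((closure_le _).2 (by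
      rintro _ (rfl | rfl)
      · exact mem_sup_right (subset_closure (Or.inl h.κv2))
      · exact mem_sup_right (subset_closure (Or.inr h.toEN.κd2))))
  exact (mem_normalizer_iff.1 h.toEN.κU0 x).2 (h.HFcls (s := s * κ⁻¹) (this hx) (by simpa [mul_assoc] using e))

end Fr

end H25.A6
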