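import Mathlib
import Cfsg.Agent.Lib.A6S.HW

/-! Either `U ⟨t, κ⟩` is a Sylow subgroup, or there is `k`. -/

set_option autoImplicit false

namespace H25.A6

open Subgroup H69 H36.SW H25.A7

variable {G : Type*} [Group G] [Finite G]

namespace HK

theorem sw {H : Type*} [Group H] {a b c : H} (h : b * a = c * (a * b)) (x : H) : b * (a * x) = c * (a * (b * x)) := by
  rw [← mul_assoc, h]; simp only [mul_assoc]

theorem sw0 {H : Type*} [Group H] {a b : H} (h : b * a = a * b) (x : H) : b * (a * x) = a * (b * x) := by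
  rw [← mul_assoc, h, mul_assoc]

theorem sq0 {H : Type*} [Group H] {a : H} (h : a * a = 1) (x : H) : a * (a * x) = x := by
  rw [← mul_assoc, h, one_mul]

theorem swp {H : Type*} [Group H] {a b c : H} (ha : a * a = 1) (hb : b * b = 1) (h : a * b * a * b = c)
    (hc : c * c = 1) : b * a = c * (a * b) := by
  have e : b * a * (b * a) = c := by
    rw [← inv_eq_of_mul_eq_one_right hc, ← h]
    refine (inv_eq_of_mul_eq_one_right ?_).symm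
    simp only [mul_assoc, sq0 ha, sq0 hb, ha]
  rw [← e]; simp only [mul_assoc, sq0 ha, sq0 hb, hb, mul_one]

theorem calc16 {H : Type*} [Group H] {z g k v1 d1 v2 d2 : H} (zz : z * z = 1) (gg : g * g = 1)
    (a1 : v1 * v1 = 1) (a2 : d1 * d1 = 1) (a3 : v2 * v2 = 1) (a4 : d2 * d2 = 1) (gz : g * z = z * g)
    (z1 : v1 * z = z * v1) (z2 : d1 * z = z * d1) (z3 : v2 * z = z * v2) (z4 : d2 * z = z * d2)
    (g1 : v1 * g = g * v1) (g2 : d1 * g = g * d1) (g3 : v2 * g = g * v2) (g4 : d2 * g = g * d2)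
    (c12 : d1 * v1 = v1 * d1) (c13 : v2 * v1 = z * (v1 * v2)) (c14 : d2 * v1 = g * (v1 * d2))
    (c23 : v2 * d1 = g * (d1 * v2)) (c24 : d2 * d1 = k * (d1 * d2)) (c34 : d2 * v2 = v2 * d2)
    (n1 : z ≠ 1) (n2 : g ≠ 1) (n3 : z * g ≠ 1) (hk : k = g ∨ k = g * z) (a b i j : Fin 2) {x y w : H}
    (hx : x = v1 ^ (a : ℕ) * d1 ^ (b : ℕ) * v2 ^ (i : ℕ) * d2 ^ (j : ℕ))
    (hy : y = v2 ^ (a : ℕ) * d2 ^ (b : ℕ) * v1 ^ (i : ℕ) * d1 ^ (j : ℕ))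
    (hw : w = v1 ^ (a : ℕ) * (v1 * d1) ^ (b : ℕ) * v2 ^ (i : ℕ) * (v2 * d2) ^ (j : ℕ))
    (h1 : x * x = 1) (h2 : x * y * (x * y) = k) (h3 : x * w * (x * w) = d1 * (v2 * d2) * (d1 * (v2 * d2))) :
    k = g ∧ (x = d1 ∨ x = d2) := by
  obtain ⟨o, ho⟩ : ∃ o : H, o = o := ⟨1, rfl⟩
  have m1 : z * o ≠ o := fun e => n1 (by simpa using e)
  have m2 : g * o ≠ o := fun e => n2 (by simpa using e)
  have m3 : z * (g * o) ≠ o := fun e => n3 (by simpa [← mul_assoc] using e)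
  have m4 : z * (g * o) ≠ g * o := fun e => n1 (by simpa using e)
  have m5 : z * (g * o) ≠ z * o := fun e => n2 (by simpa using e)
  have m6 : z * o ≠ g * o := fun e => n3 (by rw [mul_right_cancel e, gg])
  have h1' : x * x * o = o := by rw [h1, one_mul]
  have h2' := congrArg (· * o) h2
  have h3' := congrArg (· * o) h3
  subst hx hy hw
  clear h1 h2 h3
  rcases hk with rfl | rfl <;> fin_cases a <;> fin_cases b <;> fin_cases i <;> fin_cases j <;>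
    simp only [Fin.zero_eta, Fin.mk_one, Fin.val_zero, Fin.val_one, pow_zero, pow_one, one_mul, mul_one, mul_assoc,
      sq0 zz, sq0 gg, sq0 a1, sq0 a2, sq0 a3, sq0 a4, sw0 gz, sw0 z1, sw0 z2, sw0 z3, sw0 z4, sw0 g1, sw0 g2,
      sw0 g3, sw0 g4, sw0 c12, sw c13, sw c14, sw c23, sw c24, sw0 c34, m1, m2, m3, m4, m5, m6, m1.symm, m2.symm,
      m3.symm, m4.symm, m5.symm, m6.symm, true_and, true_or, or_true] at h1' h2' h3' ⊢

theorem half {S : Subgroup G} : ∀ (m : ℕ) (x : G), x ^ 2 ^ m = 1 → x ∉ S → ∃ y ∈ zpowers x, y ∉ S ∧ y * y ∈ S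
  | 0, x, e, hx => absurd (by rw [pow_zero, pow_one] at e; rw [e]; exact one_mem S) hx
  | m + 1, x, e, hx => by
    by_cases h : x * x ∈ S
    · exact ⟨x, mem_zpowers x, hx, h⟩
    · obtain ⟨y, hy, k⟩ := half m (x * x) (by rw [← pow_two, ← pow_mul, ← pow_succ', e]) h
      exact ⟨y, zpowers_le.2 (mul_mem (mem_zpowers x) (mem_zpowers x)) hy, k⟩

theorem exn {S : Subgroup G} (hS : IsPGroup 2 S) (h : ¬ IsSylowIn 2 S ⊤) : ∃ n ∈ 𝐍(S), n ∉ S ∧ n * n ∈ S := by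
  obtain ⟨P, hP, le⟩ := exists_isSylowIn_le (L := ⊤) hS le_top
  obtain ⟨x, hx, n⟩ := SetLike.exists_of_lt (lt_inf_normalizer_of_lt hP.isP (le.lt_of_ne fun e => h (e ▸ hP)))
  obtain ⟨m, e⟩ := P2.of_mem hP.isP hx.1
  obtain ⟨y, hy, k⟩ := half m x e n
  exact ⟨y, zpowers_le.2 hx.2 hy, k⟩

theorem mem4 {a b x : G} (aa : a * a = 1) (bb : b * b = 1) (ab : b * a = a * b)
    (h : x ∈ closure ({a, b} : Set G)) : x = 1 ∨ x = a ∨ x = b ∨ x = a * b := by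
  induction h using closure_induction with
  | mem x hx => rcases hx with rfl | rfl <;> simp
  | one => simp
  | mul x y _ _ hx hy =>
    rcases hx with rfl | rfl | rfl | rfl <;> rcases hy with rfl | rfl | rfl | rfl <;>
      simp [mul_assoc, aa, bb, ab, sq0 aa, sq0 bb, sw0 ab]
  | inv x _ hx =>
    have e : a * b * (a * b) = 1 := by simp only [mul_assoc, bb, sq0 aa, sw0 ab]
    rcases hx with rfl | rfl | rfl | rfl <;>
      simp only [inv_one, inv_eq_of_mul_eq_one_right aa, inv_eq_of_mul_eq_one_right bb,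
        inv_eq_of_mul_eq_one_right e, true_or, or_true]

end HK

namespace Fr
variable {F : Fr G} {u0 g g' v d1 d2 η η1 η2 κ k a b γ : G}

local notation "UU" => F.U g v d1 d2
local notation "ZZ" => F.Z0 g v
local notation "SS" => F.SK g v d1 d2 κ 1

theorem EN.hk_US (_ : F.EN u0 g v d1 d2 η κ) : UU ≤ SS := le_sup_left
theorem EN.hk_tS (_ : F.EN u0 g v d1 d2 η κ) : F.t ∈ SS := mem_sup_right (subset_closure (by simp))
theorem EN.hk_κS (_ : F.EN u0 g v d1 d2 η κ) : κ ∈ SS := mem_sup_right (subset_closure (by simp))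
theorem EN.hk_gU (h : F.EN u0 g v d1 d2 η κ) : g ∈ UU := h.ek.toEE.b_ZU h.ek.toEE.b_gZ
theorem EN.hk_TS (h : F.EN u0 g v d1 d2 η κ) : F.T ≤ SS :=
  h.ek.TU.trans (sup_le h.hk_US (zpowers_le.2 h.hk_tS))

theorem EN.hk_c (h : F.EN u0 g v d1 d2 η κ) {x c : G} (hx : x ∈ UU) (hc : c ∈ ZZ) : x * c = c * x :=
  (mem_centralizer_iff_commute.1 (h.ek.toEE.b_UC hx) c hc).symm

theorem EN.hk_gz (h : F.EN u0 g v d1 d2 η κ) : g * F.z = F.z * g := h.hk_c h.hk_gU h.ek.toEE.b_zZ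

theorem EN.hk_tg (h : F.EN u0 g v d1 d2 η κ) : F.t * g * F.t⁻¹ = F.z * g := by
  have e : F.t * g = g * (g * F.t * g) := by simp only [← mul_assoc, h.ek.gg, one_mul]
  rw [e, h.ek.gt, ← F.zt, ← mul_assoc, mul_inv_cancel_right, h.hk_gz]

theorem EN.hk_ntg (h : F.EN u0 g v d1 d2 η κ) : F.t * g ≠ g * F.t := fun e => F.z1 (by
  have := h.hk_tg
  rw [e, mul_inv_cancel_right] at this
  simpa using this.symm)

theorem EN.hk_κz (h : F.EN u0 g v d1 d2 η κ) : κ * F.z = F.z * κ := by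
  refine B2.comm_of_cj ?_
  conv_lhs => rw [← F.hz]
  rw [B2.cj_mul, B2.cj_mul, B2.cj_mul, h.κv1, h.κv2, F.hz']

/-- elements of `U ⟨κ⟩` centralise `g` and `z` -/
theorem EN.hk_cg (h : F.EN u0 g v d1 d2 η κ) (j : Fin 2) {y : G} (hy : y ∈ UU) :
    κ ^ (j : ℕ) * y * g = g * (κ ^ (j : ℕ) * y) :=
  (((show Commute κ g from h.κg).pow_left _).mul_left (show Commute y g from h.hk_c hy h.ek.toEE.b_gZ)).eq

theorem EN.hk_zS (h : F.EN u0 g v d1 d2 η κ) {x : G} (hx : x ∈ SS) : x * F.z = F.z * x := by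
  obtain ⟨y, hy, i, j, rfl⟩ := h.mem2.1 hx
  exact ((((show Commute F.t F.z from F.zt.symm).pow_left _).mul_left
    ((show Commute κ F.z from h.hk_κz).pow_left _)).mul_left
    (show Commute y F.z from h.hk_c hy h.ek.toEE.b_zZ)).eq

theorem EN.hk_i0 (h : F.EN u0 g v d1 d2 η κ) {i j : Fin 2} {y : G} (hy : y ∈ UU)
    (c : F.t ^ (i : ℕ) * κ ^ (j : ℕ) * y * g = g * (F.t ^ (i : ℕ) * κ ^ (j : ℕ) * y)) : i = 0 := by
  fin_cases i
  · rfl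
  · refine absurd ?_ h.hk_ntg
    simp only [Fin.mk_one, Fin.val_one, pow_one] at c
    have e := h.hk_cg j hy
    rw [mul_assoc F.t] at c
    generalize κ ^ (j : ℕ) * y = w at c e
    calc F.t * g = F.t * (g * w) * w⁻¹ := by group
      _ = F.t * w * g * w⁻¹ := by rw [← e]; group
      _ = g * F.t := by rw [c]; group

theorem EN.hk_ct (h : F.EN u0 g v d1 d2 η κ) {R : Subgroup G} (hR : IsPGroup 2 R) (hc : R ≤ centralizer {F.t})
    (hl : SS ⊓ centralizer {F.t} ≤ R) : R ≤ SS := by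
  have hT : F.T ≤ R := (le_inf h.hk_TS F.TC).trans hl
  rcases h.kd with ⟨d, c, -, -⟩ | ⟨d, -, -⟩
  · have κκ : κ * κ = 1 := (h.sq.resolve_right fun k => d k.1).2
    have n : κ ∈ 𝐍(F.T) := B2.norm_gen (by
      intro x hx
      rcases hx with rfl | rfl | rfl | rfl | rfl
      · rw [B2.cj_of_comm c]; exact F.b2_tT
      · rw [h.κv1]; exact F.b2_v2T
      · rw [h.κv2]; exact F.b2_v1T
      · rw [h.κu1]; exact F.b2_u2T
      · rw [h.κu2]; exact F.b2_uT)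
    have n' : κ ∉ F.T := fun k => F.u12ne (by
      rw [← h.κu1, B2.cj_of_comm (mem_centralizer_singleton_iff.1 (F.sylTu.le k).2)])
    have l : F.T ⊔ zpowers κ ≤ R := sup_le hT (zpowers_le.2 (hl ⟨h.hk_κS, mem_centralizer_singleton_iff.2 c⟩))
    have e := Subgroup.eq_of_le_of_card_ge l (by
      rw [card_adj n (by rw [κκ]; exact one_mem _) n', F.card32]; exact F.two_le F.om_t hR hc)
    rw [← e]
    exact sup_le h.hk_TS (zpowers_le.2 h.hk_κS)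
  · rw [(F.sylT d).max R hT hc hR]; exact h.hk_TS

theorem EN.hk_tf (h : F.EN u0 g v d1 d2 η κ) {f : G} (hf : f ∈ F.F0) (o : F.Om (F.t * f)) :
    ∃ p ∈ SS, p * F.t * p⁻¹ = F.t * f := by
  have gi : g⁻¹ = g := inv_eq_of_mul_eq_one_right h.ek.gg
  have gS := h.hk_US h.hk_gU
  have vS := h.hk_US (h.ek.toEE.b_ZU h.ek.toEE.b_vZ)
  have u2 := F.u2_eq F.hu1
  have key : (∃ p ∈ SS, p * F.t * p⁻¹ = F.t * F.u1) ↔ ∃ p ∈ SS, p * F.t * p⁻¹ = F.t * (F.z * F.u1) := by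
    have gu : g * F.u1 * g⁻¹ = F.u1 := B2.cj_of_comm (h.hk_c h.hk_gU h.ek.toEE.b_uZ)
    have gt : g * F.t * g⁻¹ = F.t * F.z := by rw [gi, h.ek.gt]
    constructor
    · rintro ⟨p, hp, e⟩
      refine ⟨g * p, mul_mem gS hp, ?_⟩
      rw [show g * p * F.t * (g * p)⁻¹ = g * (p * F.t * p⁻¹) * g⁻¹ by group, e, B2.cj_mul, gt, gu, mul_assoc]
    · rintro ⟨p, hp, e⟩
      refine ⟨g * p, mul_mem gS hp, ?_⟩
      rw [show g * p * F.t * (g * p)⁻¹ = g * (p * F.t * p⁻¹) * g⁻¹ by group, e, B2.cj_mul, B2.cj_mul, gt, gu,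
        B2.cj_of_comm h.hk_gz, mul_assoc, F.b2_zz]
  have main : F.Om (F.t * F.u1) ∨ F.Om (F.t * F.u2) → ∃ p ∈ SS, p * F.t * p⁻¹ = F.t * F.u1 := by
    intro o
    rcases h.kd with ⟨-, -, -, c⟩ | ⟨-, -, c⟩
    · rcases h.ek.cs with ⟨e, -, -⟩ | ⟨e, -⟩
      · exact o.elim (fun o => absurd o (c e).n3) fun o => absurd o (c e).n4
      · exact ⟨v, vS, by rw [inv_eq_of_mul_eq_one_right h.ek.vv, h.ek.vt, e]⟩
    · exact key.2 ⟨κ, h.hk_κS, by rw [c, u2]⟩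
  rcases F.memF0.1 hf with rfl | rfl | rfl | rfl
  · exact ⟨1, one_mem _, by simp⟩
  · exact ⟨g, gS, by rw [gi, h.ek.gt]⟩
  · exact main (Or.inl o)
  · exact key.1 (main (Or.inr (u2 ▸ o)))

theorem EN.hk_d (h : F.EN u0 g v d1 d2 η κ) {y : G} (hy : y ∈ UU) (e : F.t * κ * y * (F.t * κ * y) = 1) :
    F.dl ≠ 1 := by
  intro d
  obtain ⟨-, e0, c⟩ := h.kd.resolve_left fun k => k.1 d
  have v1 : v = 1 := (h.ek.cs.resolve_right fun k => F.hu1 (k.1.symm.trans e0)).2.1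
  have κκ : κ * κ ∈ F.UO d1 d2 := h.UdU0 (by
    rcases (h.sq.resolve_left fun k => k.1 d).2 with e | e <;> rw [e]
    · exact subset_closure (by simp)
    · exact mul_mem (subset_closure (by simp)) (subset_closure (by simp)))
  have zU : F.z ∈ F.UO d1 d2 := h.UdU0 (subset_closure (by simp))
  have nu : F.u1 ∉ F.UO d1 d2 := fun k => by
    have := (h.indZ (i := 1) (j := 0) (by simpa using k)).1
    exact absurd this (by decide)
  have u2 := F.u2_eq F.hu1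
  obtain ⟨y0, h0, i, j, rfl⟩ := h.memU.1 hy
  have s0 : F.t * κ * y0 * (F.t * κ)⁻¹ ∈ F.UO d1 d2 := conj_mem_of_mem_normalizer (mul_mem h.tU0 h.κU0) h0
  have ss : F.t * κ * (F.t * κ) = F.z * F.u1 * (κ * κ) := by
    rw [show F.t * κ * (F.t * κ) = F.t * (κ * F.t * κ⁻¹) * (κ * κ) by group, c, F.b2_tt, u2]
  have su : F.t * κ * F.u1 * (F.t * κ)⁻¹ = F.z * F.u1 := by
    rw [show F.t * κ * F.u1 * (F.t * κ)⁻¹ = F.t * (κ * F.u1 * κ⁻¹) * F.t⁻¹ by group, h.κu1,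
      B2.cj_of_comm F.tu2, u2]
  rw [v1, one_pow, mul_one] at e
  generalize F.t * κ = s at e s0 ss su
  apply nu
  fin_cases i
  · simp only [Fin.zero_eta, Fin.val_zero, pow_zero, mul_one] at e
    have : F.u1 = F.z⁻¹ * (s * y0 * s⁻¹)⁻¹ * y0⁻¹ * (κ * κ)⁻¹ := by
      calc F.u1 = F.z⁻¹ * (s * s) * (κ * κ)⁻¹ := by rw [ss]; group
        _ = F.z⁻¹ * (s * y0 * s⁻¹)⁻¹ * (s * y0 * (s * y0)) * y0⁻¹ * (κ * κ)⁻¹ := by group
        _ = _ := by rw [e, mul_one]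
    rw [this]
    exact mul_mem (mul_mem (mul_mem (inv_mem zU) (inv_mem s0)) (inv_mem h0)) (inv_mem κκ)
  · simp only [Fin.mk_one, Fin.val_one, pow_one] at e
    have z2 : F.z * F.u1 * (F.z * F.u1) = 1 := by rw [← u2, F.u22]
    have : s * y0 * s⁻¹ * (κ * κ) * y0 * F.u1 = 1 := by
      calc _ = s * y0 * s⁻¹ * (F.z * F.u1 * (F.z * F.u1)) * (κ * κ) * y0 * F.u1 := by rw [z2, mul_one]
        _ = s * y0 * s⁻¹ * (s * F.u1 * s⁻¹) * (s * s) * y0 * F.u1 := by rw [ss, su]; group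
        _ = 1 := by rw [← e]; group
    rw [← inv_eq_of_mul_eq_one_right this]
    exact inv_mem (mul_mem (mul_mem s0 κκ) h0)

theorem EN.hk_base (h : F.EN u0 g v d1 d2 η κ) {n : G} (hn : n ∈ 𝐍(SS)) (h0 : n ∉ SS) (h2 : n * n ∈ SS) :
    F.dl ≠ 1 ∧ n ∈ 𝐍(UU) ∧ n * F.z = F.z * n ∧ (n * g * n⁻¹ = g ∨ n * g * n⁻¹ = F.z * g) ∧
      (F.t * κ)⁻¹ * (n * F.t * n⁻¹) ∈ UU ∧ κ⁻¹ * (n * κ * n⁻¹) ∈ UU := by
  have hS := (h.isPS (k := 1) (Or.inl rfl)).1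
  have nU : n ∈ 𝐍(UU) := h.ek.wcN (h.wc (k := 1) (Or.inl rfl)) (cj_le_of_mem_normalizer h.hk_US hn)
  have g1 : g ≠ 1 := fun e => h.hk_ntg (by rw [e, mul_one, one_mul])
  have zi : F.z * n = n * F.z → n * F.z = F.z * n := Eq.symm
  have nz : n * F.z * n⁻¹ = F.z := by
    have c : F.t * (n * F.z * n⁻¹) = n * F.z * n⁻¹ * F.t := by
      have := B2.comm_cj n (h.hk_zS (conj_mem_of_mem_normalizer' hn h.hk_tS))
      rwa [show n * (n⁻¹ * F.t * n) * n⁻¹ = F.t by group] at this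
    rcases HK.mem4 F.zz h.ek.gg h.hk_gz (conj_mem_of_mem_normalizer (h.NUd nU)
      (subset_closure (by simp) : F.z ∈ F.Ud g)) with e | e | e | e
    · exact absurd (by simpa using e) F.z1
    · exact e
    · exact absurd (e ▸ c) h.hk_ntg
    · refine absurd ?_ h.hk_ntg
      rw [e, ← mul_assoc, ← F.zt, mul_assoc, mul_assoc] at c
      exact mul_left_cancel c
  have ng : n * g * n⁻¹ = g ∨ n * g * n⁻¹ = F.z * g := by
    rcases HK.mem4 F.zz h.ek.gg h.hk_gz (conj_mem_of_mem_normalizer (h.NUd nU)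
      (subset_closure (by simp) : g ∈ F.Ud g)) with e | e | e | e
    · exact absurd (by simpa using e) g1
    · refine absurd ?_ h.hk_ntg
      rw [B2.cj_inj' (e.trans nz.symm), F.zt]
    · exact Or.inl e
    · exact Or.inr e
  have cg : ∀ x ∈ SS, n * x * n⁻¹ * g = g * (n * x * n⁻¹) ↔ x * g = g * x := by
    intro x hx
    have cz := h.hk_zS (conj_mem_of_mem_normalizer hn hx)
    have a : n * x * n⁻¹ * (n * g * n⁻¹) = n * g * n⁻¹ * (n * x * n⁻¹) ↔ x * g = g * x := by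
      rw [← B2.cj_mul, ← B2.cj_mul]
      exact ⟨B2.cj_inj', fun e => by rw [e]⟩
    rw [← a]
    rcases ng with e | e <;> rw [e]
    generalize n * x * n⁻¹ = w at cz
    rw [← mul_assoc, cz, mul_assoc, mul_assoc, mul_right_inj]
  have nκ : κ⁻¹ * (n * κ * n⁻¹) ∈ UU := by
    obtain ⟨y, hy, i, j, e⟩ := h.mem2.1 (conj_mem_of_mem_normalizer hn h.hk_κS)
    have i0 := h.hk_i0 hy (e ▸ (cg κ h.hk_κS).2 h.κg)
    subst i0
    fin_cases j
    · have : n * κ * n⁻¹ ∈ UU := by rw [e]; simpa using hy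
      have k := conj_mem_of_mem_normalizer' nU this
      rw [show n⁻¹ * (n * κ * n⁻¹) * n = κ by group] at k
      exact absurd (h.ind2 (i := 0) (j := 1) (by simpa using k)).2 (by decide)
    · rw [e]; simpa using hy
  obtain ⟨y, hy, i, j, e⟩ := h.mem2.1 (conj_mem_of_mem_normalizer hn h.hk_tS)
  fin_cases i
  · refine absurd ((cg _ h.hk_tS).1 ?_) h.hk_ntg
    rw [e]
    simpa using h.hk_cg j hy
  fin_cases j
  · exfalso
    simp only [Fin.mk_one, Fin.val_one, pow_one, Fin.zero_eta, Fin.val_zero, pow_zero, mul_one] at e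
    obtain ⟨l, hl, f, hf, e'⟩ := h.ek.omU (s := n * F.t * n⁻¹)
      (e ▸ mul_mem (mem_sup_right (mem_zpowers _)) (mem_sup_left hy)) ⟨n, rfl⟩
    obtain ⟨p, hp, e''⟩ := h.hk_tf hf (Om.of_cj l ⟨n, e'⟩)
    have hq : l * p ∈ SS := mul_mem (h.hk_US hl) hp
    have c : (l * p)⁻¹ * n ∈ centralizer {F.t} := mem_centralizer_singleton_iff.2 (by
      calc (l * p)⁻¹ * n * F.t = p⁻¹ * l⁻¹ * (n * F.t * n⁻¹) * n := by group
        _ = _ := by rw [e', ← e'']; group)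
    have hR := isP_sup hS (P2.of_mul_self (P2.of_mem hS h2)) hn
    have := h.hk_ct (R := (SS ⊔ zpowers n) ⊓ centralizer {F.t}) (hR.to_le inf_le_left) inf_le_right
      (inf_le_inf_right _ le_sup_left)
      (mem_inf.2 ⟨Subgroup.mul_mem _ (Subgroup.inv_mem _ (mem_sup_left hq)) (mem_sup_right (mem_zpowers n)), c⟩)
    exact h0 ((mul_mem_cancel_left (inv_mem hq)).1 this)
  · simp only [Fin.mk_one, Fin.val_one, pow_one] at e
    refine ⟨h.hk_d hy ?_, nU, B2.comm_of_cj nz, ng, by rwa [e, inv_mul_cancel_left], nκ⟩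
    rw [← e, ← B2.cj_mul, F.tt]; simp

theorem EN.hk_mul (_ : F.EN u0 g v d1 d2 η κ) {n s : G} (hs : s ∈ SS) (hn : n ∈ 𝐍(SS)) (h0 : n ∉ SS)
    (h2 : n * n ∈ SS) : s * n ∈ 𝐍(SS) ∧ s * n ∉ SS ∧ s * n * (s * n) ∈ SS :=
  ⟨mul_mem (le_normalizer hs) hn, fun k => h0 ((mul_mem_cancel_left hs).1 k), by
    rw [show s * n * (s * n) = s * (n * s * n⁻¹) * (n * n) by group]
    exact mul_mem (mul_mem hs (conj_mem_of_mem_normalizer hn hs)) h2⟩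

theorem EN.hk_cj (h : F.EN u0 g v d1 d2 η κ) {s m x x' : G} (hs : s ∈ 𝐍(UU)) (hm : s⁻¹ * m ∈ UU) (hx : x ∈ UU)
    (e : x⁻¹ * x' ∈ ZZ) : (s * x * s⁻¹)⁻¹ * (m * x' * m⁻¹) ∈ ZZ := by
  have hx' : x' ∈ UU := by simpa using mul_mem hx (h.ek.toEE.b_ZU e)
  have a := h.ek.comm (inv_mem hx') hm
  have b := conj_mem_of_mem_normalizer (h.NZ hs) (mul_mem e a)
  convert b using 1
  group

theorem EN.hk_sq (h : F.EN u0 g v d1 d2 η κ) {x x' y y' : G} (hx : x ∈ UU) (hy : y ∈ UU) (e : x⁻¹ * x' ∈ ZZ)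
    (e' : y⁻¹ * y' ∈ ZZ) : x' * y' * (x' * y') = x * y * (x * y) := by
  obtain ⟨c, rfl⟩ : ∃ c, x' = x * c := ⟨x⁻¹ * x', by group⟩
  obtain ⟨c', rfl⟩ : ∃ c, y' = y * c := ⟨y⁻¹ * y', by group⟩
  rw [inv_mul_cancel_left] at e e'
  have a : x * c * (y * c') = x * y * (c * c') := by
    rw [mul_assoc, ← mul_assoc c, ← h.hk_c hy e]; group
  have b := h.hk_c (mul_mem hx hy) (mul_mem e e')
  rw [a]
  calc x * y * (c * c') * (x * y * (c * c')) = x * y * ((c * c') * (x * y)) * (c * c') := by group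
    _ = x * y * (x * y) * (c * c' * (c * c')) := by rw [← b]; group
    _ = _ := by rw [h.ek.toEE.sqZ0 (mul_mem e e'), mul_one]

theorem EN.hk_td (h : F.EN u0 g v d1 d2 η κ) :
    F.t * d1 * F.t⁻¹ = F.v1 * d1 ∧ F.t * d2 * F.t⁻¹ = F.v2 * d2 := by
  rw [inv_eq_of_mul_eq_one_right F.tt, ← h.ek.b_td1, ← h.ek.b_td2]
  simp

/-- the images of `d2`, `v1 d1`, `v2 d2` in terms of the image of `d1` -/
theorem EN.hk_im (h : F.EN u0 g v d1 d2 η κ) {n x : G} (hn : n ∈ 𝐍(SS)) (h0 : n ∉ SS) (h2 : n * n ∈ SS)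
    (hx : x ∈ UU) (e : x⁻¹ * (n * d1 * n⁻¹) ∈ ZZ) :
    (κ * x * κ⁻¹)⁻¹ * (n * d2 * n⁻¹) ∈ ZZ ∧ (F.t * (κ * x * κ⁻¹) * F.t⁻¹)⁻¹ * (n * (F.v1 * d1) * n⁻¹) ∈ ZZ ∧
      (F.t * x * F.t⁻¹)⁻¹ * (n * (F.v2 * d2) * n⁻¹) ∈ ZZ := by
  obtain ⟨d, -, -, -, a, b⟩ := h.hk_base hn h0 h2
  have κκ : κ * κ = 1 := (h.sq.resolve_right fun k => d k.1).2
  have e1 := h.hk_cj h.κU b hx e
  rw [show n * κ * n⁻¹ * (n * d1 * n⁻¹) * (n * κ * n⁻¹)⁻¹ = n * (κ * d1 * κ⁻¹) * n⁻¹ by group, h.κd] at e1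
  have e2 := h.hk_cj (mul_mem h.ek.tN h.κU) a hx e
  rw [show n * F.t * n⁻¹ * (n * d1 * n⁻¹) * (n * F.t * n⁻¹)⁻¹ = n * (F.t * d1 * F.t⁻¹) * n⁻¹ by group,
    h.hk_td.1] at e2
  have e3 := h.hk_cj (mul_mem h.ek.tN h.κU) a (conj_mem_of_mem_normalizer h.κU hx) e1
  rw [show n * F.t * n⁻¹ * (n * d2 * n⁻¹) * (n * F.t * n⁻¹)⁻¹ = n * (F.t * d2 * F.t⁻¹) * n⁻¹ by group,
    h.hk_td.2, show F.t * κ * (κ * x * κ⁻¹) * (F.t * κ)⁻¹ = F.t * (κ * κ) * x * (κ * κ)⁻¹ * F.t⁻¹ by group, κκ,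
    mul_one, inv_one, mul_one] at e3
  refine ⟨e1, ?_, e3⟩
  convert e2 using 2
  group

theorem EN.hk_cls (h : F.EN u0 g v d1 d2 η κ) {n : G} (hn : n ∈ 𝐍(SS)) (h0 : n ∉ SS) (h2 : n * n ∈ SS)
    (c : n * g * n⁻¹ = g) :
    d1 * d2 * d1 * d2 = g ∧ (d1⁻¹ * (n * d1 * n⁻¹) ∈ ZZ ∨ d2⁻¹ * (n * d1 * n⁻¹) ∈ ZZ) := by
  obtain ⟨-, nU, nz, -, -, -⟩ := h.hk_base hn h0 h2
  have E := h.ek.toEE
  obtain ⟨c0, hc, a, b, i, j, e⟩ := h.ek.memU.1 (conj_mem_of_mem_normalizer nU E.b_d1U)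
  obtain ⟨x, hx⟩ : ∃ x, x = F.v1 ^ (a : ℕ) * d1 ^ (b : ℕ) * F.v2 ^ (i : ℕ) * d2 ^ (j : ℕ) := ⟨_, rfl⟩
  have xU : x ∈ UU := hx ▸ mul_mem (mul_mem (mul_mem (pow_mem E.b_v1U _) (pow_mem E.b_d1U _)) (pow_mem E.b_v2U _))
    (pow_mem E.b_d2U _)
  have e0 : x⁻¹ * (n * d1 * n⁻¹) ∈ ZZ := by
    rw [e, mul_assoc c0, mul_assoc c0, mul_assoc c0, ← hx, ← h.hk_c xU hc, inv_mul_cancel_left]; exact hc
  obtain ⟨e1, -, e3⟩ := h.hk_im hn h0 h2 xU e0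
  have fix : ∀ w ∈ F.Ud g, n * w * n⁻¹ = w := fun w hw => by
    rcases HK.mem4 F.zz h.ek.gg h.hk_gz hw with rfl | rfl | rfl | rfl
    · simp
    · exact B2.cj_of_comm nz
    · exact c
    · rw [B2.cj_mul, c, B2.cj_of_comm nz]
  have q : ∀ {w : G}, w ∈ UU → n * d1 * n⁻¹ * (n * w * n⁻¹) * (n * d1 * n⁻¹ * (n * w * n⁻¹)) = d1 * w * (d1 * w) :=
    fun hw => by rw [← B2.cj_mul, ← B2.cj_mul, fix _ (h.sqU (mul_mem E.b_d1U hw))]
  have kk : d1 * d2 * d1 * d2 * (d1 * d2 * d1 * d2) = 1 := E.sqZ0 h.ek.kk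
  have g1 : g ≠ 1 := fun e => h.hk_ntg (by rw [e, mul_one, one_mul])
  have g2 : F.z * g ≠ 1 := fun e => h.hk_ntg (by
    rw [← inv_eq_of_mul_eq_one_right e, inv_eq_of_mul_eq_one_right F.zz, F.zt])
  have r := HK.calc16 (k := d1 * d2 * d1 * d2) F.zz E.gg F.v11 E.d11 F.v22 E.d22 h.hk_gz
    (h.hk_c E.b_v1U E.b_zZ) (h.hk_c E.b_d1U E.b_zZ) (h.hk_c E.b_v2U E.b_zZ) (h.hk_c E.b_d2U E.b_zZ)
    (h.hk_c E.b_v1U E.b_gZ) (h.hk_c E.b_d1U E.b_gZ) (h.hk_c E.b_v2U E.b_gZ) (h.hk_c E.b_d2U E.b_gZ)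
    E.d1v F.v21 (HK.swp F.v11 E.d22 (by
      have := HK.swp E.d22 F.v11 h.c2 E.gg
      rw [mul_assoc (F.v1 * d2), ← inv_eq_of_mul_eq_one_right E.gg, ← h.c2]
      refine (inv_eq_of_mul_eq_one_right ?_).symm
      simp only [mul_assoc, HK.sq0 F.v11, HK.sq0 E.d22, E.d22]) E.gg)
    (HK.swp E.d11 F.v22 h.c1 E.gg) (HK.swp E.d11 E.d22 rfl kk) E.d2v F.z1 g1 g2 h.ty a b i j
    (y := κ * x * κ⁻¹) (w := F.t * x * F.t⁻¹) hx
    (by rw [hx, B2.cj_mul, B2.cj_mul, B2.cj_mul, ← conj_pow, ← conj_pow, ← conj_pow, ← conj_pow, h.κv1, h.κv2,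
      h.κd, h.κd2])
    (by rw [hx, B2.cj_mul, B2.cj_mul, B2.cj_mul, ← conj_pow, ← conj_pow, ← conj_pow, ← conj_pow, h.hk_td.1,
      h.hk_td.2, B2.cj_of_comm F.tv1, B2.cj_of_comm F.tv2])
    (by
      have := h.hk_sq xU (one_mem _) e0 (y' := 1) (by simp)
      rw [mul_one, mul_one, ← B2.cj_mul, E.d11] at this
      simpa using this.symm)
    (by rw [← h.hk_sq xU (conj_mem_of_mem_normalizer h.κU xU) e0 e1, q E.b_d2U, ← mul_assoc])
    (by rw [← h.hk_sq xU (conj_mem_of_mem_normalizer h.ek.tN xU) e0 e3, q (mul_mem E.b_v2U E.b_d2U)])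
  exact ⟨r.1, r.2.imp (fun k => by rwa [k] at e0) fun k => by rwa [k] at e0⟩

theorem EN.hk_fin (h : F.EN u0 g v d1 d2 η κ) {n : G} (hn : n ∈ 𝐍(SS)) (h0 : n ∉ SS) (h2 : n * n ∈ SS)
    (c : n * g * n⁻¹ = g) (W : d1 * d2 * d1 * d2 = g) (e : d2⁻¹ * (n * d1 * n⁻¹) ∈ ZZ) : F.KK g v d1 d2 κ n := by
  obtain ⟨d, nU, nz, -, a, b⟩ := h.hk_base hn h0 h2
  have E := h.ek.toEE
  obtain ⟨e1, e2, e3⟩ := h.hk_im hn h0 h2 E.b_d2U e
  rw [h.κd2] at e1 e2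
  rw [h.hk_td.1] at e2
  rw [h.hk_td.2] at e3
  have cg := B2.comm_of_cj c
  refine ⟨W, d, nU, h.NZ nU, cg, nz, e, e1, e2, e3, a, b, ?_⟩
  obtain ⟨y, hy, i, j, f⟩ := h.mem2.1 h2
  have i0 := h.hk_i0 hy (f ▸ ((show Commute n g from cg).mul_left cg).eq)
  subst i0
  fin_cases j
  · rw [f]; simpa using hy
  · exfalso
    have k1 := h.hk_cj h.κU (m := n * n) (by rw [f]; simpa using hy) E.b_d1U (x' := d1) (by simp)
    have k2 := mul_mem e1 (conj_mem_of_mem_normalizer (h.NZ nU) e)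
    rw [h.κd] at k1
    have k3 : d1⁻¹ * d2 ∈ ZZ := by
      have := mul_mem k2 (inv_mem k1)
      convert this using 1
      group
    have k4 := E.sqZ0 k3
    rw [inv_eq_of_mul_eq_one_right E.d11, ← mul_assoc, W] at k4
    exact h.hk_ntg (by rw [k4, mul_one, one_mul])

theorem EN.syl2 (h : F.EN u0 g v d1 d2 η κ) : IsSylowIn 2 (F.SK g v d1 d2 κ 1) ⊤ ∨ ∃ k, F.KK g v d1 d2 κ k := by
  refine or_iff_not_imp_left.2 fun hs => ?_
  obtain ⟨n, hn, h0, h2⟩ := HK.exn (h.isPS (k := 1) (Or.inl rfl)).1 hs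
  have key : ∀ n, n ∈ 𝐍(SS) → n ∉ SS → n * n ∈ SS → n * g * n⁻¹ = g → ∃ k, F.KK g v d1 d2 κ k := by
    intro n hn h0 h2 c
    obtain ⟨W, e | e⟩ := h.hk_cls hn h0 h2 c
    · obtain ⟨a1, a2, a3⟩ := h.hk_mul h.hk_κS hn h0 h2
      refine ⟨κ * n, h.hk_fin a1 a2 a3 ?_ W ?_⟩
      · rw [show κ * n * g * (κ * n)⁻¹ = κ * (n * g * n⁻¹) * κ⁻¹ by group, c, B2.cj_of_comm h.κg]
      · have := conj_mem_of_mem_normalizer h.κZ e
        rw [← h.κd]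
        convert this using 1
        group
    · exact ⟨n, h.hk_fin hn h0 h2 c W e⟩
  rcases (h.hk_base hn h0 h2).2.2.2.1 with c | c
  · exact key n hn h0 h2 c
  · obtain ⟨a1, a2, a3⟩ := h.hk_mul h.hk_tS hn h0 h2
    refine key _ a1 a2 a3 ?_
    rw [show F.t * n * g * (F.t * n)⁻¹ = F.t * (n * g * n⁻¹) * F.t⁻¹ by group, c, B2.cj_mul, h.hk_tg,
      B2.cj_of_comm F.zt.symm, F.b2_zz]

end Fr

end H25.A6
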