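import Mathlib
import Cfsg.Agent.Lib.A6S.HW

/-! `U ⟨t, κ, k⟩` is a Sylow subgroup. -/

set_option autoImplicit false

namespace H25.A6

open Subgroup H69 H36.SW H25.A7

variable {G : Type*} [Group G] [Finite G]

namespace Fr
variable {F : Fr G} {u0 g g' v d1 d2 η η1 η2 κ k a b γ : G}

/-- a conjugate of `t` in `t U` is a `U`-conjugate of `t` -/
theorem HK3_om (h : F.EN u0 g v d1 d2 η κ) (d : F.dl ≠ 1) {y : G} (hy : y ∈ F.U g v d1 d2) (o : F.Om (F.t * y)) :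
    ∃ p ∈ F.U g v d1 d2, F.t * y = p * F.t * p⁻¹ := by
  have e := h.ek.toEE
  obtain ⟨l, hl, f, hf, k⟩ := h.ek.omU (mul_mem (mem_sup_right (mem_zpowers _)) (mem_sup_left hy)) o
  have of : F.Om (F.t * f) := Om.of_cj l (k ▸ o)
  suffices ∃ c ∈ F.Z0 g v, c * F.t * c⁻¹ = F.t * f by
    obtain ⟨c, hc, k'⟩ := this
    exact ⟨l * c, mul_mem hl (e.b_ZU hc), by rw [k, ← k']; group⟩
  have hu : u0 = F.u1 ∨ F.IIa := by
    rcases e.EA_u0 with k | k
    · rcases h.kd with k' | k'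
      exacts [.inr (k'.2.2.2 k), absurd k'.1 d]
    · exact .inl k
  rcases F.memF0.1 hf with rfl | rfl | rfl | rfl
  · exact ⟨1, one_mem _, by group⟩
  · exact ⟨g, e.b_gZ, by rw [EB.inv_self e.gg, e.gt]⟩
  · rcases hu with k | c
    · exact ⟨v, e.b_vZ, by rw [EB.inv_self e.vv, e.vt, k]⟩
    · exact absurd of c.n3
  · rcases hu with k | c
    · exact ⟨g * v, mul_mem e.b_gZ e.b_vZ, by rw [e.EA_gvt, k]⟩
    · exact absurd (F.u2_eq F.hu1 ▸ of) c.n4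

theorem HK3_kt (h : F.EN u0 g v d1 d2 η κ) (d : F.dl ≠ 1) : κ * F.t = F.t * κ ∧ κ * κ = 1 :=
  ⟨(h.kd.resolve_right fun k => d k.1).2.1, (h.sq.resolve_right fun k => d k.1).2⟩

theorem HK3_card (h : F.EN u0 g v d1 d2 η κ) (d : F.dl ≠ 1) :
    Nat.card (F.T ⊔ zpowers κ : Subgroup G) = Nat.card F.TD := by
  obtain ⟨kt, kk⟩ := HK3_kt h d
  have hn : κ ∈ 𝐍(F.T) := B2.norm_gen (by
    rintro x (rfl | rfl | rfl | rfl | rfl)
    · rw [B2.cj_of_comm kt]; exact F.b2_tT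
    · rw [h.κv1]; exact F.b2_v2T
    · rw [h.κv2]; exact F.b2_v1T
    · rw [h.κu1]; exact F.b2_u2T
    · rw [h.κu2]; exact F.b2_uT)
  rw [card_adj hn (kk ▸ one_mem _) fun m => F.u12ne ?_, F.card32, F.cardTD d]
  rw [← h.κu1, B2.cj_of_comm ((F.cenT F.b2_uT).2 F.b2_uZ κ m)]

theorem EN.syl3 (h : F.EN u0 g v d1 d2 η κ) (q : F.KK g v d1 d2 κ k) : IsSylowIn 2 (F.SK g v d1 d2 κ k) ⊤ := by
  have e := h.ek.toEE
  obtain ⟨kt, kk⟩ := HK3_kt h q.d
  obtain ⟨hP, -⟩ := h.isPS (.inr q)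
  have US : F.U g v d1 d2 ≤ F.SK g v d1 d2 κ k := le_sup_left
  have tS : F.t ∈ F.SK g v d1 d2 κ k := mem_sup_right (subset_closure (by simp))
  have κS : κ ∈ F.SK g v d1 d2 κ k := mem_sup_right (subset_closure (by simp))
  have kS : k ∈ F.SK g v d1 d2 κ k := mem_sup_right (subset_closure (by simp))
  refine syl_of_norm (t := F.t) hP le_top ?_ fun n _ hn => ?_
  · rw [top_inf_eq]
    refine F.sylTD.of_card_le (hP.to_le inf_le_left) inf_le_right ?_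
    rw [← HK3_card h q.d]
    exact card_le_of_le (sup_le (le_inf (h.ek.TU.trans (sup_le US (zpowers_le.2 tS))) F.TC)
      (zpowers_le.2 ⟨κS, mem_centralizer_singleton_iff.2 kt⟩))
  have nU := h.ek.wcN (h.wc (.inr q)) (cj_le_of_mem_normalizer US hn)
  have nD := h.NUd nU
  have o : F.Om (n * F.t * n⁻¹) := ⟨n, rfl⟩
  obtain ⟨y, hy, i, j, l, k0⟩ := (h.mem3 q).1 (conj_mem_of_mem_normalizer hn tS)
  have κz : κ * F.z = F.z * κ := B2.comm_of_cj (by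
    conv_lhs => rw [← F.hz]
    rw [B2.cj_mul, B2.cj_mul, B2.cj_mul, h.κv1, h.κv2, F.hz'])
  have κD : κ ∈ 𝐂(F.Ud g) := B2.cent_gen (by rintro x (rfl | rfl); exacts [κz.symm, h.κg.symm])
  have kD : k ∈ 𝐂(F.Ud g) := B2.cent_gen (by rintro x (rfl | rfl); exacts [q.kz.symm, q.kg.symm])
  have yD : y ∈ 𝐂(F.Ud g) := fun x hx => e.b_UC hy x (h.UdZ hx)
  have i1 : i = 1 := by
    by_contra i0
    obtain rfl : i = 0 := by omega
    have c : n * F.t * n⁻¹ ∈ 𝐂(F.Ud g) := by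
      rw [k0]; exact mul_mem (mul_mem (mul_mem (by simp) (pow_mem κD _)) (pow_mem kD _)) yD
    have := B2.cj_inj' (g := n) (a := g * F.t) (b := F.t * g) (by
      rw [B2.cj_mul, B2.cj_mul]; exact c _ (conj_mem_of_mem_normalizer nD (subset_closure (by simp))))
    have gt := e.gt
    rw [this, mul_assoc, e.gg, mul_one, left_eq_mul] at gt
    exact F.z1 gt
  subst i1
  have s1 : ∀ x, n * F.t * n⁻¹ = x → x * x ∈ F.U g v d1 d2 := by
    rintro x rfl; rw [o.sq.1]; exact one_mem _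
  have l0 : l = 0 := by
    by_contra l1
    obtain rfl : l = 1 := by omega
    rcases (by omega : j = 0 ∨ j = 1) with rfl | rfl
    · exact (h.noinv q hy).1 (s1 _ (by simpa using k0))
    · exact (h.noinv q hy).2 (s1 _ (by simpa using k0))
  subst l0
  rcases (by omega : j = 0 ∨ j = 1) with rfl | rfl
  · have k1 : n * F.t * n⁻¹ = F.t * y := by simpa using k0
    obtain ⟨p, hp, k2⟩ := HK3_om h q.d hy (k1 ▸ o)
    exact ⟨p, US hp, k1.trans k2⟩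
  · have k1 : n * F.t * n⁻¹ = F.t * κ * y := by simpa using k0
    have hy' := conj_mem_of_mem_normalizer (inv_mem q.kU) (mul_mem (inv_mem q.kt) hy)
    have k3 : F.t * (k⁻¹ * (((F.t * κ)⁻¹ * (k * F.t * k⁻¹))⁻¹ * y) * k⁻¹⁻¹) = k⁻¹ * (n * F.t * n⁻¹) * k⁻¹⁻¹ := by
      rw [k1]; group
    obtain ⟨p, hp, k2⟩ := HK3_om h q.d hy' (k3 ▸ o.cj k⁻¹)
    refine ⟨k * p, mul_mem kS (US hp), ?_⟩
    rw [k3] at k2
    calc n * F.t * n⁻¹ = k * (k⁻¹ * (n * F.t * n⁻¹) * k⁻¹⁻¹) * k⁻¹ := by group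
      _ = _ := by rw [k2]; group

end Fr

end H25.A6
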