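import Mathlib
import Cfsg.Agent.Lib.A6S.HD

/-! Coordinates on a class two group `(D₈ × D₈) Z`. -/

set_option autoImplicit false

namespace H38.HU

open Subgroup H69 H36.SW

variable {G : Type*} [Group G]

abbrev V4 := Fin 2 × Fin 2 × Fin 2 × Fin 2
abbrev W2 := Fin 2 × Fin 2
def Bf (p q : V4) : W2 := (p.1 * q.2.1 + p.2.1 * q.1, p.2.2.1 * q.2.2.2 + p.2.2.2 * q.2.2.1)
def Qf (p : V4) : W2 := (p.1 * p.2.1, p.2.2.1 * p.2.2.2)
def bv : Fin 4 → V4 := ![(1, 0, 0, 0), (0, 1, 0, 0), (0, 0, 1, 0), (0, 0, 0, 1)]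
def sg : Fin 4 → Fin 4 := ![1, 0, 3, 2]
def cm (x y : G) : G := x * y * x⁻¹ * y⁻¹
def val (g h : G) (a : W2) : G := g ^ (a.1 : ℕ) * h ^ (a.2 : ℕ)

theorem Bf_l : ∀ p p' q, Bf (p + p') q = Bf p' q + Bf p q := by decide +kernel
theorem Bf_r : ∀ p q q', Bf p (q + q') = Bf p q + Bf p q' := by decide +kernel
theorem Qf_add : ∀ p q, Qf (p + q) = Bf q p + (Qf p + Qf q) := by decide +kernel
theorem Bf_0 : ∀ p, Bf 0 p = 0 ∧ Bf p 0 = 0 := by decide +kernel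
theorem Bf_s : ∀ p q, Bf p q = Bf q p := by decide +kernel
theorem Qf_b : ∀ i, Qf (bv i) = 0 := by decide +kernel
theorem Bf_inj : ∀ i j, (∀ l, Bf (bv i) (bv l) = Bf (bv j) (bv l)) → i = j := by decide +kernel
theorem sg_c : ∀ i j : Fin 4, ![i, sg i, j, sg j] ∘ sg = sg ∘ ![i, sg i, j, sg j] := by decide +kernel
set_option synthInstance.maxSize 2000 in
theorem key : ∀ p0, Qf p0 = 0 → ∀ p1, Qf p1 = 0 → Bf p0 p1 ≠ 0 → ∀ p2, Qf p2 = 0 → Bf p0 p2 = 0 → Bf p1 p2 = 0 →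
    ∀ p3, Qf p3 = 0 → Bf p0 p3 = 0 → Bf p1 p3 = 0 → Bf p2 p3 ≠ 0 → Bf p0 p1 ≠ Bf p2 p3 →
    Bf p0 p1 + Bf p2 p3 = (1, 1) ∧ ∃ i j, p0 = bv i ∧ p1 = bv (sg i) ∧ p2 = bv j ∧ p3 = bv (sg j) := by
  decide +kernel

structure Ab (U Z : Subgroup G) (b : Fin 4 → G) (g h : G) : Prop where
  cZ : ∀ x ∈ U, ∀ y ∈ U, cm x y ∈ Z
  ZC : ∀ c ∈ Z, ∀ x ∈ U, c * x = x * c
  Z2 : ∀ c ∈ Z, c * c = 1
  ZU : Z ≤ U
  cen : ∀ x ∈ U, (∀ y ∈ U, y * x = x * y) → x ∈ Z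
  bU : ∀ i, b i ∈ U
  b2 : ∀ i, b i * b i = 1
  gZ : g ∈ Z
  hZ : h ∈ Z
  g1 : g ≠ 1
  h1 : h ≠ 1
  gh : g * h ≠ 1
  tab : ∀ i j, cm (b i) (b j) = val g h (Bf (bv i) (bv j))
  gen : ∀ P : G → Prop, (∀ c ∈ Z, P c) → (∀ i, P (b i)) → (∀ x ∈ U, ∀ y ∈ U, P x → P y → P (x * y)) → ∀ x ∈ U, P x

variable {U Z : Subgroup G} {b : Fin 4 → G} {g h x y x' y' s s' n : G}

theorem cm_l (hc : ∀ c ∈ Z, ∀ x ∈ U, c * x = x * c) (hx : x ∈ U) (m : cm x' y ∈ Z) : cm (x * x') y = cm x' y * cm x y := by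
  have : cm (x * x') y = x * cm x' y * x⁻¹ * cm x y := by simp only [cm]; group
  rw [this, ← hc _ m x hx, mul_inv_cancel_right]
theorem cm_r (hc : ∀ c ∈ Z, ∀ x ∈ U, c * x = x * c) (hy : y ∈ U) (m : cm x y' ∈ Z) : cm x (y * y') = cm x y * cm x y' := by
  have : cm x (y * y') = cm x y * (y * cm x y' * y⁻¹) := by simp only [cm]; group
  rw [this, ← hc _ m y hy, mul_inv_cancel_right]
theorem cm_one (e : x * y = y * x) : cm x y = 1 := by rw [cm, e]; group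
theorem of_cm (e : cm x y = 1) : x * y = y * x := by
  rw [cm, mul_inv_eq_one, mul_inv_eq_iff_eq_mul] at e; exact e
theorem cm_cj (n x y : G) : cm (n * x * n⁻¹) (n * y * n⁻¹) = n * cm x y * n⁻¹ := by simp only [cm]; group
theorem cm_sw (x y : G) : cm y x = (cm x y)⁻¹ := by simp only [cm]; group
theorem val0 : val g h 0 = 1 := by simp [val]

namespace Ab
variable (a : Ab U Z b g h)
include a

theorem val_add (p q : W2) : val g h (p + q) = val g h p * val g h q := by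
  have pw : ∀ {x : G}, x * x = 1 → ∀ i j : Fin 2, x ^ ((i + j : Fin 2) : ℕ) = x ^ (i : ℕ) * x ^ (j : ℕ) := fun e i j => by
    fin_cases i <;> fin_cases j <;> simp [e]
  have c : Commute h g := a.ZC _ a.hZ _ (a.ZU a.gZ)
  simp only [val, Prod.fst_add, Prod.snd_add, pw (a.Z2 _ a.gZ), pw (a.Z2 _ a.hZ)]
  exact ((c.pow_pow _ _).mul_mul_mul_comm _ _).symm
theorem val_eq {p : W2} (e : val g h p = 1) : p = 0 := by
  obtain ⟨i, j⟩ := p
  fin_cases i <;> fin_cases j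
  exacts [rfl, (a.h1 (by simpa [val] using e)).elim, (a.g1 (by simpa [val] using e)).elim,
    (a.gh (by simpa [val] using e)).elim]
theorem val_mem (p : W2) : val g h p ∈ Z := mul_mem (pow_mem a.gZ _) (pow_mem a.hZ _)
theorem val_inj {p q : W2} (e : val g h p = val g h q) : p = q := by
  have : p + q = 0 := a.val_eq (by rw [a.val_add, e, a.Z2 _ (a.val_mem q)])
  revert this; generalize p = p; generalize q = q; revert p q; decide

end Ab

/-- `x` has the coordinates `p` -/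
def Co (U : Subgroup G) (b : Fin 4 → G) (g h x : G) (p : V4) : Prop := x ∈ U ∧ ∀ i, cm x (b i) = val g h (Bf p (bv i))
/-- `s` permutes the basis modulo `Z` -/
def Act (Z : Subgroup G) (b : Fin 4 → G) (s : G) (π : Fin 4 → Fin 4) : Prop := ∀ i, (b (π i))⁻¹ * (s * b i * s⁻¹) ∈ Z
/-- `s` acts trivially on `U / Z` -/
def Tv (U Z : Subgroup G) (s : G) : Prop := ∀ y ∈ U, y⁻¹ * (s * y * s⁻¹) ∈ Z

theorem Act.mul {π π' : Fin 4 → Fin 4} (hs : s ∈ 𝐍(Z)) (p : Act Z b s π) (q : Act Z b s' π') : Act Z b (s * s') (π ∘ π') :=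
  fun i => by
    have := mul_mem (p (π' i)) (conj_mem_of_mem_normalizer hs (q i))
    convert this using 1
    simp only [Function.comp]; group
theorem Act.one : Act Z b 1 id := fun i => by simp
theorem Act.pw {π : Fin 4 → Fin 4} (p : Act Z b s π) (i : Fin 2) : Act Z b (s ^ (i : ℕ)) (if i = 0 then id else π) := by
  fin_cases i
  · simpa using Act.one
  · simpa using p
theorem Tv.mul (hZ : Z ≤ U) (p : Tv U Z s) (q : Tv U Z s') : Tv U Z (s * s') := fun y hy => by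
  have m : s' * y * s'⁻¹ ∈ U := by
    have := mul_mem hy (hZ (q y hy))
    rwa [mul_inv_cancel_left] at this
  convert mul_mem (q y hy) (p _ m) using 1
  group
theorem Tv.pow (hZ : Z ≤ U) (p : Tv U Z s) (m : ℕ) : Tv U Z (s ^ m) := by
  induction m with
  | zero => exact fun y _ => by simp
  | succ m ih => rw [pow_succ]; exact ih.mul hZ p
theorem Tv.cj (h1 : n ∈ 𝐍(U)) (h2 : n ∈ 𝐍(Z)) (p : Tv U Z s) : Tv U Z (n * s * n⁻¹) := fun y hy => by
  convert conj_mem_of_mem_normalizer h2 (p _ (conj_mem_of_mem_normalizer' h1 hy)) using 1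
  group

namespace Ab
variable (a : Ab U Z b g h)
include a

theorem co_b (i : Fin 4) : Co U b g h (b i) (bv i) := ⟨a.bU i, a.tab i⟩

theorem ex (hy : y ∈ U) : ∃ p, Co U b g h y p ∧ y * y = val g h (Qf p) ∧ ∀ x q, Co U b g h x q → cm x y = val g h (Bf q p) := by
  refine a.gen (fun y => ∃ p, Co U b g h y p ∧ y * y = val g h (Qf p) ∧ ∀ x q, Co U b g h x q → cm x y = val g h (Bf q p))
    (fun c hc => ⟨0, ⟨a.ZU hc, fun i => ?_⟩, ?_, fun x q e => ?_⟩) (fun i => ⟨bv i, a.co_b i, ?_, fun x q e => e.2 i⟩)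
    (fun x hx y hy ⟨p, p1, p2, p3⟩ ⟨q, q1, q2, q3⟩ => ⟨p + q, ⟨mul_mem hx hy, fun i => ?_⟩, ?_, fun w r e => ?_⟩) y hy
  · rw [(Bf_0 _).1, val0, cm_one (a.ZC c hc _ (a.bU i))]
  · rw [a.Z2 c hc]; exact val0.symm
  · rw [(Bf_0 _).2, val0, cm_one (a.ZC c hc _ e.1).symm]
  · rw [a.b2, Qf_b, val0]
  · rw [cm_l a.ZC hx (a.cZ _ hy _ (a.bU i)), p1.2, q1.2, Bf_l, a.val_add]
  · rw [Qf_add, a.val_add, a.val_add, ← p2, ← q2, ← p3 y q q1]
    calc x * y * (x * y) = x * cm y x * (x * (y * y)) := by simp only [cm]; group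
      _ = _ := by rw [← a.ZC _ (a.cZ _ hy _ hx) x hx]; group
  · rw [cm_r a.ZC hx (a.cZ _ e.1 _ hy), p3 w r e, q3 w r e, Bf_r, a.val_add]

theorem of_co {p : V4} (e : Co U b g h x p) (e' : Co U b g h y p) : x⁻¹ * y ∈ Z := by
  refine a.cen _ (mul_mem (inv_mem e.1) e'.1) (a.gen _ (fun c hc => a.ZC c hc _ (mul_mem (inv_mem e.1) e'.1)) (fun i => ?_)
    fun u _ v _ p q => by rw [mul_assoc, q, ← mul_assoc, p, mul_assoc, mul_assoc])
  have k := cm_l a.ZC e.1 (a.cZ _ (mul_mem (inv_mem e.1) e'.1) _ (a.bU i))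
  rw [mul_inv_cancel_left, e.2, e'.2, eq_comm, mul_eq_right] at k
  exact (of_cm k).symm

theorem act_uniq {π π' : Fin 4 → Fin 4} (p : Act Z b s π) (q : Act Z b s π') (i : Fin 4) : π i = π' i := by
  have m : (b (π i))⁻¹ * b (π' i) ∈ Z := by
    convert mul_mem (p i) (inv_mem (q i)) using 1
    group
  refine Bf_inj _ _ fun l => a.val_inj ?_
  have k := cm_l (y := b l) a.ZC (a.bU (π i)) (a.cZ _ (a.ZU m) _ (a.bU l))
  rwa [mul_inv_cancel_left, cm_one (a.ZC _ m _ (a.bU l)), one_mul, a.tab, a.tab, eq_comm] at k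

theorem tv_of (hs : s ∈ 𝐍(Z)) (p : Act Z b s id) : Tv U Z s :=
  a.gen _ (fun c hc => mul_mem (inv_mem hc) (conj_mem_of_mem_normalizer hs hc)) p fun x _ y hy p q => by
    have e : (x * y)⁻¹ * (s * (x * y) * s⁻¹) = y⁻¹ * (x⁻¹ * (s * x * s⁻¹) * y) * (y⁻¹ * (s * y * s⁻¹)) := by group
    rw [e, a.ZC _ p y hy, inv_mul_cancel_left]
    exact mul_mem p q

theorem tv_U (hs : s ∈ U) : Tv U Z s := fun y hy => by
  convert a.cZ _ (inv_mem hy) _ hs using 1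
  simp only [cm]; group

/-- an element of `N(U)` permutes the basis and fixes `g h` -/
theorem nact (hn : n ∈ 𝐍(U)) : n * (g * h) * n⁻¹ = g * h ∧ ∃ π, Act Z b n π ∧ π ∘ sg = sg ∘ π := by
  choose p p1 p2 p3 using fun i => a.ex (conj_mem_of_mem_normalizer hn (a.bU i))
  have q : ∀ i, Qf (p i) = 0 := fun i => a.val_eq (by rw [← p2, conj_mul, a.b2]; group)
  have c : ∀ i j, n * val g h (Bf (bv i) (bv j)) * n⁻¹ = val g h (Bf (p i) (p j)) := fun i j => by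
    rw [← p3 j _ _ (p1 i), cm_cj, a.tab]
  have z : ∀ i j, Bf (bv i) (bv j) = 0 → Bf (p i) (p j) = 0 := fun i j e => a.val_eq (by rw [← c, e, val0]; group)
  have c1 : n * g * n⁻¹ = val g h (Bf (p 0) (p 1)) := by rw [← c, show Bf (bv 0) (bv 1) = (1, 0) from rfl]; simp [val]
  have c2 : n * h * n⁻¹ = val g h (Bf (p 2) (p 3)) := by rw [← c, show Bf (bv 2) (bv 3) = (0, 1) from rfl]; simp [val]
  obtain ⟨e, i, j, e0, e1, e2, e3⟩ := key _ (q 0) _ (q 1) (fun e => a.g1 (by simpa [e, val0] using c1)) _ (q 2)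
    (z 0 2 rfl) (z 1 2 rfl) _ (q 3) (z 0 3 rfl) (z 1 3 rfl) (fun e => a.h1 (by simpa [e, val0] using c2))
    fun e => a.gh (by
      rw [e, ← c2, mul_left_inj, mul_right_inj] at c1
      rw [c1, a.Z2 _ a.hZ])
  refine ⟨by rw [← conj_mul, c1, c2, ← a.val_add, e]; simp [val], ![i, sg i, j, sg j], fun l => ?_, ?_⟩
  · fin_cases l
    exacts [a.of_co (a.co_b _) (e0 ▸ p1 0), a.of_co (a.co_b _) (e1 ▸ p1 1), a.of_co (a.co_b _) (e2 ▸ p1 2),
      a.of_co (a.co_b _) (e3 ▸ p1 3)]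
  · exact sg_c i j

theorem tv_comm (hn : n ∈ 𝐍(U)) (hz : n ∈ 𝐍(Z)) (hs : s ∈ 𝐍(Z)) (p : Act Z b s sg) : Tv U Z ((n * s)⁻¹ * (s * n)) := by
  obtain ⟨-, π, q, e⟩ := a.nact hn
  have q1 := q.mul hz p
  have q2 := p.mul hs q
  rw [e] at q1
  refine a.tv_of (mul_mem (inv_mem (mul_mem hz hs)) (mul_mem hs hz)) fun i => ?_
  convert conj_mem_of_mem_normalizer' (mul_mem hz hs) (mul_mem (inv_mem (q1 i)) (q2 i)) using 1
  simp only [id]; group

end Ab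

end H38.HU
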