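import Mathlib
import Cfsg.Agent.Lib.A6S.HF
import Cfsg.Agent.Lib.A6S.HUa

/-! The action of `N(U)` on `Z0 / ⟨z, g⟩`. -/

set_option autoImplicit false

namespace H25.A6

open Subgroup H69 H36.SW H25.A7 H38.HU

variable {G : Type*} [Group G] [Finite G]

namespace Fr
variable {F : Fr G} {u0 g g' v d1 d2 η η1 η2 κ k a b γ : G}

omit [Finite G] in
theorem HU_cm {x y : G} (hx : x * x = 1) (hy : y * y = 1) : cm x y = x * y * x * y := by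
  rw [cm, inv_eq_of_mul_eq_one_right hx, inv_eq_of_mul_eq_one_right hy]

theorem EN.HU_g (h : F.EN u0 g v d1 d2 η κ) : g ≠ 1 ∧ g * F.z ≠ 1 := by
  have e := h.ek.gt
  refine ⟨fun k => F.z1 (by simpa [k] using e), fun k => F.z1 ?_⟩
  rw [mul_eq_one_iff_eq_inv, inv_eq_of_mul_eq_one_right F.zz] at k
  rw [k, F.zt, mul_assoc, F.zz, mul_one] at e
  simpa using e

theorem EN.HU_ab (h : F.EN u0 g v d1 d2 η κ) (w : d1 * d2 * d1 * d2 = g) :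
    Ab (F.U g v d1 d2) (F.Z0 g v) ![d1, d2, F.v1 * d1, F.v2 * d2] g (g * F.z) := by
  have e := h.ek.toEE
  have ZC : ∀ c ∈ F.Z0 g v, ∀ x ∈ F.U g v d1 d2, c * x = x * c := fun c hc x hx => ((h.ek.Zc hc).2 x hx).symm
  have cZ : ∀ x ∈ F.U g v d1 d2, ∀ y ∈ F.U g v d1 d2, cm x y ∈ F.Z0 g v := fun x hx y hy => h.ek.comm hx hy
  have sy : ∀ {x y : G}, x ∈ F.U g v d1 d2 → y ∈ F.U g v d1 d2 → cm y x = cm x y := fun {x y} hx hy => by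
    rw [cm_sw, inv_eq_of_mul_eq_one_right (e.sqZ0 (cZ _ hx _ hy))]
  have m1 := e.b_d1U
  have m2 := e.b_d2U
  have n1 := e.b_v1U
  have n2 := e.b_v2U
  have m3 := mul_mem n1 m1
  have m4 := mul_mem n2 m2
  have e01 : cm d1 d2 = g := (HU_cm e.d11 e.d22).trans w
  have e02 : cm d1 (F.v1 * d1) = 1 := cm_one (by rw [← mul_assoc, e.d1v])
  have e03 : cm d1 (F.v2 * d2) = 1 := by rw [cm_r ZC n2 (cZ _ m1 _ m2), e01, HU_cm e.d11 F.v22, h.c1, e.gg]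
  have e12 : cm d2 (F.v1 * d1) = 1 := by
    rw [cm_r ZC n1 (cZ _ m2 _ m1), sy m1 m2, e01, HU_cm e.d22 F.v11, h.c2, e.gg]
  have e13 : cm d2 (F.v2 * d2) = 1 := cm_one (by rw [← mul_assoc, e.d2v])
  have e23 : cm (F.v1 * d1) (F.v2 * d2) = g * F.z := by
    rw [cm_l ZC n1 (cZ _ m1 _ m4), e03, one_mul, cm_r ZC n2 (cZ _ n1 _ m2), sy m2 n1, HU_cm e.d22 F.v11, h.c2,
      HU_cm F.v11 F.v22, F.hz, ZC _ e.b_zZ _ (e.b_ZU e.b_gZ)]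
  have e10 := (sy m1 m2).trans e01
  have e20 := (sy m1 m3).trans e02
  have e30 := (sy m1 m4).trans e03
  have e21 := (sy m2 m3).trans e12
  have e31 := (sy m2 m4).trans e13
  have e32 := (sy m3 m4).trans e23
  have ee : ∀ x : G, cm x x = 1 := fun x => cm_one rfl
  refine ⟨cZ, ZC, fun c hc => e.sqZ0 hc, e.b_ZU, fun x hx c => h.cenU.le ⟨hx, c⟩, fun i => ?_, fun i => ?_, e.b_gZ,
    mul_mem e.b_gZ e.b_zZ, h.HU_g.1, h.HU_g.2, by rw [← mul_assoc, e.gg, one_mul]; exact F.z1, fun i j => ?_,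
    fun P p0 p1 p2 x hx => ?_⟩
  · fin_cases i
    exacts [m1, m2, m3, m4]
  · fin_cases i
    exacts [e.d11, e.d22, show F.v1 * d1 * (F.v1 * d1) = 1 by
      rw [mul_assoc, ← mul_assoc d1, e.d1v, mul_assoc, e.d11, mul_one, F.v11], show F.v2 * d2 * (F.v2 * d2) = 1 by
      rw [mul_assoc, ← mul_assoc d2, e.d2v, mul_assoc, e.d22, mul_one, F.v22]]
  · fin_cases i <;> fin_cases j <;> simp [val, Bf, bv, *]
  · obtain ⟨c, hc, a, b, i, j, rfl⟩ := h.ek.memU.1 hx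
    have ml : ∀ {x y : G}, x ∈ F.U g v d1 d2 ∧ P x → y ∈ F.U g v d1 d2 ∧ P y → x * y ∈ F.U g v d1 d2 ∧ P (x * y) :=
      fun p q => ⟨mul_mem p.1 q.1, p2 _ p.1 _ q.1 p.2 q.2⟩
    have pw : ∀ {x : G} (i : Fin 2), x ∈ F.U g v d1 d2 ∧ P x → x ^ (i : ℕ) ∈ F.U g v d1 d2 ∧ P (x ^ (i : ℕ)) := fun i p => by
      fin_cases i
      · simpa using p0 1 (one_mem _)
      · simpa using p
    have q1 := ml ⟨m3, p1 2⟩ ⟨m1, p1 0⟩
    have q2 := ml ⟨m4, p1 3⟩ ⟨m2, p1 1⟩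
    rw [mul_assoc, e.d11, mul_one] at q1
    rw [mul_assoc, e.d22, mul_one] at q2
    exact (ml (ml (ml (ml ⟨e.b_ZU hc, p0 c hc⟩ (pw a q1)) (pw b ⟨m1, p1 0⟩)) (pw i q2)) (pw j ⟨m2, p1 1⟩)).2

theorem EN.HU_κ (h : F.EN u0 g v d1 d2 η κ) : Act (F.Z0 g v) ![d1, d2, F.v1 * d1, F.v2 * d2] κ H38.HU.sg := fun i => by
  fin_cases i
  · show d2⁻¹ * (κ * d1 * κ⁻¹) ∈ _
    rw [h.κd, inv_mul_cancel]; exact one_mem _
  · show d1⁻¹ * (κ * d2 * κ⁻¹) ∈ _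
    rw [h.κd2, inv_mul_cancel]; exact one_mem _
  · show (F.v2 * d2)⁻¹ * (κ * (F.v1 * d1) * κ⁻¹) ∈ _
    rw [← conj_mul, h.κd, h.κv1, inv_mul_cancel]; exact one_mem _
  · show (F.v1 * d1)⁻¹ * (κ * (F.v2 * d2) * κ⁻¹) ∈ _
    rw [← conj_mul, h.κd2, h.κv2, inv_mul_cancel]; exact one_mem _

theorem EN.HU_t (h : F.EN u0 g v d1 d2 η κ) : Act (F.Z0 g v) ![d1, d2, F.v1 * d1, F.v2 * d2] F.t ![2, 3, 0, 1] := fun i => by
  have ti := inv_eq_of_mul_eq_one_right F.tt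
  have e1 : F.t * d1 * F.t⁻¹ = F.v1 * d1 := by rw [ti, ← h.ek.b_td1, inv_mul_cancel_right]
  have e2 : F.t * d2 * F.t⁻¹ = F.v2 * d2 := by rw [ti, ← h.ek.b_td2, inv_mul_cancel_right]
  fin_cases i
  · show (F.v1 * d1)⁻¹ * (F.t * d1 * F.t⁻¹) ∈ _
    rw [e1, inv_mul_cancel]; exact one_mem _
  · show (F.v2 * d2)⁻¹ * (F.t * d2 * F.t⁻¹) ∈ _
    rw [e2, inv_mul_cancel]; exact one_mem _
  · show d1⁻¹ * (F.t * (F.v1 * d1) * F.t⁻¹) ∈ _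
    rw [← conj_mul, e1, F.tv1, mul_inv_cancel_right, ← mul_assoc F.v1, F.v11, one_mul, inv_mul_cancel]; exact one_mem _
  · show d2⁻¹ * (F.t * (F.v2 * d2) * F.t⁻¹) ∈ _
    rw [← conj_mul, e2, F.tv2, mul_inv_cancel_right, ← mul_assoc F.v2, F.v22, one_mul, inv_mul_cancel]; exact one_mem _

omit [Finite G] in
theorem KK.HU_k (q : F.KK g v d1 d2 κ k) : Act (F.Z0 g v) ![d1, d2, F.v1 * d1, F.v2 * d2] k ![1, 0, 2, 3] := fun i => by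
  fin_cases i
  exacts [q.ke, q.kf, q.ke', q.kf']

theorem HU_dec : ∀ i j l : Fin 2, (∀ x : Fin 4, ((((if i = 0 then id else ![2, 3, 0, 1]) ∘ (if j = 0 then id else H38.HU.sg)) ∘
    (if l = 0 then id else ![1, 0, 2, 3])) ∘ id) x = id x) → i = 0 ∧ j = 0 ∧ l = 0 := by decide +kernel

theorem SY.HU_in (h : F.SY u0 g v d1 d2 η κ k) (w : d1 * d2 * d1 * d2 = g) {s : G} (hs : s ∈ F.SK g v d1 d2 κ k)
    (p : Tv (F.U g v d1 d2) (F.Z0 g v) s) : s ∈ F.U g v d1 d2 := by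
  have a := h.toEN.HU_ab w
  have tZ := h.ek.toEE.tN
  rcases h.hk with rfl | q
  · obtain ⟨y, hy, i, j, rfl⟩ := h.toEN.mem2.1 hs
    have k1 := (((h.toEN.HU_t.pw i).mul (pow_mem tZ _) (h.toEN.HU_κ.pw j)).mul (mul_mem (pow_mem tZ _) (pow_mem h.κZ _))
      Act.one).mul (mul_mem (mul_mem (pow_mem tZ _) (pow_mem h.κZ _)) (one_mem _)) (π' := id) fun i => a.tv_U hy _ (a.bU i)
    rw [mul_one] at k1
    obtain ⟨rfl, rfl, -⟩ := HU_dec i j 0 (a.act_uniq k1 (π' := id) fun i => p _ (a.bU i))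
    simpa using hy
  · obtain ⟨y, hy, i, j, l, rfl⟩ := (h.toEN.mem3 q).1 hs
    have k1 := (((h.toEN.HU_t.pw i).mul (pow_mem tZ _) (h.toEN.HU_κ.pw j)).mul (mul_mem (pow_mem tZ _) (pow_mem h.κZ _))
      (q.HU_k.pw l)).mul (mul_mem (mul_mem (pow_mem tZ _) (pow_mem h.κZ _)) (pow_mem q.kZ _)) (π' := id)
      fun i => a.tv_U hy _ (a.bU i)
    obtain ⟨rfl, rfl, rfl⟩ := HU_dec i j l (a.act_uniq k1 (π' := id) fun i => p _ (a.bU i))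
    simpa using hy

theorem EN.HU_κU (h : F.EN u0 g v d1 d2 η κ) : κ ∈ 𝐂(F.Ud g) ∧ κ * F.u1 * κ⁻¹ = F.z * F.u1 := by
  refine ⟨B2.cent_gen ?_, h.κu1.trans (F.u2_eq F.hu1)⟩
  rintro _ (rfl | rfl)
  · refine (B2.comm_of_cj ?_).symm
    rw [← F.hz, ← conj_mul, ← conj_mul, ← conj_mul, h.κv1, h.κv2, F.hz', F.hz]
  · exact h.κg.symm

theorem EN.HU_zg (_ : F.EN u0 g v d1 d2 η κ) : F.z ∈ F.Ud g ∧ g ∈ F.Ud g := ⟨subset_closure (by simp), subset_closure (by simp)⟩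

/-- the action of `κ` on `Z0` -/
theorem EN.HU_ψ (h : F.EN u0 g v d1 d2 η κ) {c : G} (hc : c ∈ F.Ud g) (i j : Fin 2) :
    ∃ r, ((v = 1 ∧ r = 1) ∨ r = g ∨ r = g * F.z) ∧ κ * (c * F.u1 ^ (i : ℕ) * v ^ (j : ℕ)) * κ⁻¹ =
      c * F.u1 ^ (i : ℕ) * v ^ (j : ℕ) * (F.z ^ (i : ℕ) * r ^ (j : ℕ)) := by
  have e := h.ek.toEE
  obtain ⟨r, hr, hl⟩ : ∃ r, ((v = 1 ∧ r = 1) ∨ r = g ∨ r = g * F.z) ∧ κ * v * κ⁻¹ = v * r := by
    rcases e.cs with k | ⟨h0, c⟩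
    · exact ⟨1, .inl ⟨k.2.1, rfl⟩, by simp [k.2.1]⟩
    rcases h.κv c h0 with k | k
    · exact ⟨g, .inr (.inl rfl), k⟩
    · exact ⟨_, .inr (.inr rfl), k.trans (mul_assoc _ _ _)⟩
  have m : r ∈ F.Z0 g v := by
    rcases hr with ⟨-, k⟩ | k | k <;> rw [k]
    exacts [one_mem _, e.b_gZ, mul_mem e.b_gZ e.b_zZ]
  refine ⟨r, hr, ?_⟩
  have c1 : Commute v r := e.b_Zab m _ e.b_vZ
  have c2 : Commute F.u1 F.z := F.zu1.symm
  have c3 : Commute F.z v := e.b_Zab e.b_vZ _ e.b_zZ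
  rw [← conj_mul, ← conj_mul, ← conj_pow, ← conj_pow, hl, h.HU_κU.2, ← h.HU_κU.1 c hc, mul_inv_cancel_right, F.zu1,
    c1.mul_pow, c2.mul_pow, ← mul_assoc c, (c3.pow_pow _ _).mul_mul_mul_comm]

theorem SY.HU_cen (h : F.SY u0 g v d1 d2 η κ k) (w : d1 * d2 * d1 * d2 = g) {n : G} (hn : n ∈ 𝐍(F.U g v d1 d2)) :
    (n * κ)⁻¹ * (κ * n) ∈ 𝐂(F.Z0 g v) := by
  have a := h.toEN.HU_ab w
  have nZ := h.toEN.NZ hn
  have nD := h.toEN.NUd hn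
  have κD := h.toEN.HU_κU.1
  have p := a.tv_comm hn nZ h.κZ h.toEN.HU_κ
  have mN : (n * κ)⁻¹ * (κ * n) ∈ 𝐍(F.U g v d1 d2) := mul_mem (inv_mem (mul_mem hn h.κU)) (mul_mem h.κU hn)
  have mD : (n * κ)⁻¹ * (κ * n) ∈ 𝐂(F.Ud g) := fun x hx => by
    have e1 := κD _ (conj_mem_of_mem_normalizer nD hx)
    calc x * ((n * κ)⁻¹ * (κ * n)) = x * κ⁻¹ * n⁻¹ * κ * n := by group
      _ = κ⁻¹ * n⁻¹ * (n * x * n⁻¹ * κ) * n := by rw [inv_mem κD x hx]; group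
      _ = _ := by rw [e1]; group
  have ψ : ∀ x ∈ F.Z0 g v, x⁻¹ * (κ * x * κ⁻¹) ∈ F.Ud g := fun x hx => by
    obtain ⟨c, hc, i, j, rfl⟩ := h.toEN.memZ.1 hx
    obtain ⟨r, hr, e⟩ := h.toEN.HU_ψ hc i j
    rw [e, inv_mul_cancel_left]
    refine mul_mem (pow_mem h.toEN.HU_zg.1 _) (pow_mem ?_ _)
    rcases hr with ⟨-, k⟩ | k | k <;> rw [k]
    exacts [one_mem _, h.toEN.HU_zg.2, mul_mem h.toEN.HU_zg.2 h.toEN.HU_zg.1]
  have mZ : ∀ x ∈ F.Z0 g v, x⁻¹ * ((n * κ)⁻¹ * (κ * n) * x * ((n * κ)⁻¹ * (κ * n))⁻¹) ∈ F.Ud g := fun x hx => by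
    have κN := centralizer_le_normalizer _ κD
    convert conj_mem_of_mem_normalizer' κN (mul_mem (inv_mem (ψ x hx))
      (conj_mem_of_mem_normalizer' nD (ψ _ (conj_mem_of_mem_normalizer nZ hx)))) using 1
    group
  generalize (n * κ)⁻¹ * (κ * n) = m at p mN mD mZ
  obtain ⟨i, h2, ho⟩ := B2.split m
  obtain ⟨c, hc, e⟩ := (h.syl.mono (h.toEN.isPS h.hk).2 le_top).exists_cj_le h2.zpowers (zpowers_le.2 (pow_mem mN i))
  have m1 := h.HU_in w (e (cj_mem c (mem_zpowers _))) ((p.pow a.ZU i).cj hc (h.toEN.NZ hc))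
  have m2 : m ^ i ∈ F.U g v d1 d2 := by simpa [mul_assoc] using conj_mem_of_mem_normalizer' hc m1
  have m3 := h.ek.toEE.b_UC m2
  have m4 := odd_cent (h.ek.isP.to_le (h.toEN.UdZ.trans a.ZU)) ho (mul_mem (inv_mem (pow_mem mD i)) mD) (P := F.Z0 g v)
    fun x hx => by
      have e := m3 _ (conj_mem_of_mem_normalizer (h.toEN.NZ mN) hx)
      convert mZ x hx using 2
      calc (m ^ i)⁻¹ * m * x * ((m ^ i)⁻¹ * m)⁻¹ = (m ^ i)⁻¹ * (m * x * m⁻¹ * m ^ i) := by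
            rw [mul_inv_rev, inv_inv]; simp only [mul_assoc]
        _ = _ := by rw [e, inv_mul_cancel_left]
  simpa using mul_mem m3 m4

theorem SY.fixu (h : F.SY u0 g v d1 d2 η κ k) (w : d1 * d2 * d1 * d2 = g) {n : G} (hn : n ∈ 𝐍(F.U g v d1 d2)) : F.u1 * (n * F.u1 * n⁻¹) ∈ F.Ud g := by
  have E := h.ek.toEE
  have nz := ((h.toEN.HU_ab w).nact hn).1
  rw [← mul_assoc g, E.gg, one_mul] at nz
  have e1 := h.HU_cen w hn _ E.b_uZ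
  have e2 : κ * (n * F.u1 * n⁻¹) * κ⁻¹ = n * F.u1 * n⁻¹ * F.z :=
    calc κ * (n * F.u1 * n⁻¹) * κ⁻¹ = n * κ * ((n * κ)⁻¹ * (κ * n) * F.u1) * (κ * n)⁻¹ := by group
      _ = n * (κ * F.u1 * κ⁻¹) * n⁻¹ := by rw [← e1]; group
      _ = _ := by rw [h.toEN.HU_κU.2, F.zu1, ← conj_mul, nz]
  obtain ⟨c, hc, i, j, e⟩ := h.toEN.memZ.1 (conj_mem_of_mem_normalizer (h.toEN.NZ hn) E.b_uZ)
  obtain ⟨r, hr, e3⟩ := h.toEN.HU_ψ hc i j
  rw [← e, e2, mul_right_inj] at e3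
  have fin : ∀ i : Fin 2, F.z = F.z ^ (i : ℕ) → F.u1 * (c * F.u1 ^ (i : ℕ)) ∈ F.Ud g := fun i e => by
    fin_cases i
    · exact (F.z1 (by simpa using e)).elim
    · rwa [E.b_Zab (pow_mem E.b_uZ _) _ (h.toEN.UdZ hc), ← mul_assoc, show F.u1 * F.u1 ^ (((fun i => i) ⟨1, by decide⟩ : Fin 2) : ℕ) = 1 by
        simpa using F.u11, one_mul]
  rw [e]
  fin_cases j
  · simpa using fin i (by simpa using e3)
  have g1 := h.toEN.HU_g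
  have g2 : g ≠ F.z := fun k => g1.2 (by rw [k, F.zz])
  rcases hr with ⟨v1, k⟩ | k | k
  · simpa [v1] using fin i (by simpa [k] using e3)
  · fin_cases i
    · exact (g2 (by simpa [k] using e3.symm)).elim
    · exact (g1.1 (by simpa [k] using e3)).elim
  · fin_cases i
    · exact (g1.1 (by simpa [k] using e3)).elim
    · exact (g1.2 (by simpa [k] using e3)).elim

theorem SY.cju (h : F.SY u0 g v d1 d2 η κ k) (w : d1 * d2 * d1 * d2 = g) {s : G} (e : s * F.u1 * s⁻¹ ∈ F.Z0 g v) : F.u1 * (s * F.u1 * s⁻¹) ∈ F.Ud g := by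
  obtain ⟨n, hn, e'⟩ := h.burn h.ek.toEE.b_uZ e rfl
  exact e' ▸ h.fixu w hn

theorem SY.fixv (h : F.SY u0 g v d1 d2 η κ k) (w : d1 * d2 * d1 * d2 = g) {n : G} (hn : n ∈ 𝐍(F.U g v d1 d2)) :
    v * (n * v * n⁻¹) ∈ F.Ud g ⊔ zpowers F.u1 := by
  have E := h.ek.toEE
  obtain ⟨c, hc, i, j, e⟩ := h.toEN.memZ.1 (conj_mem_of_mem_normalizer (h.toEN.NZ hn) E.b_vZ)
  by_cases v1 : v = 1
  · simp [v1]
  fin_cases j
  · exfalso
    have nD := h.toEN.NUd (inv_mem hn)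
    have c1 := conj_mem_of_mem_normalizer nD hc
    have c2 := h.fixu w (inv_mem hn)
    have e' : v = n⁻¹ * c * n⁻¹⁻¹ * (n⁻¹ * F.u1 * n⁻¹⁻¹) ^ (i : ℕ) := by
      rw [conj_pow, conj_mul, show c * F.u1 ^ (i : ℕ) = n * v * n⁻¹ by simpa using e.symm]; group
    refine (h.toEN.indZ (i := i) (j := 1) (h.toEN.UdU0 ?_)).2.elim (by decide) v1
    fin_cases i
    · simpa [e'] using c1
    · have := mul_mem c1 c2
      rw [← mul_assoc, E.b_Zab E.b_uZ _ (h.toEN.UdZ c1), mul_assoc] at this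
      simpa [e'] using this
  · have : v * (n * v * n⁻¹) = c * F.u1 ^ (i : ℕ) := by
      rw [e, E.b_Zab (h.toEN.memZ.2 ⟨c, hc, i, _, rfl⟩) _ E.b_vZ]
      simp [mul_assoc, E.vv]
    rw [this]
    exact mul_mem (mem_sup_left hc) (mem_sup_right (pow_mem (mem_zpowers _) _))

end Fr

end H25.A6
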