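import Mathlib
import Cfsg.Agent.Lib.A6S.HT
import Cfsg.Agent.Lib.A6S.HU
import Cfsg.Agent.Lib.A6S.HN

/-! End of `SZ`, type `EE`. -/

set_option autoImplicit false

namespace H25.A6

open Subgroup H69 H36.SW H25.A7

variable {G : Type*} [Group G] [Finite G]

namespace Fr
variable {F : Fr G} {u0 g g' v d1 d2 η η1 η2 κ k a b γ : G}

theorem EN.HZ_z (h : F.EN u0 g v d1 d2 η κ) : κ * F.z * κ⁻¹ = F.z := by
  have e : κ * (F.v1 * F.v2 * F.v1 * F.v2) * κ⁻¹ = κ * F.v1 * κ⁻¹ * (κ * F.v2 * κ⁻¹) *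
      (κ * F.v1 * κ⁻¹) * (κ * F.v2 * κ⁻¹) := by group
  rw [F.hz, h.κv1, h.κv2, F.hz'] at e
  exact e

theorem EN.HZ_Ud (h : F.EN u0 g v d1 d2 η κ) {c : G} (hc : c ∈ F.Ud g) : κ * c * κ⁻¹ = c := by
  have : κ ∈ 𝐂(F.Ud g) := B2.cent_gen (by
    rintro x (rfl | rfl)
    · exact (B2.comm_of_cj h.HZ_z).symm
    · exact h.κg.symm)
  exact B2.cj_of_comm (this c hc).symm

theorem HZ_zUd (F : Fr G) (g : G) : F.z ∈ F.Ud g := subset_closure (by simp)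

theorem HZ_gUd (F : Fr G) (g : G) : g ∈ F.Ud g := subset_closure (by simp)

theorem EN.HZ_uU0 (h : F.EN u0 g 1 d1 d2 η κ) : F.u1 ∉ F.UO d1 d2 := fun e => by
  have := (h.indZ (i := 1) (j := 0) (by simpa using e)).1
  exact absurd this (by decide)

theorem EN.HZ_κκ (h : F.EN u0 g v d1 d2 η κ) (d : F.dl = 1) : κ * κ ∈ F.Ud g := by
  rcases h.sq with e | ⟨-, e | e⟩
  · exact absurd d e.1
  · rw [e]; exact F.HZ_gUd g
  · rw [e]; exact mul_mem (F.HZ_gUd g) (F.HZ_zUd g)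

theorem EN.HZ_κt (h : F.EN u0 g v d1 d2 η κ) (d : F.dl = 1) : κ * F.t * κ⁻¹ = F.t * F.u2 := by
  rcases h.kd with e | e
  · exact absurd d e.1
  · exact e.2.2

theorem EN.HZ_x2 (h : F.EN u0 g v d1 d2 η κ) (d : F.dl = 1) :
    F.t * κ * (F.t * κ) = F.u1 * (F.z * (κ * κ)) := by
  have e : F.t * κ * (F.t * κ) = F.t * (κ * F.t * κ⁻¹) * (κ * κ) := by group
  rw [e, h.HZ_κt d, F.b2_tt, F.u2_eq F.hu1, F.zu1, mul_assoc]

theorem EN.HZ_memU (h : F.EN u0 g 1 d1 d2 η κ) {y : G} (hy : y ∈ F.U g 1 d1 d2) :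
    y ∈ F.UO d1 d2 ∨ y * F.u1 ∈ F.UO d1 d2 := by
  obtain ⟨y0, h0, i, j, rfl⟩ := h.memU.1 hy
  fin_cases i
  · left; simpa using h0
  · right; simpa [mul_assoc, F.u11] using h0

/-- there is no involution in `t κ U` -/
theorem EN.HZ_noinv (h : F.EN u0 g 1 d1 d2 η κ) (d : F.dl = 1) {y : G} (hy : y ∈ F.U g 1 d1 d2) :
    F.t * κ * y * (F.t * κ * y) ≠ 1 := by
  intro e
  have hn : F.t * κ ∈ 𝐍(F.UO d1 d2) := mul_mem h.tU0 h.κU0
  have hc : F.z * (κ * κ) ∈ F.UO d1 d2 := h.UdU0 (mul_mem (F.HZ_zUd g) (h.HZ_κκ d))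
  have e1 : F.t * κ * y * (F.t * κ * y) =
      F.t * κ * (F.t * κ) * ((F.t * κ)⁻¹ * y * (F.t * κ)⁻¹⁻¹ * y) := by group
  have key : (F.t * κ)⁻¹ * y * (F.t * κ)⁻¹⁻¹ * y ∈ F.UO d1 d2 := by
    rcases h.HZ_memU hy with h0 | h0
    · exact mul_mem ((mem_normalizer_iff.1 (inv_mem hn) y).1 h0) h0
    · have h1 := (mem_normalizer_iff.1 (inv_mem hn) _).1 h0
      have uy : F.u1 * y = y * F.u1 := h.ek.toEE.b_UC hy F.u1 h.ek.toEE.b_uZ
      have e2 : (F.t * κ)⁻¹ * F.u2 * (F.t * κ)⁻¹⁻¹ = F.u1 := by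
        have : F.t * κ * F.u1 * (F.t * κ)⁻¹ = F.u2 := by
          have e3 : F.t * κ * F.u1 * (F.t * κ)⁻¹ = F.t * (κ * F.u1 * κ⁻¹) * F.t⁻¹ := by group
          rw [e3, h.κu1, F.tu2, mul_inv_cancel_right]
        rw [← this]; group
      have hz : (F.t * κ)⁻¹ * F.z * (F.t * κ)⁻¹⁻¹ ∈ F.UO d1 d2 :=
        (mem_normalizer_iff.1 (inv_mem hn) _).1 (h.UdU0 (F.HZ_zUd g))
      have e4 : (F.t * κ)⁻¹ * y * (F.t * κ)⁻¹⁻¹ * y = (F.t * κ)⁻¹ * (y * F.u1) * (F.t * κ)⁻¹⁻¹ *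
          ((F.t * κ)⁻¹ * F.z * (F.t * κ)⁻¹⁻¹) * (y * F.u1) := by
        have e5 : F.u1 * F.z * F.u2 = 1 := by
          rw [F.u2_eq F.hu1, mul_assoc, F.b2_zz, F.u11]
        calc (F.t * κ)⁻¹ * y * (F.t * κ)⁻¹⁻¹ * y
            = (F.t * κ)⁻¹ * (y * (F.u1 * F.z * F.u2)) * (F.t * κ)⁻¹⁻¹ * (y * (F.u1 * F.u1)) := by
              rw [e5, F.u11, mul_one]
          _ = (F.t * κ)⁻¹ * (y * F.u1) * (F.t * κ)⁻¹⁻¹ * ((F.t * κ)⁻¹ * F.z * (F.t * κ)⁻¹⁻¹) *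
              ((F.t * κ)⁻¹ * F.u2 * (F.t * κ)⁻¹⁻¹ * y * F.u1 * F.u1) := by group
          _ = _ := by rw [e2, uy, mul_assoc (y * F.u1), F.u11, mul_one]
      rw [e4]
      exact mul_mem (mul_mem h1 hz) h0
  rw [e1, h.HZ_x2 d, mul_assoc, mul_eq_one_iff_eq_inv] at e
  exact h.HZ_uU0 (e ▸ inv_mem (mul_mem hc key))

theorem EN.HZ_mem (h : F.EN u0 g v d1 d2 η κ) {s : G} (hs : s ∈ F.SK g v d1 d2 κ 1) :
    ∃ y ∈ F.U g v d1 d2, s = y ∨ s = κ * y ∨ s = F.t * y ∨ s = F.t * κ * y := by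
  obtain ⟨y, hy, i, j, rfl⟩ := h.mem2.1 hs
  refine ⟨y, hy, ?_⟩
  fin_cases i <;> fin_cases j <;> simp

theorem EN.HZ_κU (h : F.EN u0 g v d1 d2 η κ) : κ ∉ F.U g v d1 d2 := fun e => by
  have := (h.ind2 (i := 0) (j := 1) (by simpa using e)).2
  exact absurd this (by decide)

theorem EN.HZ_tκU (h : F.EN u0 g v d1 d2 η κ) : F.t * κ ∉ F.U g v d1 d2 := fun e => by
  have := (h.ind2 (i := 1) (j := 1) (by simpa using e)).2
  exact absurd this (by decide)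

theorem HZ_US (F : Fr G) : F.U g v d1 d2 ≤ F.SK g v d1 d2 κ k := le_sup_left

theorem HZ_tS (F : Fr G) : F.t ∈ F.SK g v d1 d2 κ k := mem_sup_right (subset_closure (by simp))

theorem HZ_κS (F : Fr G) : κ ∈ F.SK g v d1 d2 κ k := mem_sup_right (subset_closure (by simp))

theorem SY.HZ_tE (h : F.SY 1 g 1 d1 d2 η κ 1) (d : F.dl = 1) : F.t ∉ F.E := by
  have hN := h.toEN
  have hK := h.ek
  have κκU : κ * κ ∈ F.U g 1 d1 d2 := hN.U0U (hN.UdU0 (hN.HZ_κκ d))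
  have memM : ∀ s, s ∈ F.U g 1 d1 d2 ⊔ zpowers κ ↔ s ∈ F.U g 1 d1 d2 ∨ s * κ⁻¹ ∈ F.U g 1 d1 d2 :=
    fun s => mem_adj h.κU κκU
  have cjU : ∀ {n y : G}, n ∈ 𝐍(F.U g 1 d1 d2) → y ∈ F.U g 1 d1 d2 → n * y * n⁻¹ ∈ F.U g 1 d1 d2 :=
    fun hn hy => (mem_normalizer_iff.1 hn _).1 hy
  have hUM : F.U g 1 d1 d2 ≤ F.U g 1 d1 d2 ⊔ zpowers κ := le_sup_left
  have hκM : κ ∈ F.U g 1 d1 d2 ⊔ zpowers κ := mem_sup_right (mem_zpowers κ)
  have hu2 : F.u2 ∈ F.U g 1 d1 d2 := by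
    rw [F.u2_eq F.hu1]; exact hK.toEE.b_ZU (mul_mem hK.toEE.b_zZ hK.toEE.b_uZ)
  refine (F.trG (S := F.SK g 1 d1 d2 κ 1) (M := F.U g 1 d1 d2 ⊔ zpowers κ) (P := F.W1) h.syl
    (sup_le F.HZ_US (zpowers_le.2 F.HZ_κS)) F.HZ_tS ?_ ?_ (F.isPT.to_le F.W1T) F.b2_tW
    (F.W1T.trans F.TC) ?_ ?_).2
  · intro e
    rcases (memM _).1 e with e | e
    · exact hK.tU e
    · refine hN.HZ_tκU ?_
      have := mul_mem e κκU
      rwa [show F.t * κ⁻¹ * (κ * κ) = F.t * κ by group] at this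
  · intro s hs
    obtain ⟨y, hy, rfl | rfl | rfl | rfl⟩ := hN.HZ_mem hs
    · exact Or.inl (hUM hy)
    · exact Or.inl (mul_mem hκM (hUM hy))
    · right
      have := cjU hK.tN hy
      rw [EB.inv_self F.tt] at this
      exact hUM this
    · right
      have e : F.t * κ * y * F.t = F.t * κ * y * (F.t * κ)⁻¹ * (F.t * (κ * F.t * κ⁻¹)) * κ := by group
      rw [e, hN.HZ_κt d, F.b2_tt]
      exact mul_mem (hUM (mul_mem (cjU (mul_mem hK.tN h.κU) hy) hu2)) hκM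
  · intro y hy e
    obtain ⟨s, hs⟩ : ∃ s, s = y * F.t * y⁻¹ := ⟨_, rfl⟩
    rw [← hs] at e
    have os : F.Om s := ⟨y, hs.symm⟩
    have sX : s ∈ F.W1 ^ᶜ y := hs ▸ mem_map_of_mem _ F.b2_tW
    have sq : ∀ x ∈ F.W1 ^ᶜ y, x * x = 1 := by
      rintro _ ⟨x, hx, rfl⟩
      rw [← map_mul, F.sqW1 hx, map_one]
    have cm : ∀ x ∈ F.W1 ^ᶜ y, s * x = x * s := fun x hx =>
      EB.comm_of_sq (sq s sX) (sq x hx) (sq _ (mul_mem sX hx))
    rcases (memM _).1 e with e | e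
    · exact hK.nOm e os
    obtain ⟨y', hy', es⟩ : ∃ y' ∈ F.U g 1 d1 d2, s = κ * y' :=
      ⟨κ⁻¹ * (s * κ⁻¹) * κ⁻¹⁻¹, cjU (inv_mem h.κU) e, by group⟩
    have inUd : ∀ x ∈ F.W1 ^ᶜ y, x ∈ F.U g 1 d1 d2 → x ∈ F.Ud g := by
      intro x hx hU
      have c := cm x hx
      rw [es] at c
      have e1 : κ * (y' * x * y'⁻¹) * κ⁻¹ = x := by
        rw [show κ * (y' * x * y'⁻¹) * κ⁻¹ = κ * y' * x * (κ * y')⁻¹ by group, c, mul_inv_cancel_right]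
      have hc := hN.comm (inv_mem hU) hy'
      have hZ : x ∈ F.Z0 g 1 := by
        refine hN.fixκ hU (sq x hx) ?_
        have e2 : x⁻¹ * (κ * x * κ⁻¹) = (κ * (x⁻¹ * y' * x⁻¹⁻¹ * y'⁻¹) * κ⁻¹)⁻¹ := by
          calc x⁻¹ * (κ * x * κ⁻¹) = (κ * (y' * x * y'⁻¹) * κ⁻¹)⁻¹ * (κ * x * κ⁻¹) := by rw [e1]
            _ = _ := by group
        rw [e2, hN.HZ_Ud hc]
        exact inv_mem (hN.UdZ hc)
      have c2 : x * y' = y' * x := hK.toEE.b_UC hy' x hZ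
      rw [← c2, mul_inv_cancel_right] at e1
      obtain ⟨c0, h0, i, j, rfl⟩ := hN.memZ.1 hZ
      fin_cases i
      · simpa using h0
      · exfalso
        simp only [Fin.mk_one, Fin.isValue, Fin.val_one, pow_one, one_pow, mul_one] at e1
        rw [B2.cj_mul, hN.HZ_Ud h0, h.κu1, mul_right_inj] at e1
        exact F.u12ne e1.symm
    have sn : s ∈ 𝐍(F.Ud g) := hN.NUd (es ▸ mul_mem h.κU (le_normalizer hy'))
    have s2 : s * s ∈ F.Ud g := by rw [sq s sX]; exact one_mem _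
    have hle : F.W1 ^ᶜ y ≤ F.Ud g ⊔ zpowers s := by
      intro x hx
      refine (mem_adj sn s2).2 ?_
      obtain ⟨y2, hy2, e2 | e2 | e2 | e2⟩ := hN.HZ_mem (hy hx)
      · exact Or.inl (inUd x hx (e2 ▸ hy2))
      · refine Or.inr (inUd _ (mul_mem hx (inv_mem sX)) ?_)
        rw [e2, es, show κ * y2 * (κ * y')⁻¹ = κ * (y2 * y'⁻¹) * κ⁻¹ by group]
        exact cjU h.κU (mul_mem hy2 (inv_mem hy'))
      · exfalso
        refine hN.HZ_noinv d (y := κ⁻¹ * y2 * κ⁻¹⁻¹ * y')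
          (mul_mem (cjU (inv_mem h.κU) hy2) hy') ?_
        rw [show F.t * κ * (κ⁻¹ * y2 * κ⁻¹⁻¹ * y') = F.t * y2 * (κ * y') by group, ← e2, ← es]
        exact sq _ (mul_mem hx sX)
      · exact absurd (e2 ▸ sq x hx) (hN.HZ_noinv d hy2)
    have c1 := card_le_of_le hle
    rw [card_cj, F.card16, card_adj sn s2 (fun e' => hK.nOm (hN.U0U (hN.UdU0 e')) os), hN.cardUd] at c1
    omega
  · intro y m _
    rw [F.tt, one_pow, mul_one, mul_inv_cancel]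
    exact one_mem _

theorem SY.sz (h : F.SY 1 g v d1 d2 η κ k) (w : d1 * d2 * d1 * d2 = g) (d : F.dl = 1) : False := by
  have hk : k = 1 := h.hk.resolve_right fun q => q.d d
  have hv : v = 1 := by
    rcases h.ek.cs with e | e
    · exact e.2.1
    · exact absurd e.1.symm F.hu1
  subst hk hv
  have hN := h.toEN
  have hK := h.ek
  have tE := h.HZ_tE d
  have cjU : ∀ {n y : G}, n ∈ 𝐍(F.U g 1 d1 d2) → y ∈ F.U g 1 d1 d2 → n * y * n⁻¹ ∈ F.U g 1 d1 d2 :=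
    fun hn hy => (mem_normalizer_iff.1 hn _).1 hy
  have u2E : F.u2 ∈ F.E := by
    have := F.comm_mem κ F.t
    rwa [hN.HZ_κt d, F.tu2, mul_inv_cancel_right] at this
  have u1E : F.u1 ∈ F.E := by
    have := mul_mem F.zE u2E
    rwa [F.u2_eq F.hu1, F.b2_zz] at this
  have UE : F.U g 1 d1 d2 ≤ F.E := by
    refine hK.toEE.b_U_le ((closure_le _).2 ?_) F.v1E hK.d1E F.v2E hK.d2E
    rintro x (rfl | rfl | rfl | rfl)
    exacts [F.zE, u1E, hK.gE, one_mem _]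
  have uU : F.u1 ∈ F.U g 1 d1 d2 := hK.toEE.b_ZU hK.toEE.b_uZ
  have hUS : F.U g 1 d1 d2 ≤ F.SK g 1 d1 d2 κ 1 ⊓ F.E := le_inf F.HZ_US UE
  have nE : ∀ {a y : G}, a ∉ F.E → y ∈ F.U g 1 d1 d2 → a * y ∉ F.E := fun ha hy e =>
    ha ((mul_mem_cancel_right (UE hy)).1 e)
  by_cases κE : κ ∈ F.E
  · have κκ : κ * κ ∈ F.UO d1 d2 := hN.UdU0 (hN.HZ_κκ d)
    have h0M : F.UO d1 d2 ≤ F.UO d1 d2 ⊔ zpowers κ := le_sup_left
    have hκM : κ ∈ F.UO d1 d2 ⊔ zpowers κ := mem_sup_right (mem_zpowers κ)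
    have uM : F.u1 ∉ F.UO d1 d2 ⊔ zpowers κ := fun e => by
      rcases (mem_adj hN.κU0 κκ).1 e with e | e
      · exact hN.HZ_uU0 e
      · exact hN.HZ_κU (inv_mem_iff.1 ((mul_mem_cancel_left uU).1 (hN.U0U e)))
    refine F.trE (S := F.SK g 1 d1 d2 κ 1 ⊓ F.E) (M := F.UO d1 d2 ⊔ zpowers κ)
      (P := F.U g 1 d1 d2) (F.sylE h.syl) (sup_le (hN.U0U.trans hUS) (zpowers_le.2 ⟨F.HZ_κS, κE⟩))
      (hUS uU) uM ?_ hK.isP UE uU ?_ ?_ ?_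
    · intro s hs
      obtain ⟨y, hy, rfl | rfl | rfl | rfl⟩ := hN.HZ_mem hs.1
      · exact (hN.HZ_memU hy).imp (@h0M _) (@h0M _)
      · refine (hN.HZ_memU hy).imp (fun e => mul_mem hκM (h0M e)) fun e => ?_
        rw [mul_assoc]; exact mul_mem hκM (h0M e)
      · exact absurd hs.2 (nE tE hy)
      · exact absurd hs.2 (nE (fun e => tE ((mul_mem_cancel_right κE).1 e)) hy)
    · intro y hy
      rw [mem_centralizer_singleton_iff]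
      exact (hK.toEE.b_UC hy F.u1 hK.toEE.b_uZ).symm
    · intro y _ hy e
      have := h.fixu w (hK.wcN h.wc (hy.trans inf_le_left))
      exact uM ((mul_mem_cancel_right e).1 (h0M (hN.UdU0 this)))
    · intro y _ m _
      rw [F.u11, one_pow, mul_one, mul_inv_cancel]
      exact one_mem _
  · have xE : F.t * κ ∈ F.E := by
      have := F.En.conj_mem _ ((F.top κ).resolve_left κE) F.t
      rwa [show F.t * (κ * F.t) * F.t⁻¹ = F.t * κ by group] at this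
    have xS : F.t * κ ∈ F.SK g 1 d1 d2 κ 1 := mul_mem F.HZ_tS F.HZ_κS
    have xn : F.t * κ ∈ 𝐍(F.U g 1 d1 d2) := mul_mem hK.tN h.κU
    have cUd : F.z * (κ * κ) ∈ F.Ud g := mul_mem (F.HZ_zUd g) (hN.HZ_κκ d)
    have x2Z : F.t * κ * (F.t * κ) ∈ F.Z0 g 1 := by
      rw [hN.HZ_x2 d]; exact mul_mem hK.toEE.b_uZ (hN.UdZ cUd)
    refine F.trE (S := F.SK g 1 d1 d2 κ 1 ⊓ F.E) (M := F.U g 1 d1 d2) (P := zpowers (F.t * κ))
      (F.sylE h.syl) hUS ⟨xS, xE⟩ hN.HZ_tκU ?_ (h.syl.isP.to_le (zpowers_le.2 xS))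
      (zpowers_le.2 xE) (mem_zpowers _) (zpowers_le.2 (mem_centralizer_singleton_iff.2 rfl)) ?_ ?_
    · intro s hs
      obtain ⟨y, hy, rfl | rfl | rfl | rfl⟩ := hN.HZ_mem hs.1
      · exact Or.inl hy
      · exact absurd hs.2 (nE κE hy)
      · exact absurd hs.2 (nE tE hy)
      · right
        rw [show F.t * κ * y * (F.t * κ) = F.t * κ * y * (F.t * κ)⁻¹ * (F.t * κ * (F.t * κ)) by group]
        exact mul_mem (cjU xn hy) (hK.toEE.b_ZU x2Z)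
    · intro y _ _ e
      have h2 := hN.sqU e
      rw [← B2.cj_mul] at h2
      have h3 := h.nUd x2Z h2
      rw [hN.HZ_x2 d] at h3
      exact hN.HZ_uU0 (hN.UdU0 ((mul_mem_cancel_right cUd).1 h3))
    · intro y _ m hs
      have s2 : y * (F.t * κ * (F.t * κ)) ^ m * y⁻¹ * (y * (F.t * κ * (F.t * κ)) ^ m * y⁻¹) = 1 := by
        rw [← B2.cj_mul, hK.toEE.sqZ0 (pow_mem x2Z m), mul_one, mul_inv_cancel]
      obtain ⟨y2, hy2, e2 | e2 | e2 | e2⟩ := hN.HZ_mem hs.1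
      · exact e2 ▸ hy2
      · exact absurd (e2 ▸ hs.2) (nE κE hy2)
      · exact absurd (e2 ▸ hs.2) (nE tE hy2)
      · exact absurd (e2 ▸ s2) (hN.HZ_noinv d hy2)

end Fr

end H25.A6
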