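import Mathlib
import Cfsg.Agent.Lib.A6S.Y8
import Cfsg.Agent.Lib.A6S.HT

/-! End of `IIa`, type `ZZ`. -/

set_option autoImplicit false

namespace H25.A6

open Subgroup H69 H36.SW H25.A7

variable {G : Type*} [Group G] [Finite G]

namespace Fr
variable {F : Fr G} {u0 g g' v d1 d2 η η1 η2 κ k a b γ : G}

omit [Finite G] in
theorem y9_t (A : Subgroup G) : F.t ∈ A ⊔ closure {F.t, F.v2} := mem_sup_right (subset_closure (by simp))

omit [Finite G] in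
theorem y9_v (A : Subgroup G) : F.v2 ∈ A ⊔ closure {F.t, F.v2} := mem_sup_right (subset_closure (by simp))

theorem ZZ.y9_cen (h : F.ZZ 1 g g' 1 1 d1 d2 η1 η2) : F.R g 1 d1 ⊔ closure {F.t, F.v2} ≤ centralizer {F.u1} :=
  sup_le (fun _ hx => mem_centralizer_singleton_iff.2 (h.zac hx (h.XR F.b2_uX))) ((closure_le _).2 (by
    rintro _ (rfl | rfl)
    exacts [mem_centralizer_singleton_iff.2 F.tu1, mem_centralizer_singleton_iff.2 F.u1v2.symm]))

theorem ZZ.y9_sq (h : F.ZZ 1 g g' 1 1 d1 d2 η1 η2) {x : G} (hx : x ∈ F.R g 1 d1 ⊔ closure {F.t, F.v2}) :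
    x * x ∈ F.R g 1 d1 := by
  obtain ⟨e, he, i, j, rfl⟩ := h.memS.1 hx
  have n : F.t ^ (i : ℕ) * F.v2 ^ (j : ℕ) ∈ 𝐍(F.R g 1 d1) := mul_mem (pow_mem h.zatN _) (pow_mem h.v2N _)
  have s : F.t ^ (i : ℕ) * F.v2 ^ (j : ℕ) * (F.t ^ (i : ℕ) * F.v2 ^ (j : ℕ)) = 1 := by
    rw [ZA.mm (Commute.pow_pow F.tv2 _ _), ZA.sq2 F.tt, ZA.sq2 F.v22, one_pow, one_pow, one_mul]
  have := mul_mem (conj_mem_of_mem_normalizer n he) he
  rwa [inv_eq_of_mul_eq_one_right s, mul_assoc _ _ e] at this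

/-- an element `t^i v2 e` commuting with `w ∈ X1` -/
theorem ZZ.y9_v2 (h : F.ZZ 1 g g' 1 1 d1 d2 η1 η2) {e w : G} (he : e ∈ F.R g 1 d1) (hw : w ∈ F.X1) {i : ℕ}
    (c : F.t ^ i * F.v2 * e * w = w * (F.t ^ i * F.v2 * e)) : w * F.v2 = F.v2 * w := by
  have c1 : Commute w (F.t ^ i) := Commute.pow_right (ZD.tX F w hw) i
  rw [mul_assoc _ e, h.zac he (h.XR hw), ← mul_assoc, ← mul_assoc, ← mul_assoc, c1.eq, mul_left_inj, mul_assoc,
    mul_assoc, mul_right_inj] at c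
  exact c.symm

theorem ZZ.y9_R (h : F.ZZ 1 g g' 1 1 d1 d2 η1 η2) {n : G}
    (hn : n ∈ 𝐍((F.R g 1 d1 ⊔ closure {F.t, F.v2} : Subgroup G))) (hu : n * F.u1 = F.u1 * n) :
    n ∈ 𝐍(F.R g 1 d1) := by
  have cj : ∀ {x}, x ∈ F.R g 1 d1 → n * x * n⁻¹ ∈ F.R g 1 d1 ⊔ closure {F.t, F.v2} := fun hx =>
    conj_mem_of_mem_normalizer hn (mem_sup_left hx)
  have nu : ∀ w ∈ F.V1, n * w * n⁻¹ ≠ F.u1 := fun w hw e =>
    F.b2_uV F.hu1 (B2.cj_inj' (e.trans (B2.cj_of_comm hu).symm) ▸ hw)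
  have key : ∀ x ∈ F.R g 1 d1, x * x ≠ 1 → n * x * n⁻¹ ∈ F.R g 1 d1 := fun x hx x2 => by
    obtain ⟨e, he, i, j, ex⟩ := h.memS.1 (cj hx)
    fin_cases j
    · fin_cases i
      · simpa [ex] using he
      · refine absurd (conj_eq_one_iff.1 (?_ : n * (x * x) * n⁻¹ = 1)) x2
        rw [B2.cj_mul, ex]
        simp only [pow_zero, pow_one, mul_one]
        rw [← mul_assoc, h.inv he, inv_mul_cancel]
    have f : ∀ y ∈ F.R g 1 d1, n * (y * y) * n⁻¹ ∈ F.F0 := fun y hy => by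
      have w1 : n * (y * y) * n⁻¹ ∈ F.R g 1 d1 := B2.cj_mul n y y ▸ h.y9_sq (cj hy)
      have w2 : n * (y * y) * n⁻¹ * (n * (y * y) * n⁻¹) = 1 := by
        rw [← B2.cj_mul, F.sqW1 (F.X1W1 (h.sq hy).1), mul_one, mul_inv_cancel]
      have c := B2.comm_cj n (h.zac hx (mul_mem hy hy))
      rw [ex] at c
      simp only [pow_one] at c
      exact h.zasM ((h.cv2 w1).1 (h.y9_v2 he ((h.sq w1).2.1 w2) c)) w2
    have f1 := f g h.zaG
    have f2 := f d1 h.zad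
    rw [h.gg] at f1
    rw [h.d11] at f2
    have n3 := nu _ (mul_mem F.b2_zV F.b2_vV)
    rw [B2.cj_mul] at n3
    exfalso
    have k : ∀ w ∈ F.V1, w ≠ 1 → n * w * n⁻¹ ∈ F.F0 → n * w * n⁻¹ = F.z ∨ n * w * n⁻¹ = F.z * F.u1 :=
      fun w hw w1 f => ((F.memF0.1 f).resolve_left fun e => w1 (conj_eq_one_iff.1 e)).imp_right
        fun e => e.resolve_left (nu w hw)
    rcases k _ F.b2_zV F.z1 f1 with e1 | e1 <;> rcases k _ F.b2_vV F.b2_v1 f2 with e2 | e2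
    · exact F.b2_vz (B2.cj_inj' (e2.trans e1.symm))
    · exact n3 (by rw [e1, e2, F.b2_zz])
    · exact n3 (by rw [e1, e2, mul_assoc, ← F.zu1, F.b2_zz])
    · exact F.b2_vz (B2.cj_inj' (e2.trans e1.symm))
  refine B2.norm_gen ?_
  rintro _ (rfl | rfl | rfl | rfl)
  · exact key _ h.zaG (h.gg ▸ F.z1)
  · exact key _ h.zad (h.d11 ▸ F.b2_v1)
  · simp
  · rw [B2.cj_of_comm hu]; exact h.XR F.b2_uX

theorem ZZ.y9_z (h : F.ZZ 1 g g' 1 1 d1 d2 η1 η2) {n : G}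
    (hn : n ∈ 𝐍((F.R g 1 d1 ⊔ closure {F.t, F.v2} : Subgroup G))) (hR : n ∈ 𝐍(F.R g 1 d1)) :
    n * F.z = F.z * n ∧ n ∈ 𝐍(F.V1) := by
  have f : ∀ y ∈ F.R g 1 d1, n * (y * y) * n⁻¹ ∈ F.V1 := fun y hy => by
    obtain ⟨w, hw, i, j, k, e⟩ := h.memR.1 (conj_mem_of_mem_normalizer hR hy)
    rw [B2.cj_mul, e, h.zasq hw, one_pow, mul_one]
    exact mul_mem (pow_mem F.b2_vV _) (pow_mem F.b2_zV _)
  have f1 := f g h.zaG
  have f2 := f d1 h.zad
  rw [h.gg] at f1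
  rw [h.d11] at f2
  refine ⟨B2.comm_of_cj ?_, B2.norm_gen (by rintro _ (rfl | rfl); exacts [f1, f2])⟩
  have c : n * F.z * n⁻¹ * F.v2 = F.v2 * (n * F.z * n⁻¹) := by
    obtain ⟨e, he, i, j, ex⟩ := h.memS.1 (conj_mem_of_mem_normalizer (inv_mem hn) (y9_v _))
    have c0 : Commute F.z (n⁻¹ * F.v2 * n⁻¹⁻¹) := ex ▸
      ((Commute.pow_right F.zt _).mul_right (Commute.pow_right F.B1zv2 _)).mul_right (h.zac (h.XR F.b2_zX) he)
    simpa [mul_assoc] using B2.comm_cj n c0.eq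
  rcases F.memV1.1 f1 with e | e | e | e
  · exact absurd (conj_eq_one_iff.1 e) F.z1
  · exact e
  · exact absurd (e ▸ c) F.B1nc
  · rw [e, ← mul_assoc, ← F.B1zv2, mul_assoc, mul_assoc, mul_right_inj] at c
    exact absurd c F.B1nc

theorem ZP.y9_A (h : F.ZP g g' d1 d2 η1 η2 a b) {x : G} (hx : x ∈ F.AA g d1 a b) (c : x * F.u1 = F.u1 * x) :
    x ∈ F.R g 1 d1 := by
  have KR : F.K4 g d1 ≤ F.R g 1 d1 := (closure_le _).2 (by rintro _ (rfl | rfl); exacts [h.zz.zaG, h.zz.zad])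
  obtain ⟨y, hy, i, j, rfl⟩ := h.memA.1 hx
  have c1 := h.zz.zac (KR hy) (h.zz.XR F.b2_uX)
  rw [← mul_assoc, ← mul_assoc, ← c1, mul_assoc, mul_assoc, mul_assoc, mul_assoc, mul_right_inj, ← mul_assoc,
    ← mul_assoc, mul_assoc F.u1] at c
  have c2 := B2.cj_of_comm c
  have e1 := h.au
  have e2 := h.bV.2.2.2.1
  rw [F.u2_eq F.hu1] at e1
  fin_cases i <;> fin_cases j <;>
    simp only [pow_zero, pow_one, mul_one, one_mul] at c2 ⊢
  · exact KR hy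
  · exact absurd (mul_eq_left.1 (e2.symm.trans c2)) F.b2_v1
  · exact absurd (mul_eq_right.1 (e1.symm.trans c2)) F.z1
  · rw [show a * b * F.u1 * (a * b)⁻¹ = a * (b * F.u1 * b⁻¹) * a⁻¹ by group, e2, B2.cj_mul, e1,
      conj_eq_of_mem_centralizer h.aV F.b2_vV, mul_assoc, F.u1v1, ← mul_assoc, mul_eq_right] at c2
    exact absurd (mul_left_cancel (c2.trans F.zz.symm)) F.b2_vz

theorem ZP.y9_in (h : F.ZP g g' d1 d2 η1 η2 a b) {P : Subgroup G} (hP : IsPGroup 2 P)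
    (hS : F.R g 1 d1 ⊔ closure {F.t, F.v2} ≤ P) {n : G} (nP : n ∈ P)
    (hn : n ∈ 𝐍((F.R g 1 d1 ⊔ closure {F.t, F.v2} : Subgroup G))) (hu : n * F.u1 = F.u1 * n)
    (hz : n * F.z = F.z * n) (hv : n * F.v1 = F.v1 * n) : n ∈ F.R g 1 d1 ⊔ closure {F.t, F.v2} := by
  have tQ : F.t ∈ F.QQ g d1 := ZA.zr _ _
  have nQ : n ∈ 𝐍(F.QQ g d1) := mem_normalizer_of_cj_le (by
    rw [QQ, cj_sup, cj_zpowers, cj_eq_of_mem_normalizer (h.zz.y9_R hn hu)]
    refine sup_le le_sup_left (zpowers_le_of_mem ?_)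
    obtain ⟨e, he, i, j, ex⟩ := h.zz.memS.1 (conj_mem_of_mem_normalizer hn (y9_t _))
    fin_cases j
    · rw [ex]
      exact mul_mem (mul_mem (pow_mem tQ _) (by simp)) (mem_sup_left he)
    · have c := B2.comm_cj n F.tv1
      rw [ex, B2.cj_of_comm hv] at c
      simp only [pow_one] at c
      exact absurd (h.zz.y9_v2 he F.b2_vX c) F.B1nc)
  obtain ⟨p, hp, o, ho, odd, rfl⟩ := h.full nQ (B2.cent_gen (by rintro _ (rfl | rfl); exacts [hz.symm, hv.symm]))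
  have uR := h.zz.XR F.b2_uX
  have pu : p * F.u1 = F.u1 * p := by
    rw [mul_assoc, ← ho _ (mem_sup_left uR), ← mul_assoc, ← mul_assoc, mul_left_inj] at hu
    exact hu
  have m0 : ∀ x ∈ F.M0 g d1 a b, Commute x F.u1 → x ∈ F.R g 1 d1 ⊔ closure {F.t, F.v2} := fun x hx c => by
    rcases h.memM0.1 hx with k | k
    · exact mem_sup_left (h.y9_A k c)
    · exact (mul_mem_cancel_right (y9_t _)).1 (mem_sup_left (h.y9_A k (c.mul_left F.tu1)))
  have pS : p ∈ F.R g 1 d1 ⊔ closure {F.t, F.v2} := by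
    rcases h.memP.1 hp with k | k
    · exact m0 _ k pu
    · exact (mul_mem_cancel_right (mem_sup_left uR)).1 (m0 _ k (Commute.mul_left pu rfl))
  rw [(P2.of_mem hP ((mul_mem_cancel_left (hS pS)).1 nP)).eq_one odd, mul_one]
  exact pS

theorem ZP.sylu (h : F.ZP g g' d1 d2 η1 η2 a b) : IsSylowIn 2 (F.R g 1 d1 ⊔ closure {F.t, F.v2}) (centralizer {F.u1}) := by
  refine isSylowIn_of_normalizer h.zz.y9_cen ⟨le_inf h.zz.y9_cen le_normalizer, h.zz.isP, fun P h1 h2 hP =>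
    le_antisymm (fun n nP => ?_) h1⟩
  have hu := mem_centralizer_singleton_iff.1 (h2 nP).1
  have hn := (h2 nP).2
  obtain ⟨hz, hV⟩ := h.zz.y9_z hn (h.zz.y9_R hn hu)
  rcases F.b2_pure hz hV with c | ⟨c, -⟩
  · exact h.y9_in hP h1 nP hn hu hz c
  · exact (mul_mem_cancel_right (y9_v _)).1 (h.y9_in hP h1 (mul_mem nP (h1 (y9_v _)))
      (mul_mem hn (le_normalizer (y9_v _))) (Commute.mul_left hu F.u1v2.symm) (Commute.mul_left hz F.B1zv2.symm) c)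

theorem ZP.y9_card (h : F.ZP g g' d1 d2 η1 η2 a b) :
    Nat.card (F.R g 1 d1 ⊔ closure {F.t, F.v2} : Subgroup G) = 128 := by
  have uR := h.zz.XR F.b2_uX
  have e1 : F.R g 1 d1 = F.K4 g d1 ⊔ zpowers F.u1 := by
    rw [R, K4, zpowers_eq_closure, ← Subgroup.closure_union, Set.insert_comm d1, Set.insert_comm g, closure_insert_one]
    congr 1
    ext x
    simp only [Set.mem_insert_iff, Set.mem_singleton_iff, Set.mem_union, or_assoc]
  have c1 : Nat.card (F.R g 1 d1) = 32 := by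
    rw [e1, card_adj (P := F.K4 g d1) (centralizer_le_normalizer _ (B2.cent_gen (by
      rintro _ (rfl | rfl); exacts [h.zz.zac h.zz.zaG uR, h.zz.zac h.zz.zad uR]))) (F.u11 ▸ one_mem _)
      fun k => by simpa using h.ind (i := 0) (j := 0) (l := 0) (m := 1) (n := 0) (by simpa using k), h.card.1]
  have c2 : Nat.card (F.R g 1 d1 ⊔ zpowers F.t : Subgroup G) = 64 := by
    rw [card_adj h.zz.zatN (by rw [F.tt]; exact one_mem _)
      fun k => by simpa using h.zz.indS (a := 1) (b := 0) (by simpa using k), c1]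
  rw [Set.insert_eq, Subgroup.closure_union, ← zpowers_eq_closure, ← zpowers_eq_closure, ← sup_assoc,
    card_adj (cj_eq_self_iff.1 (by
      rw [cj_sup, cj_zpowers, cj_eq_of_mem_normalizer h.zz.v2N, B2.cj_of_comm F.tv2.symm])) (by rw [F.v22]; exact one_mem _)
      fun k => F.B1nc (ZD.QX h.zz k _ F.b2_vX), c2]

theorem ZP.uz (h : F.ZP g g' d1 d2 η1 η2 a b) (s : G) : s * F.u1 * s⁻¹ ∉ F.V1 := by
  intro hs
  have nz : ∀ s : G, s * F.u1 * s⁻¹ ≠ F.z := fun s e => by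
    have c : F.SP g d1 a b ≤ centralizer {F.z} := (closure_le _).2 (by
      have zR := h.zz.XR F.b2_zX
      rintro _ (rfl | rfl | rfl | rfl | rfl | rfl | rfl) <;> refine mem_centralizer_singleton_iff.2 ?_
      exacts [h.zz.zac h.zz.zaG zR, h.zz.zac h.zz.zad zR, (h.aV _ F.b2_zV).symm, (h.bV.1 _ F.b2_zV).symm,
        F.zt.symm, F.zu1.symm, F.B1zv2.symm])
    have := (h.sylu.cj s).card_le h.isPS (by rwa [cj_centralizer_singleton, e])
    rw [card_cj, h.y9_card, h.card.2.2.2.2] at this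
    omega
  rcases F.memV1.1 hs with e | e | e | e
  · exact F.hu1 (conj_eq_one_iff.1 e)
  · exact nz _ e
  · exact nz (F.y1⁻¹ * s) (B2.cj_inj' (g := F.y1) (by rw [F.y1z, ← e]; group))
  · exact nz (F.y1 * s) (by rw [← F.y1z', ← e]; group)

theorem ZP.uE (h : F.ZP g g' d1 d2 η1 η2 a b) : F.u1 ∉ F.E := by
  refine (F.trG h.syl (M := F.M1 g d1 a b) (closure_mono ?_) (subset_closure (by simp)) h.uM (fun _ hs => h.memS'.1 hs)
    h.zz.isP (mem_sup_left (h.zz.XR F.b2_uX)) h.zz.y9_cen (fun y hy hm => h.uz y (h.small hm ?_ ?_))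
    fun y m _ => ?_).1
  · intro x hx
    simp only [Set.mem_insert_iff, Set.mem_singleton_iff] at hx ⊢
    tauto
  · rw [← B2.cj_mul, F.u11, mul_one, mul_inv_cancel]
  · rw [← h.y9_card, ← card_cj _ y]
    exact card_le_of_le (le_inf hy (by rw [← cj_centralizer_singleton]; exact cj_mono y h.zz.y9_cen))
  · rw [F.u11, one_pow, mul_one, mul_inv_cancel]
    exact one_mem _

end Fr

end H25.A6
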