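import Mathlib
import Cfsg.Agent.Lib.A6S.HX
import Cfsg.Agent.Lib.A6S.HS
import Cfsg.Agent.Lib.A6S.HB
import Cfsg.Agent.Lib.A6S.HH
import Cfsg.Agent.Lib.A6S.HI
import Cfsg.Agent.Lib.A6S.Y5
import Cfsg.Agent.Lib.A6S.Y9

/-! Case `IIa`: the sectional rank of `E` is at most four. -/

set_option autoImplicit false

namespace H25.A6

open Subgroup H69 H36.SW H25.A7

variable {G : Type*} [Group G] [Finite G]

namespace Fr
variable {F : Fr G} {u0 g v d1 d2 η κ γ : G}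

theorem IIa.uE (c : F.IIa) : F.u1 ∉ F.E := by
  rcases c.ci.split' with ⟨g, d1, d2, η, h, tr⟩ | ⟨g, g', d1, d2, η1, η2, h⟩
  · obtain ⟨d2, κ, e⟩ := h.esD tr c.d1 fun _ => c
    obtain ⟨d2, κ, k, s, w⟩ := e.sy
    exact s.iia w c.d1
  · obtain ⟨η1, a, b, q⟩ := h.zq c
    obtain ⟨a, b, p⟩ := q.zp
    exact p.uE

theorem IIa.rk (c : F.IIa) : Cfsg.SectionalPRankLE 2 4 F.E := c.ci.har c.uE

end Fr

end H25.A6
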