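import Mathlib
import Cfsg.Agent.Lib.A6S.PA2

/-! Existence of `ZS`. -/

set_option autoImplicit false
set_option linter.unusedSectionVars false

namespace H25.A6

open Subgroup H69 H36.SW
open H25.A7 H80.PC H54 H25.PZ

variable {G : Type*} [Group G] [Finite G]

namespace PB2H

/-- conjugation -/
abbrev K (x : G) : G ≃* G := MulAut.conj x

omit [Finite G] in
theorem Ka (x y : G) : K x y = x * y * x⁻¹ := rfl
omit [Finite G] in
theorem Km (x y w : G) : K (x * y) w = K x (K y w) := by simp only [Ka]; group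
omit [Finite G] in
theorem KK (x y w : G) : K (K x y) (K x w) = K x (K y w) := by simp only [Ka]; group
omit [Finite G] in
theorem Kc {x y : G} : K x y = y ↔ x * y = y * x := by rw [Ka, mul_inv_eq_iff_eq_mul]
omit [Finite G] in
theorem Ki {x y w : G} (h : K x w = K y w) : K (x⁻¹ * y) w = w := by
  rw [Km, ← h]; simp only [Ka]; group

variable {F : Fr G} {g g' r r' d1 d2 η1 η2 a : G} {P : Subgroup G}

section
variable (h : F.ZR2 g g' r r' d1 d2 η1 η2 a P)
include h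

theorem RP : F.R g r d1 ≤ P := le_sup_left.trans h.QP
theorem VP : F.V1 ≤ P := (F.V1X1.trans h.toZZ.XR).trans (RP h)
theorem uR : F.u1 ∈ F.R g r d1 := h.toZZ.XR F.b2_uX
theorem zR : F.z ∈ F.R g r d1 := h.toZZ.XR F.b2_zX
theorem vR : F.v1 ∈ F.R g r d1 := h.toZZ.XR F.b2_vX

theorem cV {p w : G} (hp : p ∈ P) (hw : w ∈ F.V1) : w * p = p * w := (mem_centralizer_iff.1 (h.PV hp)) w hw
theorem kV {p w : G} (hp : p ∈ P) (hw : w ∈ F.V1) : K p w = w := Kc.2 (cV h hp hw).symm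

theorem L1 {p : G} (hp : p ∈ P) (hu : K p F.u1 = F.u1) (hg : K p g = g) (ht : K p F.t = F.t) : p ∈ F.X1 := by
  rcases ZD.memQ h.toZZ (h.toZR.memQ hp (Kc.1 hu)) with hR | ⟨e, he, rfl⟩
  · have := h.toZZ.zat hR
    rw [← Ka, ht] at this
    exact (h.toZZ.sq hR).2.1 (by simpa using this.symm)
  · exfalso
    have e1 : K F.t g = g⁻¹ := by rw [Ka, inv_eq_of_mul_eq_one_left F.tt]; exact h.tg
    have e2 : K e g = g := Kc.2 (h.toZZ.zac he h.toZZ.zaG)
    rw [Km, e1, map_inv, e2] at hg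
    apply F.z1
    rw [← h.gg]
    nth_rewrite 1 [← hg]
    exact inv_mul_cancel g

theorem θP {p : G} (hp : p ∈ P) : K η1 p ∈ P := (mem_normalizer_iff.1 h.ηP p).1 hp
theorem νP {p : G} (hp : p ∈ P) : K F.v2 p ∈ P := (mem_normalizer_iff.1 h.vN p).1 hp

theorem θ3 {p : G} (hp : p ∈ P) : K η1 (K η1 (K η1 p)) = p := by
  rw [← Km, ← Km, Kc, show η1 * η1 * η1 = η1 ^ 3 by rw [pow_succ, pow_two]]
  exact ((mem_centralizer_iff.1 h.η3) p hp).symm

theorem νν (x : G) : K F.v2 (K F.v2 x) = x := by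
  have _ := h.gg
  rw [← Km, F.v22]; simp

theorem νθ {p : G} (hp : p ∈ P) : K F.v2 (K η1 p) = K η1 (K η1 (K F.v2 p)) := by
  have e : ∀ q ∈ P, K F.v2 (K η1 (K F.v2 (K η1 q))) = q := fun q hq => by
    rw [← Km, ← Km, ← Km, Kc]
    exact ((mem_centralizer_iff.1 h.vη) q hq).symm
  have e1 := e _ (θP h (θP h (νP h hp)))
  rw [θ3 h (νP h hp), νν h] at e1
  exact e1

theorem θz : K η1 F.z = F.v1 := (ZC.eta h.toZZ).2.1
theorem θv : K η1 F.v1 = F.z * F.v1 := (ZC.eta h.toZZ).2.2.1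
theorem θu : K η1 F.u1 = F.u1 := Kc.2 h.η1u
theorem θt : K η1 F.t = F.t := Kc.2 h.η1t
theorem θzv : K η1 (F.z * F.v1) = F.z := by
  rw [map_mul, θz h, θv h, F.zv1, ← mul_assoc, F.v11, one_mul]
theorem θg : K η1 g = d1 := h.η1g
theorem θd : K η1 d1 = (g * d1)⁻¹ := h.η1d
theorem θgd : K η1 (g * d1)⁻¹ = g := by
  rw [map_inv, map_mul, θg h, θd h]; group

theorem θV {w : G} (hw : w ∈ F.V1) : K η1 w ∈ F.V1 := by
  rcases F.memV1.1 hw with rfl | rfl | rfl | rfl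
  · rw [map_one]; exact one_mem _
  · rw [θz h]; exact F.b2_vV
  · rw [θv h]; exact mul_mem F.b2_zV F.b2_vV
  · rw [θzv h]; exact F.b2_zV

theorem νz : K F.v2 F.z = F.z := by
  have _ := h.gg
  exact Kc.2 F.B1zv2.symm
theorem νv : K F.v2 F.v1 = F.z * F.v1 := by
  have _ := h.gg
  exact F.b2_v2v
theorem νu : K F.v2 F.u1 = F.u1 := by
  have _ := h.gg
  exact Kc.2 F.u1v2.symm
theorem νt : K F.v2 F.t = F.t := by
  have _ := h.gg
  exact Kc.2 F.tv2.symm
theorem νg : K F.v2 g = g := Kc.2 (h.toZZ.zav (subset_closure (by simp)))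
theorem νr : K F.v2 r = r := Kc.2 (h.toZZ.zav (subset_closure (by simp)))

theorem νfix {w : G} (hw : w ∈ F.V1) (e : K F.v2 w = w) : w = 1 ∨ w = F.z := by
  rcases F.memV1.1 hw with rfl | rfl | rfl | rfl
  · exact .inl rfl
  · exact .inr rfl
  · rw [νv h] at e
    exact absurd (by simpa using e) F.z1
  · rw [map_mul, νz h, νv h] at e
    exact absurd (by simpa using e) F.z1

theorem At : K a F.t = F.t * g := h.at'
theorem Au : K a F.u1 = F.u1 * F.z := h.au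
theorem Ag : K a g = g * F.z := h.ag
theorem Ad : K a d1 = d1 * (F.z * F.v1) := h.ad

/-- an element of `X1` that commutes with `a` lies in `V1` -/
theorem afix {w : G} (hw : w ∈ F.X1) (e : K a w = w) : w ∈ F.V1 := by
  rcases ZD.Xmem F hw with k | k
  · exact k
  · have := kV h h.aP k
    rw [map_mul, e, Au h, ← mul_assoc] at this
    exact absurd (by simpa using this) F.z1

theorem Bt : K (K η1 a) F.t = F.t * d1 := by
  conv_lhs => rw [← θt h, KK, At h, map_mul, θt h, θg h]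
theorem Bu : K (K η1 a) F.u1 = F.u1 * F.v1 := by
  conv_lhs => rw [← θu h, KK, Au h, map_mul, θu h, θz h]
theorem Bd : K (K η1 a) d1 = d1 * F.v1 := by
  conv_lhs => rw [← θg h, KK, Ag h, map_mul, θg h, θz h]
theorem Bgd : K (K η1 a) (g * d1)⁻¹ = (g * d1)⁻¹ * F.z := by
  conv_lhs => rw [← θd h, KK, Ad h, map_mul, θd h, θzv h]
theorem Bg : K (K η1 a) g = g * (F.z * F.v1) := by
  have c1 := h.toZZ.zac (zR h) h.toZZ.zaG
  have c2 := h.toZZ.zac (vR h) h.toZZ.zad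
  calc K (K η1 a) g = (K (K η1 a) (g * d1)⁻¹)⁻¹ * (K (K η1 a) d1)⁻¹ := by
        rw [← map_inv, ← map_inv, ← map_mul]; congr 1; group
    _ = F.z⁻¹ * g * (d1 * (F.v1 * d1)⁻¹) := by rw [Bgd h, Bd h, c2]; group
    _ = _ := by
        rw [c2, inv_eq_of_mul_eq_one_left F.zz, c1, mul_inv_rev, inv_eq_of_mul_eq_one_left F.v11, ← mul_assoc d1,
          ← c2]
        group
theorem Ct : K (K η1 (K η1 a)) F.t = F.t * (g * d1)⁻¹ := by
  conv_lhs => rw [← θt h, KK, Bt h, map_mul, θt h, θd h]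
theorem Cu : K (K η1 (K η1 a)) F.u1 = F.u1 * (F.z * F.v1) := by
  conv_lhs => rw [← θu h, KK, Bu h, map_mul, θu h, θv h]
theorem Cg : K (K η1 (K η1 a)) g = g * F.v1 := by
  conv_lhs => rw [← θgd h, KK, Bgd h, map_mul, θgd h, θz h]

theorem kX : a * K η1 a * K η1 (K η1 a) ∈ F.X1 := by
  have hb := θP h h.aP
  have hc := θP h hb
  have zv : F.z * F.v1 ∈ F.V1 := mul_mem F.b2_zV F.b2_vV
  have c1 := h.toZZ.zac (zR h) h.toZZ.zaG
  refine L1 h (mul_mem (mul_mem h.aP hb) hc) ?_ ?_ ?_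
  · rw [Km, Km, Cu h, map_mul, Bu h, kV h hb zv, map_mul, map_mul, Au h, kV h h.aP zv, kV h h.aP F.b2_vV,
      mul_assoc F.u1, mul_assoc F.u1, F.sqW1 (F.X1W1 (F.V1X1 zv)), mul_one]
  · rw [Km, Km, Cg h, map_mul, Bg h, kV h hb F.b2_vV, map_mul, map_mul, Ag h, kV h h.aP zv, kV h h.aP F.b2_vV,
      mul_assoc g, F.b2_zz, mul_assoc, F.v11, mul_one]
  · rw [Km, Km, Ct h, map_mul, Bt h, Bgd h, show F.t * d1 * ((g * d1)⁻¹ * F.z) = F.t * g⁻¹ * F.z by group,
      map_mul, map_mul, map_inv, At h, Ag h, kV h h.aP F.b2_zV, ← c1]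
    group

theorem aaV : a * a ∈ F.V1 := by
  have c1 := h.toZZ.zac (zR h) h.toZZ.zaG
  refine afix h (L1 h (mul_mem h.aP h.aP) ?_ ?_ ?_) (Kc.2 (mul_assoc _ _ _).symm)
  · rw [Km, Au h, map_mul, Au h, kV h h.aP F.b2_zV, mul_assoc, F.zz, mul_one]
  · rw [Km, Ag h, map_mul, Ag h, kV h h.aP F.b2_zV, mul_assoc, F.zz, mul_one]
  · rw [Km, At h, map_mul, At h, Ag h, mul_assoc, ← mul_assoc g, h.gg, F.zz, mul_one]

/-- multiplying `a` by an element of `X1` -/
theorem tw {w : G} (hw : w ∈ F.X1) : F.ZR2 g g' r r' d1 d2 η1 η2 (a * w) P := by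
  have wR := h.toZZ.XR hw
  have e1 : K w F.t = F.t := Kc.2 ((mem_centralizer_iff.1 (ZD.tX F)) w hw)
  have e2 : K w F.u1 = F.u1 := Kc.2 (h.toZZ.zac wR (uR h))
  have e3 : K w g = g := Kc.2 (h.toZZ.zac wR h.toZZ.zaG)
  have e4 : K w d1 = d1 := Kc.2 (h.toZZ.zac wR h.toZZ.zad)
  refine ⟨⟨⟨h.toZZ, h.d, h.pP, h.QP, h.PN, h.PV, mul_mem h.aP (RP h wR), h.vN, h.ηP, ?_, ?_⟩, h.η3, h.vη⟩, ?_, ?_⟩
  · rw [← Ka, Km, e1, At h]
  · rw [← Ka, Km, e2, Au h]
  · rw [← Ka, Km, e3, Ag h]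
  · rw [← Ka, Km, e4, Ad h]

theorem k1 (k : a * K η1 a * K η1 (K η1 a) ∈ F.V1) : a * K η1 a * K η1 (K η1 a) = 1 := by
  have e : K η1 (a * K η1 a * K η1 (K η1 a)) = a * K η1 a * K η1 (K η1 a) := by
    have := cV h h.aP k
    rw [map_mul, map_mul, θ3 h h.aP]
    refine mul_left_cancel (a := a) ?_
    rw [← this]; group
  generalize a * K η1 a * K η1 (K η1 a) = w at k e
  rcases F.memV1.1 k with rfl | rfl | rfl | rfl
  · rfl
  · rw [θz h] at e; exact absurd e F.b2_vz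
  · rw [θv h] at e; exact absurd (by simpa using e) F.z1
  · rw [θzv h] at e; exact absurd (by simpa using e.symm) F.b2_v1

/-- `u p u = p w` if `p u p⁻¹ = u w` -/
theorem upu {p w : G} (hp : p ∈ P) (hw : w ∈ F.V1) (e : K p F.u1 = F.u1 * w) : F.u1 * p * F.u1 = p * w := by
  have e1 : p * F.u1 = F.u1 * w * p := by rw [← e, Ka]; group
  rw [mul_assoc, e1, ← mul_assoc, ← mul_assoc, F.u11, one_mul, cV h hp hw]

theorem step1 : ∃ a, F.ZR2 g g' r r' d1 d2 η1 η2 a P ∧ a * K η1 a * K η1 (K η1 a) = 1 := by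
  rcases ZD.Xmem F (kX h) with k | k
  · exact ⟨a, h, k1 h k⟩
  · have h' := tw h F.b2_uX
    refine ⟨a * F.u1, h', k1 h' ?_⟩
    have hb := θP h h.aP
    have hc := θP h hb
    rw [map_mul, θu h, map_mul, θu h]
    have e := upu h hb F.b2_vV (Bu h)
    have : a * F.u1 * (K η1 a * F.u1) * (K η1 (K η1 a) * F.u1) =
        F.v1 * (a * K η1 a * K η1 (K η1 a) * F.u1) := by
      calc _ = a * (F.u1 * K η1 a * F.u1) * K η1 (K η1 a) * F.u1 := by group
        _ = (a * K η1 a * F.v1) * K η1 (K η1 a) * F.u1 := by rw [e]; group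
        _ = _ := by rw [← cV h (mul_mem h.aP hb) F.b2_vV]; group
    rw [this]
    exact mul_mem F.b2_vV k

theorem xV (k : a * K η1 a * K η1 (K η1 a) = 1) : a⁻¹ * K F.v2 a ∈ F.V1 := by
  have hb := θP h h.aP
  have hc := θP h hb
  have hx : a⁻¹ * K F.v2 a ∈ F.X1 := by
    refine L1 h (mul_mem (inv_mem h.aP) (νP h h.aP)) (Ki ?_) (Ki ?_) (Ki ?_)
    · conv_rhs => rw [← νu h, KK, Au h, map_mul, νu h, νz h]
      exact Au h
    · conv_rhs => rw [← νg h, KK, Ag h, map_mul, νg h, νz h]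
      exact Ag h
    · conv_rhs => rw [← νt h, KK, At h, map_mul, νt h, νg h]
      exact At h
  rcases ZD.Xmem F hx with q | q
  · exact q
  exfalso
  obtain ⟨w, hw, e⟩ : ∃ w ∈ F.V1, K F.v2 a = a * w * F.u1 :=
    ⟨_, q, by rw [mul_assoc, mul_assoc, F.u11]; group⟩
  have eb : K F.v2 (K η1 a) = K η1 (K η1 a) * K η1 (K η1 w) * F.u1 := by
    rw [νθ h h.aP, e, map_mul, map_mul, map_mul, map_mul, θu h, θu h]
  have ec : K F.v2 (K η1 (K η1 a)) = K η1 a * K η1 w * F.u1 := by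
    rw [νθ h hb, νθ h h.aP, θ3 h (θP h (νP h h.aP)), e, map_mul, map_mul, θu h]
  have e1 := congrArg (K F.v2) k
  rw [map_mul, map_mul, map_one, e, eb, ec] at e1
  have w1 := θV h hw
  have w2 := θV h w1
  have s1 := aaV h
  have s2 := θV h s1
  have s3 := θV h s2
  rw [map_mul] at s2
  rw [map_mul, map_mul] at s3
  have zv : F.z * F.v1 ∈ F.V1 := mul_mem F.b2_zV F.b2_vV
  have e2 := upu h hc zv (Cu h)
  have uP := RP h (uR h)
  generalize K η1 (K η1 w) = w'' at *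
  generalize K η1 w = w' at *
  generalize K η1 (K η1 a) = c at *
  generalize K η1 a = b at *
  have hN : ∀ p ∈ P, ∀ v ∈ F.V1, ∀ y, p * (v * y) = v * (p * y) := fun p hp v hv y => by
    rw [← mul_assoc, ← cV h hp hv, mul_assoc]
  have e3 : a * c * b * F.u1 ∈ F.V1 := by
    have : w * (w'' * (F.z * F.v1 * (w' * (a * c * b * F.u1)))) = 1 := by
      rw [← e1]
      calc _ = w * (w'' * (F.z * F.v1 * (w' * (a * (c * (b * F.u1)))))) := by group
        _ = a * (w * (w'' * (c * (F.z * F.v1 * (b * (w' * F.u1)))))) := by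
          rw [hN b hb w' w1, hN c hc _ zv, hN c hc w' w1, hN a h.aP w hw, hN a h.aP w'' w2, hN a h.aP _ zv,
            hN a h.aP w' w1]
        _ = a * (w * (w'' * ((F.u1 * c * F.u1) * (b * (w' * F.u1))))) := by rw [e2]; group
        _ = a * (w * (w'' * (F.u1 * (c * (F.u1 * (b * (w' * F.u1))))))) := by group
        _ = a * (w * (F.u1 * (c * (w'' * (F.u1 * (b * (w' * F.u1))))))) := by
          rw [hN c hc w'' w2, hN F.u1 uP w'' w2]
        _ = _ := by group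
    have q1 : a * c * b * F.u1 = (w * (w'' * (F.z * F.v1 * w')))⁻¹ := by
      refine (inv_eq_of_mul_eq_one_right ?_).symm
      rw [← this]; group
    rw [q1]
    exact inv_mem (mul_mem hw (mul_mem w2 (mul_mem zv w1)))
  have e4 : a * c * b ∈ F.V1 := by
    have q1 : c = (a * b)⁻¹ := (inv_eq_of_mul_eq_one_right k).symm
    have q2 : a * c * b = (b * b)⁻¹ * ((a * a)⁻¹ * (c * c)⁻¹) := by
      calc a * c * b = a * ((b * b)⁻¹ * (b * ((a * a)⁻¹ * (a * b)))) := by rw [q1]; group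
        _ = (b * b)⁻¹ * ((a * a)⁻¹ * (a * (b * (a * b)))) := by
          rw [hN a h.aP _ (inv_mem s2), hN b hb _ (inv_mem s1), hN a h.aP _ (inv_mem s1)]
        _ = _ := by rw [q1]; group
    rw [q2]
    exact mul_mem (inv_mem s2) (mul_mem (inv_mem s1) (inv_mem s3))
  exact ZC.uV F F.hu1 ((mul_mem_cancel_left e4).1 e3)

theorem step2 (k : a * K η1 a * K η1 (K η1 a) = 1) : ∃ a, F.ZR2 g g' r r' d1 d2 η1 η2 a P ∧
    a * K η1 a * K η1 (K η1 a) = 1 ∧ K F.v2 a = a := by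
  have hx := xV h k
  obtain ⟨x, hx, e⟩ : ∃ x ∈ F.V1, K F.v2 a = a * x := ⟨_, hx, by group⟩
  have e1 : x * K F.v2 x = 1 := by
    have := νν h a
    rw [e, map_mul, e, mul_assoc] at this
    simpa using this
  have e2 : K F.v2 x = x := by
    rw [← inv_eq_of_mul_eq_one_right e1, inv_eq_of_mul_eq_one_right (F.sqW1 (F.X1W1 (F.V1X1 hx)))]
  rcases νfix h hx e2 with rfl | rfl
  · exact ⟨a, h, k, by simpa using e⟩
  · have hb := θP h h.aP
    have hc := θP h hb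
    have zv : F.z * F.v1 ∈ F.V1 := mul_mem F.b2_zV F.b2_vV
    refine ⟨a * F.v1, tw h F.b2_vX, ?_, ?_⟩
    · rw [map_mul, θv h, map_mul, θzv h]
      calc _ = a * (F.v1 * K η1 a) * (F.z * F.v1 * K η1 (K η1 a)) * F.z := by group
        _ = a * K η1 a * (F.v1 * K η1 (K η1 a)) * (F.z * F.v1) * F.z := by
          rw [cV h hb F.b2_vV, cV h hc zv]; group
        _ = a * K η1 a * K η1 (K η1 a) * (F.v1 * (F.z * F.v1) * F.z) := by rw [cV h hc F.b2_vV]; group
        _ = 1 := by rw [k, one_mul, F.zv1, ← mul_assoc, F.v11, one_mul, F.zz]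
    · rw [map_mul, e, νv h, mul_assoc, F.b2_zz]

theorem stepr (n : K F.v2 a = a) : K a r = r * g⁻¹ ∨ K a r⁻¹ = r⁻¹ * g⁻¹ := by
  have z := h.toZZ
  have aN : a ∈ 𝐍(F.R g r d1) := (z.NQ (h.PN h.aP)).1
  have rR : K a r ∈ F.R g r d1 := (mem_normalizer_iff.1 aN r).1 z.zaR
  have rg : r * g ∈ F.R g r d1 := mul_mem z.zaR z.zaG
  have φR : (r * g)⁻¹ * K a r ∈ F.R g r d1 := mul_mem (inv_mem rg) rR
  have φX : (r * g)⁻¹ * K a r ∈ F.X1 := by
    refine (z.sq φR).2.1 ?_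
    rw [ZA.mm (z.zac (inv_mem rg) rR), ← map_mul, z.rr, Au h, ← mul_inv_rev, ZA.mm z.gr.symm, z.rr, z.gg,
      inv_mul_cancel]
  obtain ⟨φ, φX, e⟩ : ∃ φ ∈ F.X1, K a r = r * g * φ := ⟨_, φX, by group⟩
  have c1 := z.zac (z.XR φX) z.zaG
  have e1 : K a (K a r) = r := by
    rw [← Km, Kc]
    exact z.zac (z.XR (F.V1X1 (aaV h))) z.zaR
  rw [e, map_mul, map_mul, e, Ag h] at e1
  have e2 : K a φ = φ := by
    have : φ * K a φ = 1 := by
      have q : r * g * φ * (g * F.z) * K a φ = r * (φ * K a φ) := by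
        calc _ = r * (g * φ * g * F.z) * K a φ := by group
          _ = r * (φ * (g * g * F.z)) * K a φ := by rw [← c1]; group
          _ = _ := by rw [z.gg, F.zz]; group
      rw [q] at e1
      simpa using e1
    rw [← inv_eq_of_mul_eq_one_right this, inv_eq_of_mul_eq_one_right (F.sqW1 (F.X1W1 φX))]
  have φV := afix h φX e2
  have e3 : K F.v2 φ = φ := by
    have := congrArg (K F.v2) e
    rw [← KK, n, νr h, map_mul, map_mul, νr h, νg h, e] at this
    exact (mul_left_cancel this).symm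
  rcases νfix h φV e3 with rfl | rfl
  · right
    rw [map_inv, e, mul_one, ← z.gr, mul_inv_rev]
  · left
    rw [e, mul_assoc, ← z.gg]
    congr 1
    refine (inv_eq_of_mul_eq_one_right ?_).symm
    rw [show g * (g * (g * g)) = g * g * (g * g) by group, z.gg, F.zz]

end

end PB2H

namespace Fr
variable {F : Fr G} {g g' r r' d1 d2 η1 η2 a b : G} {P : Subgroup G} {e : Bool}

open PB2H in
theorem ZR2.zs (h : F.ZR2 g g' r r' d1 d2 η1 η2 a P) : ∃ r a b e, F.ZS g g' r r' d1 d2 η1 η2 a b e := by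
  obtain ⟨a, h, k⟩ := step1 h
  obtain ⟨a, h, k, n⟩ := step2 h k
  have hb := θP h h.aP
  have s1 := aaV h
  have q1 : K η1 (K η1 a) = (a * K η1 a)⁻¹ := (inv_eq_of_mul_eq_one_right k).symm
  have s2 := νfix h s1 (by rw [map_mul, n])
  obtain ⟨e, he⟩ : ∃ e : Bool, a * a = cond e F.z 1 := s2.elim (fun q => ⟨false, q⟩) fun q => ⟨true, q⟩
  have s3 : a * a * K η1 (a * a) * K η1 (K η1 (a * a)) = 1 := by
    rcases s2 with q | q <;> rw [q]
    · simp
    · rw [θz h, θv h, F.sqW1 (F.X1W1 (F.V1X1 (mul_mem F.b2_zV F.b2_vV)))]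
  have ab : a * K η1 a = K η1 a * a := by
    rw [map_mul, map_mul, q1, ← mul_inv_rev, mul_inv_eq_one] at s3
    have : a * (a * K η1 a) * K η1 a = a * (K η1 a * a) * K η1 a := by
      calc _ = a * a * (K η1 a * K η1 a) := by group
        _ = _ := by rw [s3]; group
    exact mul_left_cancel (mul_right_cancel this)
  have vb : F.v2 * K η1 a * F.v2 = (a * K η1 a)⁻¹ := by
    rw [← q1]
    have := νθ h h.aP
    rw [n, Ka F.v2, F.b2_v2i] at this
    exact this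
  have az := (cV h h.aP F.b2_zV).symm
  have av := (cV h h.aP F.b2_vV).symm
  rcases stepr h n with q | q
  · exact ⟨r, a, K η1 a, e, h.toZZ, h.d, he, az, av, h.at', h.au, h.ag, h.ad, q, ab, Kc.1 n, vb, rfl, q1⟩
  · exact ⟨r⁻¹, a, K η1 a, e, h.toZZ.invr.1, h.d, he, az, av, h.at', h.au, h.ag, h.ad, q, ab, Kc.1 n, vb, rfl, q1⟩

end Fr

end H25.A6
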