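import Mathlib
import Cfsg.Agent.Lib.A6S.PM

/-! Class sizes from codes. -/

set_option autoImplicit false

namespace H25.A6

open Subgroup H69 H36.SW
open H25.A7 H80.PC H54 H25.PZ
open scoped Pointwise

variable {G : Type*} [Group G] [Finite G]

namespace Fr
variable {F : Fr G} {g g' r r' d1 d2 η1 η2 a b : G} {P : Subgroup G} {e : Bool}

theorem ZS.big (h : F.ZS g g' r r' d1 d2 η1 η2 a b e) {m : ℕ} (hm : m ∈ ML) {l : List ℕ}
    (cl : allL (fun c => allL (fun s => anyL (Nat.beq (H80.PC.cj (PS e) s c)) l) (gl m)) l = true) {c : ℕ} (hc : c ∈ l) :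
    Nat.card (F.Sm g r d1 a b m) ≤ l.length * Nat.card (F.Sm g r d1 a b m ⊓ centralizer {F.el g r d1 a b c} : Subgroup G) := by
  classical
  rw [card_orbit (F.el g r d1 a b c)]
  refine Nat.mul_le_mul_right _ ?_
  have st : F.Sm g r d1 a b m ≤ (MulAction.stabilizer (MulAut G) ((l.map (F.el g r d1 a b)).toFinset)).comap
      MulAut.conj := by
    rw [h.cloSm hm, closure_le]
    rintro _ ⟨s, hs, rfl⟩
    refine Finset.eq_of_subset_of_card_le (fun y hy => ?_) (Finset.card_smul_finset _ _).ge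
    obtain ⟨x, hx, rfl⟩ := Finset.mem_smul_finset.1 hy
    obtain ⟨k, hk, rfl⟩ := List.mem_map.1 (List.mem_toFinset.1 hx)
    obtain ⟨k', hk', e'⟩ := (anyL_iff _ _).1 ((allL_iff _ _).1 ((allL_iff _ _).1 cl k hk) s hs)
    refine List.mem_toFinset.2 (List.mem_map.2 ⟨k', hk', ?_⟩)
    rw [← Nat.eq_of_beq_eq_true e', h.cj]
    rfl
  calc _ ≤ ((l.map (F.el g r d1 a b)).toFinset : Set G).ncard := Set.ncard_le_ncard (by
        rintro _ ⟨n, hn, rfl⟩
        have := st hn
        rw [mem_comap, MulAction.mem_stabilizer_iff] at this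
        rw [← this]
        exact Finset.mem_coe.2 (Finset.smul_mem_smul_finset (List.mem_toFinset.2 (List.mem_map_of_mem hc))))
        (Set.toFinite _)
    _ ≤ _ := by
      rw [Set.ncard_coe_finset]
      exact (List.toFinset_card_le _).trans (List.length_map _).le

theorem ZS.small (h : F.ZS g g' r r' d1 d2 η1 η2 a b e) {H : Subgroup G} {c : ℕ} {l : List ℕ} (hl : ∀ s ∈ l, F.el g r d1 a b s ∈ H)
    (nd : (l.map fun s => H80.PC.cj (PS e) s c).Nodup) :
    l.length * Nat.card (H ⊓ centralizer {F.el g r d1 a b c} : Subgroup G) ≤ Nat.card H := by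
  classical
  rw [card_orbit (F.el g r d1 a b c) H]
  refine Nat.mul_le_mul_right _ ?_
  have nd' : ((l.map fun s => H80.PC.cj (PS e) s c).map (F.el g r d1 a b)).Nodup := nd.map_on (by
    intro x hx y hy q
    obtain ⟨s, -, rfl⟩ := List.mem_map.1 hx
    obtain ⟨s', -, rfl⟩ := List.mem_map.1 hy
    exact h.inj (ZS.lt e s c).2.2.1 (ZS.lt e s' c).2.2.1 q)
  calc l.length = (((l.map fun s => H80.PC.cj (PS e) s c).map (F.el g r d1 a b)).toFinset : Set G).ncard := by
        rw [Set.ncard_coe_finset, List.toFinset_card_of_nodup nd', List.length_map, List.length_map]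
    _ ≤ _ := Set.ncard_le_ncard (fun y hy => by
        obtain ⟨x, hx, rfl⟩ := List.mem_map.1 (List.mem_toFinset.1 hy)
        obtain ⟨s, hs, rfl⟩ := List.mem_map.1 hx
        exact ⟨_, hl s hs, (h.cj s c).symm⟩) (Set.toFinite _)

theorem ZS.nOm (h : F.ZS g g' r r' d1 d2 η1 η2 a b e) {l : List ℕ} (hl : l.length < 16)
    (cl : allL (fun c => allL (fun s => anyL (Nat.beq (H80.PC.cj (PS e) s c)) l) (gl 0)) l = true) {c : ℕ} (hc : c ∈ l) :
    ¬ F.Om (F.el g r d1 a b c) := fun o => by
  have h1 := h.big (m := 0) (by decide) cl hc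
  have h2 := F.two_le o ((h.pSm 0).to_inf_left (K := centralizer {F.el g r d1 a b c})) inf_le_right
  rw [h.cardSm (by decide), show 2 ^ (gl 0).length = 1024 by decide] at h1
  have := Nat.mul_le_mul (Nat.le_of_lt_succ hl) h2
  omega

end Fr

end H25.A6
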