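import Mathlib
import Cfsg.Agent.Lib.A6S.PO
import Cfsg.Agent.Lib.A6S.PS3
import Cfsg.Agent.Lib.A6S.HT
import Cfsg.Agent.Lib.A6S.ZE

/-! `t ∉ E`. -/

set_option autoImplicit false
set_option maxRecDepth 100000

namespace H25.A6

open Subgroup H69 H36.SW
open H25.A7 H80.PC H54 H25.PZ

variable {G : Type*} [Group G] [Finite G]

namespace PTh

/-- two classes of length 8 -/
def l1 (e : Bool) : List ℕ := cond e [72, 104, 328, 360, 584, 616, 840, 872] [8, 40, 264, 296, 520, 552, 776, 808]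
/-- two classes of length 8 -/
def l2 (e : Bool) : List ℕ :=
  cond e [136, 168, 392, 424, 648, 680, 904, 936] [200, 232, 456, 488, 712, 744, 968, 1000]
/-- in one of the two classes -/
noncomputable def inl (e : Bool) (c : ℕ) : Bool := bor (anyL (Nat.beq c) (l1 e)) (anyL (Nat.beq c) (l2 e))

theorem c1 : ∀ e, allL (fun c => allL (fun s => anyL (Nat.beq (H80.PC.cj (PS e) s c)) (l1 e)) (gl 0)) (l1 e) = true := by
  decide +kernel

theorem c2 : ∀ e, allL (fun c => allL (fun s => anyL (Nat.beq (H80.PC.cj (PS e) s c)) (l2 e)) (gl 0)) (l2 e) = true := by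
  decide +kernel

theorem sqs : ∀ e, mu (PS e) 25 25 = 8 ∧ H80.PC.cm (PS e) 2 8 = 32 ∧ H80.PC.cm (PS e) 2 16 = 64 ∧
    mu (PS e) 6 6 = 128 ∧ mu (PS e) 512 128 = 640 := by
  decide +kernel

theorem k1 : ∀ e, allLt (fun c => bor (Nat.beq ((c / 2 + c / 4) % 2) 0)
    (force (mu (PS e) c 2) fun d => Nat.beq ((d / 2 + d / 4) % 2) 0)) 1024 = true := by
  decide +kernel

theorem k2 : ∀ e, allLt (fun c => bor (Nat.beq (c &&& 2) 0) (Nat.beq (mu (PS e) c 2 &&& 2) 0)) 1024 = true := by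
  decide +kernel

theorem k3 : ∀ e, allLt (fun c => bimp (Nat.beq ((c / 2 + c / 4) % 2) 0)
    (bor (Nat.beq (c &&& 6) 0) (Nat.beq (mu (PS e) c 6 &&& 6) 0))) 1024 = true := by
  decide +kernel

theorem k4 : ∀ e, allLt (fun c => bimp (Nat.beq ((c / 2 + c / 4) % 2) 0) (bimp (Nat.beq (mu (PS e) c c) 0)
    (bor (Nat.beq (c &&& 127) 0) (bor
      (band (Nat.beq (c % 2) 0) (bor (inl e c) (force (eta e c) fun d =>
        bor (inl e d) (band (Nat.beq (d % 2) 0) (force (eta e d) (inl e))))))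
      (anyL (fun s => force (H80.PC.cj (PS e) s c) fun d =>
        anyL (fun f => Nat.beq d (mu (PS e) 1 f)) [0, 512, 128, 640]) [0, 16, 64, 80]))))) 1024 = true := by
  decide +kernel

end PTh

open PTh

namespace Fr
variable {F : Fr G} {g g' r r' d1 d2 η1 η2 a b : G} {P : Subgroup G} {e : Bool}

theorem ZS.PT_all (h : F.ZS g g' r r' d1 d2 η1 η2 a b e) {c : ℕ} (hc : c < 1024) :
    F.el g r d1 a b c ∈ F.Sm g r d1 a b 0 :=
  (h.elSm (by decide) hc).2 (Nat.and_zero c)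

theorem ZS.PT_inl (h : F.ZS g g' r r' d1 d2 η1 η2 a b e) {c : ℕ} (hc : inl e c = true) :
    ¬ F.Om (F.el g r d1 a b c) := by
  simp only [inl, bor_eq_true, anyL_iff, Nat.beq_eq] at hc
  rcases hc with ⟨_, hc, rfl⟩ | ⟨_, hc, rfl⟩
  · exact h.nOm (by cases e <;> decide) (c1 e) hc
  · exact h.nOm (by cases e <;> decide) (c2 e) hc

theorem ZS.PT_idx (h : F.ZS g g' r r' d1 d2 η1 η2 a b e) :
    ∀ s ∈ F.Sm g r d1 a b 0, s ∈ F.MM g r d1 a b ∨ s * F.t ∈ F.MM g r d1 a b := by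
  intro s hs
  obtain ⟨c, hc, -, rfl⟩ := (h.memSm (by decide)).1 hs
  have k := (allLt_iff _ _).1 (k1 e) c hc
  simp only [bor_eq_true, force_eq, Nat.beq_eq] at k
  rcases k with k | k
  · exact .inl (h.memM.2 ⟨c, hc, k, rfl⟩)
  · refine .inr (h.memM.2 ⟨_, (ZS.lt e c 2).1, k, ?_⟩)
    rw [h.mul, (ZS.gens F g r d1 a b).2.2.1]

theorem ZS.PT_MS (h : F.ZS g g' r r' d1 d2 η1 η2 a b e) : F.MM g r d1 a b ≤ F.Sm g r d1 a b 0 := by
  intro x hx
  obtain ⟨c, hc, -, rfl⟩ := h.memM.1 hx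
  exact h.PT_all hc

theorem ZS.PT_nOm (h : F.ZS g g' r r' d1 d2 η1 η2 a b e) {x : G} (hx : x ∈ F.MM g r d1 a b) : ¬ F.Om x := by
  intro o
  obtain ⟨g0, g1, -, -, -, -, -, -, g128, -, g512, -⟩ := ZS.gens F g r d1 a b
  obtain ⟨c, hc, hb, rfl⟩ := h.memM.1 hx
  have ca : F.CA := (h.cs.resolve_left fun k => F.hu1 k.1).2.2.2
  have cc : mu (PS e) c c = 0 := h.inj (ZS.lt e c c).1 (by decide) (by rw [h.mul, o.sq.1, g0])
  have k := (allLt_iff _ _).1 (k4 e) c hc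
  simp only [bimp_eq_true, bor_eq_true, band_eq_true, force_eq, anyL_iff, Nat.beq_eq] at k
  rcases k hb cc with k | ⟨ev, k⟩ | ⟨s, -, f, hf, k⟩
  · exact F.nX1 ca.n1 ca.n2 (h.ids.2.1 ▸ (h.elSm (by decide) hc).2 k) o
  · have o1 := o.cj η1
    rw [h.eta ev] at o1
    rcases k with k | k | ⟨ev', k⟩
    · exact h.PT_inl k o
    · exact h.PT_inl k o1
    · have o2 := o1.cj η1
      rw [h.eta ev'] at o2
      exact h.PT_inl k o2
  · have o1 := o.cj (F.el g r d1 a b s)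
    rw [← h.cj, k, h.mul, g1] at o1
    refine h.toZZ.ze_nX2 (F.memF0.2 ?_) o1
    simp only [List.mem_cons, List.not_mem_nil, or_false] at hf
    rcases hf with rfl | rfl | rfl | rfl
    · exact .inl g0
    · exact .inr (.inl g512)
    · exact .inr (.inr (.inl g128))
    · exact .inr (.inr (.inr (by rw [← (sqs e).2.2.2.2, h.mul, g512, g128])))

theorem ZS.M1E (h : F.ZS g g' r r' d1 d2 η1 η2 a b e) : F.Sm g r d1 a b 6 ≤ F.E := by
  obtain ⟨-, g1, -, -, g8, g16, -, -, -, g256, g512, -⟩ := ZS.gens F g r d1 a b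
  obtain ⟨q1, q2, q3, q4, -⟩ := sqs e
  have aE : F.el g r d1 a b 8 ∈ F.E := by rw [← q1, h.mul]; exact F.sq_mem _
  rw [h.cloSm (by decide), closure_le]
  rintro _ ⟨s, hs, rfl⟩
  rw [show gl 6 = [1, 8, 16, 32, 64, 128, 256, 512] by decide] at hs
  simp only [List.mem_cons, List.not_mem_nil, or_false] at hs
  rw [SetLike.mem_coe]
  rcases hs with rfl | rfl | rfl | rfl | rfl | rfl | rfl | rfl
  · rw [g1]; exact F.v2E
  · exact aE
  · rw [g16, ← h.ηa]; exact F.En.conj_mem _ (g8 ▸ aE) _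
  · rw [← q2, h.cm]; exact F.comm_mem _ _
  · rw [← q3, h.cm]; exact F.comm_mem _ _
  · rw [← q4, h.mul]; exact F.sq_mem _
  · rw [g256]; exact F.v1E
  · rw [g512]; exact F.zE

theorem ZS.tE (h : F.ZS g g' r r' d1 d2 η1 η2 a b e) : F.t ∉ F.E := by
  have tS : F.t ∈ F.Sm g r d1 a b 0 := (ZS.gens F g r d1 a b).2.2.1 ▸ h.PT_all (c := 2) (by decide)
  refine (F.trG (P := zpowers F.t) h.syl3 h.PT_MS tS (fun k => h.PT_nOm k F.om_t) h.PT_idx
    ((h.pSm 0).to_le (zpowers_le.2 tS)) (mem_zpowers _)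
    (zpowers_le.2 (mem_centralizer_singleton_iff.2 rfl)) (fun y _ k => h.PT_nOm k ⟨y, rfl⟩) ?_).2
  intro y m _
  rw [F.tt, one_pow, mul_one, mul_inv_cancel]
  exact one_mem _

theorem ZS.SE (h : F.ZS g g' r r' d1 d2 η1 η2 a b e) (τE : F.t * r ∈ F.E) : F.Sm g r d1 a b 0 ⊓ F.E = F.Sm g r d1 a b 2 := by
  have le : F.Sm g r d1 a b 2 ≤ F.E := by
    rw [h.cloSm (by decide), closure_le]
    rintro _ ⟨s, hs, rfl⟩
    have : s = 4 ∨ (s < 1024 ∧ s &&& 6 = 0) := by revert s; decide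
    rcases this with rfl | ⟨h1, h2⟩
    · rw [(ZS.gens F g r d1 a b).2.2.2.1]; exact τE
    · exact h.M1E ((h.elSm (by decide) h1).2 h2)
  refine le_antisymm ?_ (le_inf (fun x hx => ?_) le)
  · rintro x ⟨hx, xE⟩
    obtain ⟨c, hc, -, rfl⟩ := (h.memSm (by decide)).1 hx
    have k := (allLt_iff _ _).1 (k2 e) c hc
    simp only [bor_eq_true, Nat.beq_eq] at k
    rcases k with k | k
    · exact (h.elSm (by decide) hc).2 k
    · have := le ((h.elSm (by decide) (ZS.lt e c 2).1).2 k)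
      rw [h.mul, (ZS.gens F g r d1 a b).2.2.1] at this
      exact (h.tE ((F.E.mul_mem_cancel_left xE).1 this)).elim
  · obtain ⟨c, hc, -, rfl⟩ := (h.memSm (by decide)).1 hx
    exact h.PT_all hc

theorem ZS.SR (h : F.ZS g g' r r' d1 d2 η1 η2 a b e) (rE : r ∈ F.E) : F.Sm g r d1 a b 0 ⊓ F.E = F.MM g r d1 a b := by
  have le : F.MM g r d1 a b ≤ F.E := by
    intro x hx
    obtain ⟨c, hc, hb, rfl⟩ := h.memM.1 hx
    have k := (allLt_iff _ _).1 (k3 e) c hc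
    simp only [bimp_eq_true, bor_eq_true, Nat.beq_eq] at k
    rcases k hb with k | k
    · exact h.M1E ((h.elSm (by decide) hc).2 k)
    · have := h.M1E ((h.elSm (by decide) (ZS.lt e c 6).1).2 k)
      rw [h.mul, (ZS.gens F g r d1 a b).2.2.2.2.2.2.2.2.2.2.2.1] at this
      exact (mul_mem_cancel_right rE).1 this
  refine le_antisymm ?_ (le_inf h.PT_MS le)
  rintro x ⟨hx, xE⟩
  exact (h.PT_idx x hx).resolve_right fun k => h.tE ((F.E.mul_mem_cancel_left xE).1 (le k))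

end Fr

end H25.A6
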