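import Mathlib
import Cfsg.Agent.Lib.A6S.PT
import Cfsg.Agent.Lib.A6S.PS1

/-! The final contradiction with `nd`. -/

set_option autoImplicit false

namespace H25.A6

open Subgroup H69 H36.SW
open H25.A7 H80.PC H54 H25.PZ

variable {G : Type*} [Group G] [Finite G]

set_option maxRecDepth 100000 in
theorem pf5_d1 : ∀ e, allLt (fun c => bor (!Nat.beq (c &&& 26) 2) (bor (!Nat.beq (mu (PS e) c c) 0)
    (anyL (fun k => force (H80.PC.cj (PS e) k c) fun x => bor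
      (band (Nat.beq x 2) (Nat.beq (H80.PC.cj (PS e) k 128 &&& 127) 0))
      (band (Nat.beq x 3) (bor (Nat.beq (H80.PC.cj (PS e) k 128) 128) (Nat.beq (H80.PC.cj (PS e) k 128) 640))))
      [0, 4, 8, 12, 16, 20, 24, 28, 32, 36, 40, 44, 48, 52, 56, 60, 64, 68, 72, 76, 80, 84, 88, 92, 96, 100, 104,
        108, 112, 116, 120, 124]))) 1024 = true := by
  decide +kernel

set_option maxRecDepth 100000 in
theorem pf5_d2 : ∀ e, mu (PS e) 128 512 = 640 ∧ H80.PC.cj (PS e) 72 3 = 3 := by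
  decide +kernel

set_option maxRecDepth 100000 in
theorem pf5_d3 : allLt (fun c => bor (!Nat.beq (c &&& 24) 0) (bor (Nat.beq (c &&& 2) 0) (Nat.beq (c &&& 26) 2)))
    1024 = true := by
  decide +kernel

namespace Fr
variable {F : Fr G} {g g' r r' d1 d2 η1 η2 a b : G} {P : Subgroup G} {e : Bool}

theorem ZS.pair (h : F.ZS g g' r r' d1 d2 η1 η2 a b e) (τE : F.t * r ∈ F.E) {s : G} (o : F.Om s) (c : s * F.u1 = F.u1 * s) :
    ∃ k, k * s * k⁻¹ = F.t ∧ k * F.u1 * k⁻¹ ∈ F.T := by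
  obtain ⟨e0, -, e2, -, -, -, -, -, eu, -, ez, -, e3, -⟩ := ZS.gens F g r d1 a b
  obtain ⟨x, hx, le⟩ := h.sylu.exists_cj_le (P2.of_sq o.sq.1).zpowers
    (zpowers_le.2 (mem_centralizer_singleton_iff.2 c))
  have xu : x * F.u1 * x⁻¹ = F.u1 := B2.cj_of_comm (mem_centralizer_singleton_iff.1 hx)
  obtain ⟨n, hn, n24, en⟩ := (h.memSm (by decide)).1 (le (cj_mem x (mem_zpowers s)))
  have o' := o.cj x
  have n2 : n &&& 2 ≠ 0 := fun k => by
    have m : x * s * x⁻¹ ∈ F.E := by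
      have := (h.elSm (m := 2) (by decide) hn).2 k
      rw [← h.SE τE, ← en] at this
      exact this.2
    obtain ⟨y, hy⟩ := o'
    refine h.tE ?_
    have := F.En.conj_mem _ (hy ▸ m) y⁻¹
    rwa [show y⁻¹ * (y * F.t * y⁻¹) * y⁻¹⁻¹ = F.t by group] at this
  have nn : mu (PS e) n n = 0 := h.inj (ZS.lt e n n).1 (by decide) (by rw [h.mul, ← en, o'.sq.1, e0])
  have n26 : n &&& 26 = 2 := by
    have := (allLt_iff _ _).1 pf5_d3 n hn
    simpa [bor_eq_true, n24, n2] using this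
  have := (allLt_iff _ _).1 (pf5_d1 e) n hn
  simp only [n26, nn, bor_eq_true, anyL_iff, force_eq, band_eq_true, Nat.beq_eq, Nat.beq_refl, Bool.not_true,
    Bool.false_eq_true, false_or] at this
  obtain ⟨k, -, hk⟩ := this
  have k1 := h.cj k n
  have k2 := h.cj k 128
  rw [← en] at k1
  rw [eu] at k2
  generalize F.el g r d1 a b k = y at k1 k2
  rcases hk with ⟨p, q⟩ | ⟨p, q⟩
  · refine ⟨y * x, by rw [← e2, ← p, k1]; group, ?_⟩
    have := (h.elSm (m := 127) (by decide) (ZS.lt e k 128).2.2.1).2 q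
    rw [h.ids.2.1, k2, ← xu] at this
    exact F.W1T (F.X1W1 (by convert this using 1; group))
  · rw [p, e3, ← F.tv2] at k1
    have du : d2 * F.u1 * d2⁻¹ = F.u1 := conj_eq_of_mem_centralizer h.d2M (subset_closure (by simp))
    have dz : d2 * F.z * d2⁻¹ = F.z := conj_eq_of_mem_centralizer h.d2M
      (by rw [← h.gg]; exact mul_mem (subset_closure (by simp)) (subset_closure (by simp)))
    refine ⟨d2 * y * x, by rw [← h.toZZ.ze_r0, k1]; group, ?_⟩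
    rw [show d2 * y * x * F.u1 * (d2 * y * x)⁻¹ = d2 * (y * (x * F.u1 * x⁻¹) * y⁻¹) * d2⁻¹ by group, xu, ← k2]
    rcases q with q | q
    · rw [q, eu, du]; exact F.b2_uT
    · rw [q, ← (pf5_d2 e).1, h.mul, eu, ez, B2.cj_mul, du, dz]
      exact mul_mem F.b2_uT (F.W1T (F.X1W1 F.b2_zX))

theorem ZS.fin (h : F.ZS g g' r r' d1 d2 η1 η2 a b true) (τE : F.t * r ∈ F.E) (s : G) : s * F.u1 * s⁻¹ ≠ a * d1 := by
  intro hs
  obtain ⟨-, -, -, -, -, -, -, -, -, -, -, -, e3, e72, -⟩ := ZS.gens F g r d1 a b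
  have hT := h.toZZ.ze_T
  rw [show F.R g r d1 ⊔ closure {F.t, F.v2} = F.Sm g r d1 a b 24 from h.ids.2.2.2.1.symm] at hT
  have le0 : F.Sm g r d1 a b 24 ≤ F.Sm g r d1 a b 0 :=
    closure_mono fun x ⟨c, h1, _, h3⟩ => ⟨c, h1, Nat.and_zero c, h3⟩
  obtain ⟨c, hc, le⟩ := F.sylTD.exists_cj_le
    ((isPGroup_cj (h.pSm 0) d2).to_le inf_le_left) (inf_le_right (a := F.Sm g r d1 a b 0 ^ᶜ d2))
  have cN : c ∈ 𝐍(F.T) := F.wcT ((cj_mono c (hT ▸ inf_le_inf_right _ (cj_mono d2 le0))).trans le)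
  have c3 : a * d1 * (F.t * F.v2) * (a * d1)⁻¹ = F.t * F.v2 := by
    rw [F.tv2, ← e3, ← e72, ← h.cj, (pf5_d2 true).2]
  have mD : d2 * (a * d1) * d2⁻¹ ∈ (F.Sm g r d1 a b 0 ^ᶜ d2) ⊓ centralizer {F.t} :=
    ⟨cj_mem d2 (e72 ▸ (h.elSm (m := 0) (by decide) (by decide)).2 (by decide)),
      mem_centralizer_singleton_iff.2 (by rw [← h.toZZ.ze_r0]; exact B2.comm_cj d2 (B2.comm_of_cj c3))⟩
  have nT : d2 * (a * d1) * d2⁻¹ ∉ F.T := fun k => by
    rw [← hT, ← e72] at k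
    exact absurd ((h.elSm (m := 24) (by decide) (by decide)).1 (cj_mem_iff.1 k.1)) (by decide)
  have yD := le (cj_mem c mD)
  obtain ⟨-, τ, hτ, ey⟩ := (F.memTD yD).resolve_left fun k => nT ((mem_normalizer_iff.1 cN _).2 k)
  have yt := mem_centralizer_singleton_iff.1 (F.sylTD.le yD)
  obtain ⟨m, hm⟩ : ∃ m, m * F.u1 * m⁻¹ = c * (d2 * (a * d1) * d2⁻¹) * c⁻¹ := ⟨c * d2 * s, by rw [← hs]; group⟩
  rw [← hm] at yt ey
  obtain ⟨k, k1, k2⟩ := h.pair τE (F.om_t.cj m⁻¹) (by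
    have := B2.comm_cj m⁻¹ yt
    rw [show m⁻¹ * (m * F.u1 * m⁻¹) * m⁻¹⁻¹ = F.u1 by group] at this
    exact this.symm)
  refine F.nd h.d (k * m⁻¹) (B2.comm_of_cj (Eq.trans (by group) k1)) τ hτ ?_
  rwa [← ey, show k * m⁻¹ * (m * F.u1 * m⁻¹) * (k * m⁻¹)⁻¹ = k * F.u1 * k⁻¹ by group]

end Fr

end H25.A6
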