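import Mathlib
import Cfsg.Agent.Lib.A6S.PT
import Cfsg.Agent.Lib.A6S.PS1

/-! `t r ∈ E`. -/

set_option autoImplicit false
set_option maxRecDepth 100000

namespace H25.A6

open Subgroup H69 H36.SW
open H25.A7 H80.PC H54 H25.PZ

variable {G : Type*} [Group G] [Finite G]

namespace PR

theorem d1 : ∀ e, allLt (fun c => bor (!Nat.beq ((c / 2 + c / 4) % 2) 0) (bor (Nat.beq (c &&& 6) 0)
    (band (Nat.beq (mu (PS e) c 6 &&& 6) 0) (!Nat.beq (mu (PS e) c c) 0)))) 1024 = true := by
  decide +kernel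

theorem d2 : ∀ e, allLt (fun c => bor (!Nat.beq (c &&& 6) 0) (force (mu (PS e) c c) fun s =>
    bor (Nat.beq (s &&& 255) 0) (bor (!Nat.beq (mu (PS e) s s) 0)
      (decide (([0, 1, 32, 64, 128, 256, 6, 33, 65].map fun s => H80.PC.cj (PS e) s c).Nodup))))) 1024 = true := by
  decide +kernel

theorem d3 : allLt (fun c => bor (!Nat.beq (c &&& 6) 0) (Nat.beq ((c / 2 + c / 4) % 2) 0)) 1024 = true := by
  decide +kernel

theorem nb {a b : ℕ} : (!Nat.beq a b) = true ↔ a ≠ b := by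
  rw [Bool.not_eq_true', ← Bool.not_eq_true, Nat.beq_eq]

end PR

namespace Fr
variable {F : Fr G} {g g' r r' d1 d2 η1 η2 a b : G} {P : Subgroup G} {e : Bool}

theorem ZS.τE (h : F.ZS g g' r r' d1 d2 η1 η2 a b e) : F.t * r ∈ F.E := by
  by_contra hτ
  have rE : r ∈ F.E := (F.top r).resolve_right fun k => hτ (by
    have := F.En.conj_mem _ k F.t
    rwa [← mul_assoc, mul_inv_cancel_right] at this)
  have hS : IsSylowIn 2 (F.MM g r d1 a b) F.E := h.SR rE ▸ F.sylE h.syl3
  have m6 : 6 ∈ ML := by decide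
  have m255 : 255 ∈ ML := by decide
  obtain ⟨i1, -, -, -, RM, -⟩ := h.ids
  obtain ⟨g0, -, -, -, -, -, -, -, -, -, -, g6, -⟩ := ZS.gens F g r d1 a b
  have z := h.toZZ
  have D1 := (allLt_iff _ _).1 (PR.d1 e)
  have D2 := (allLt_iff _ _).1 (PR.d2 e)
  have D3 := (allLt_iff _ _).1 PR.d3
  simp only [bor_eq_true, band_eq_true, PR.nb, Nat.beq_eq, force_eq, decide_eq_true_eq] at D1 D2 D3
  have hM : F.Sm g r d1 a b 6 ≤ F.MM g r d1 a b := fun x hx => by
    obtain ⟨c, hc, k, rfl⟩ := (h.memSm m6).1 hx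
    exact h.memM.2 ⟨c, hc, (D3 c hc).resolve_left fun n => n k, rfl⟩
  have sq : ∀ c < 1024, F.el g r d1 a b c * F.el g r d1 a b c = 1 → mu (PS e) c c = 0 := fun c _ q =>
    h.inj (ZS.lt e c c).1 (by norm_num) (by rw [h.mul, q, g0])
  refine F.trE (M := F.Sm g r d1 a b 6) (x0 := r) (x := r) (P := F.R g r d1) hS hM (RM z.zaR) (fun k => ?_)
    (fun s hs => ?_) z.zaP (RM.trans hS.1) z.zaR (fun x hx => mem_centralizer_singleton_iff.2 (z.zac hx z.zaR))
    (fun y _ hy k => ?_) fun y _ m hy => ?_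
  · exact absurd ((h.elSm m6 (c := 6) (by norm_num)).1 (g6.symm ▸ k)) (by decide)
  · obtain ⟨c, hc, k, rfl⟩ := h.memM.1 hs
    rcases D1 c hc with n | n | n
    · exact absurd k n
    · exact Or.inl ((h.elSm m6 hc).2 n)
    · right
      have := (h.elSm m6 (ZS.lt e c 6).1).2 n.1
      rwa [h.mul, g6] at this
  · obtain ⟨c, hc, k, q⟩ := (h.memSm m6).1 k
    have q2 : F.el g r d1 a b (mu (PS e) c c) = y * F.u1 * y⁻¹ := by rw [h.mul, ← q, conj_mul, z.rr]
    rcases D2 c hc with n | n | n | n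
    · exact n k
    · refine h.uz y ?_
      rw [← q2, ← i1]
      exact (h.elSm m255 (ZS.lt e c c).1).2 n
    · exact n (sq _ (ZS.lt e c c).1 (by rw [q2, conj_mul, F.u11]; group))
    · have k1 := h.small (H := F.MM g r d1 a b) (fun s hs => h.memM.2 ⟨s, by
        simp only [List.mem_cons, List.not_mem_nil, or_false] at hs
        rcases hs with rfl | rfl | rfl | rfl | rfl | rfl | rfl | rfl | rfl <;> simp⟩) n
      have k2 : F.R g r d1 ^ᶜ y ≤ F.MM g r d1 a b ⊓ centralizer {F.el g r d1 a b c} :=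
        le_inf hy (by
          rintro _ ⟨x, hx, rfl⟩
          rw [mem_centralizer_singleton_iff, ← q]
          change y * x * y⁻¹ * _ = _ * (y * x * y⁻¹)
          rw [conj_mul, conj_mul, z.zac hx z.zaR])
      have k3 := card_le_of_le k2
      rw [card_cj, h.cardR] at k3
      rw [h.cardM] at k1
      simp only [List.length_cons, List.length_nil] at k1
      omega
  · obtain ⟨c, hc, k, q⟩ := h.memM.1 hy
    rw [q]
    rcases D1 c hc with n | n | n
    · exact absurd k n
    · exact (h.elSm m6 hc).2 n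
    · refine absurd (sq c hc ?_) n.2
      rw [← q, conj_mul, z.rr, ← (Commute.refl F.u1).mul_pow m, F.u11]
      group

end Fr

end H25.A6
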