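import Mathlib
import Cfsg.Agent.Lib.A6S.PT
import Cfsg.Agent.Lib.A6S.PS1

/-! The type `D₈³ / ±` is impossible. -/

set_option autoImplicit false
set_option maxRecDepth 100000

namespace H25.A6

open Subgroup H69 H36.SW
open H25.A7 H80.PC H54 H25.PZ

namespace PUH

theorem nb (a b : ℕ) : Nat.beq a b = false ↔ a ≠ b := by
  rw [Ne, ← Nat.beq_eq, Bool.not_eq_true]

/-- no two commuting elements of order four with the required squares centralise `k` -/
noncomputable def ok (k : ℕ) (L : List ℕ) : Bool :=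
  band (allLt (fun w => bor (!Nat.beq (w &&& 2) 0) (bor (!Nat.beq (mu (PS false) w k) (mu (PS false) k w))
    (force (mu (PS false) w w) fun s => bor (Nat.beq s 0) (bor (!Nat.beq (mu (PS false) s s) 0)
      (bor (Nat.beq s k) (anyL (Nat.beq w) L)))))) 1024)
  (allL (fun w1 => force (mu (PS false) w1 w1) fun s1 => allL (fun w2 => force (mu (PS false) w2 w2) fun s2 =>
    bor (Nat.beq s1 s2) (bor (Nat.beq (mu (PS false) s1 s2) k)
      (!Nat.beq (mu (PS false) w1 w2) (mu (PS false) w2 w1)))) L) L)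

theorem ok4 : ok 4 [17, 21, 25, 29, 136, 137, 140, 141, 144, 145, 148, 149, 152, 153, 156, 157, 257, 261, 265, 269, 273, 277, 281, 285, 385, 389, 392, 396, 400, 401, 404, 405, 408, 409, 412, 413, 529, 533, 537, 541, 648, 649, 652, 653, 656, 657, 660, 661, 664, 665, 668, 669, 769, 773, 777, 781, 785, 789, 793, 797, 897, 901, 904, 908, 912, 913, 916, 917, 920, 921, 924, 925] = true := by
  decide +kernel
theorem ok8 : ok 8 [160, 161, 168, 169, 180, 181, 188, 189, 257, 261, 265, 269, 273, 277, 281, 285, 416, 421, 424, 429, 433, 436, 441, 444, 672, 673, 680, 681, 692, 693, 700, 701, 769, 773, 777, 781, 785, 789, 793, 797, 928, 933, 936, 941, 945, 948, 953, 956] = true := by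
  decide +kernel
theorem ok36 : ok 36 [84, 85, 88, 89, 112, 113, 124, 125, 140, 141, 168, 169, 213, 217, 241, 253, 257, 269, 293, 297, 340, 341, 344, 345, 368, 369, 380, 381, 385, 396, 421, 424, 469, 473, 497, 509, 596, 597, 600, 601, 624, 625, 636, 637, 652, 653, 680, 681, 725, 729, 753, 765, 769, 781, 805, 809, 852, 853, 856, 857, 880, 881, 892, 893, 897, 908, 933, 936, 981, 985, 1009, 1021] = true := by
  decide +kernel
theorem ok40 : ok 40 [92, 93, 116, 121, 136, 137, 160, 161, 213, 217, 257, 269, 293, 297, 337, 348, 372, 373, 389, 392, 416, 429, 497, 509, 604, 605, 628, 633, 648, 649, 672, 673, 725, 729, 769, 781, 805, 809, 849, 860, 884, 885, 901, 904, 928, 941, 1009, 1021] = true := by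
  decide +kernel

theorem cases : allLt (fun k => bor (!Nat.beq (k &&& 130) 0) (bor (!Nat.beq (mu (PS false) k k) 0)
    (bor (Nat.beq (k &&& 255) 0) (bor (anyL (Nat.beq k) [12, 524, 268, 780]) (bor (anyL (Nat.beq k) [28, 796, 284, 540])
    (bor (anyL (Nat.beq k) [20, 276, 532, 788])
    (bor (anyL (fun s => anyL (Nat.beq (H80.PC.cj (PS false) s k)) [4, 8, 36, 40]) [0, 32, 64, 96])
    (anyL (fun l => decide ((List.map (fun s => H80.PC.cj (PS false) s k) l).Nodup))
      [[0, 841, 297, 661, 348], [0, 825, 596, 544, 120]])))))))) 1024 = true := by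
  decide +kernel

theorem e1 : allL (fun k => band (Nat.beq (k % 2) 0) (anyL (Nat.beq (eta false k)) [12, 524, 268, 780]))
    [28, 796, 284, 540] = true := by decide +kernel
theorem e2 : allL (fun k => band (Nat.beq (k % 2) 0) (anyL (Nat.beq (eta false k)) [28, 796, 284, 540]))
    [20, 276, 532, 788] = true := by decide +kernel
theorem idx : allLt (fun k => bor (!Nat.beq (k &&& 2) 0) (bor (Nat.beq (k &&& 130) 0)
    (Nat.beq (mu (PS false) k 128 &&& 130) 0))) 1024 = true := by decide +kernel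
theorem msk : ∀ c < 1024, (c &&& 24 = 0 → c &&& 2 = 0 → c &&& 26 = 0) ∧ (c &&& 26 = 0 → c &&& 24 = 0 ∧ c &&& 2 = 0) ∧
    (c &&& 130 = 0 → c &&& 2 = 0) := by decide +kernel

end PUH

variable {G : Type*} [Group G] [Finite G]

namespace Fr
variable {F : Fr G} {g g' r r' d1 d2 η1 η2 a b : G} {P : Subgroup G} {e : Bool}

theorem ZS.uE (h : F.ZS g g' r r' d1 d2 η1 η2 a b e) (τE : F.t * r ∈ F.E) {H : Subgroup G} (hH : IsPGroup 2 H) (hE : H ≤ F.E) {s : G}
    (hc : H ≤ centralizer {s * F.u1 * s⁻¹}) : Nat.card H ≤ 128 := by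
  obtain ⟨c, -, hle⟩ := h.sylu.exists_cj_le (R := H ^ᶜ s⁻¹) (hH.map _) (fun x hx => by
    have := mem_centralizer_singleton_iff.1 (hc (mem_cj.1 hx))
    rw [inv_inv] at this
    refine mem_centralizer_singleton_iff.2 ?_
    calc x * F.u1 = s⁻¹ * (s * x * s⁻¹ * (s * F.u1 * s⁻¹)) * s := by group
      _ = _ := by rw [this]; group)
  have : (H ^ᶜ s⁻¹) ^ᶜ c ≤ F.Sm g r d1 a b 26 := fun x hx => by
    obtain ⟨k, hk, m, rfl⟩ := (h.memSm (by decide)).1 (hle hx)
    have xE : F.el g r d1 a b k ∈ F.E := by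
      obtain ⟨y, hy, e1⟩ := mem_cj'.1 hx
      obtain ⟨w, hw, rfl⟩ := mem_cj'.1 hy
      rw [e1]
      exact F.En.conj_mem _ (F.En.conj_mem _ (hE hw) _) _
    have m2 : F.el g r d1 a b k ∈ F.Sm g r d1 a b 2 :=
      h.SE τE ▸ ⟨(h.elSm (by decide) hk).2 (Nat.and_zero k), xE⟩
    exact (h.elSm (by decide) hk).2 ((PUH.msk k hk).1 m ((h.elSm (by decide) hk).1 m2))
  have c1 := card_le_of_le this
  rwa [card_cj, card_cj, h.cardSm (by decide)] at c1

theorem ZS.PU_B (h : F.ZS g g' r r' d1 d2 η1 η2 a b false) (τE : F.t * r ∈ F.E) {k : ℕ}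
    (hk : k ∈ [12, 524, 268, 780]) {y : G} (e : y * F.u1 * y⁻¹ = F.el g r d1 a b k) : False := by
  have c1 := h.uE τE ((h.pSm 2).to_inf_left (K := centralizer {F.el g r d1 a b k}))
    (inf_le_left.trans (h.SE τE ▸ inf_le_right)) (s := y) (e ▸ inf_le_right)
  have c2 : Nat.card (F.Sm g r d1 a b 2) = 512 := h.cardSm (by decide)
  have hk' : k ∈ [12, 524] ∨ k ∈ [268, 780] := by
    simp only [List.mem_cons, List.not_mem_nil, or_false] at hk ⊢
    omega
  rcases hk' with m | m
  · have := h.big (m := 2) (by decide) (by decide +kernel) m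
    simp only [List.length_cons, List.length_nil] at this
    omega
  · have := h.big (m := 2) (by decide) (by decide +kernel) m
    simp only [List.length_cons, List.length_nil] at this
    omega

theorem ZS.PU_D (h : F.ZS g g' r r' d1 d2 η1 η2 a b false) {k : ℕ} {L : List ℕ} (ok : PUH.ok k L = true) {y : G}
    (hy : ∀ x ∈ F.Sm g r d1 a b 26, y * x * y⁻¹ ∈ F.Sm g r d1 a b 2) (e : y * F.u1 * y⁻¹ = F.el g r d1 a b k) :
    False := by
  obtain ⟨g0, -, -, -, -, -, g32, g64, -, g256, g512, -⟩ := ZS.gens F g r d1 a b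
  simp only [PUH.ok, band_eq_true, allLt_iff, allL_iff, bor_eq_true, force_eq, anyL_iff, Nat.beq_eq,
    Bool.not_eq_true', PUH.nb] at ok
  have lt := fun c c' => (ZS.lt false c c').1
  have uV : F.u1 ∉ F.V1 := by simpa using h.uz 1
  have zV : F.z ∈ F.V1 := subset_closure (by simp)
  have vV : F.v1 ∈ F.V1 := subset_closure (by simp)
  have key : ∀ c < 1024, c &&& 26 = 0 → ∀ x v, F.el g r d1 a b c = x → x * x = v → v ≠ 1 → v * v = 1 → v ∈ F.V1 →
      ∃ w ∈ L, y * x * y⁻¹ = F.el g r d1 a b w ∧ F.el g r d1 a b (mu (PS false) w w) = y * v * y⁻¹ := by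
    rintro c hc m _ _ rfl rfl v1 vv hv
    obtain ⟨w, hw, mw, ew⟩ := (h.memSm (by decide)).1 (hy _ ((h.elSm (by decide) hc).2 m))
    have cu := mem_centralizer_singleton_iff.1 (h.sylu.le ((h.elSm (by decide) hc).2 ((PUH.msk c hc).2.1 m).1))
    have sq : F.el g r d1 a b (mu (PS false) w w) = y * (F.el g r d1 a b c * F.el g r d1 a b c) * y⁻¹ := by
      rw [h.mul, ← ew, conj_mul]
    rcases ok.1 w hw with n | n | n | n | n | ⟨_, n, rfl⟩
    · exact absurd mw n
    · exact (n (h.inj (lt _ _) (lt _ _) (by rw [h.mul, h.mul, ← ew, ← e, conj_mul, conj_mul, cu]))).elim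
    · rw [n, g0] at sq
      exact absurd sq.symm (cjne v1 y)
    · exact (n (h.inj (lt _ _) (by decide) (by rw [h.mul, sq, g0, cjsq vv]))).elim
    · rw [n, ← e] at sq
      exact absurd (mul_left_cancel (mul_right_cancel sq) ▸ hv) uV
    · exact ⟨w, n, ew, sq⟩
  obtain ⟨w1, m1, e1, s1⟩ := key 32 (by decide) (by decide) g F.z g32 h.gg F.z1 F.zz zV
  obtain ⟨w2, m2, e2, s2⟩ := key 64 (by decide) (by decide) d1 F.v1 g64 h.d11
    (fun n => absurd (h.inj (by decide) (by decide) (g256.trans (n.trans g0.symm))) (by decide)) F.v11 vV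
  rcases ok.2 w1 m1 w2 m2 with n | n | n
  · rw [n, s2] at s1
    exact absurd (h.inj (by decide) (by decide)
      (g256.trans ((mul_left_cancel (mul_right_cancel s1)).trans g512.symm))) (by decide)
  · have := h.mul (mu (PS false) w1 w1) (mu (PS false) w2 w2)
    rw [n, s1, s2, ← e, conj_mul] at this
    exact uV (mul_left_cancel (mul_right_cancel this) ▸ mul_mem zV vV)
  · refine n (h.inj (lt _ _) (lt _ _) ?_)
    rw [h.mul, h.mul, ← e1, ← e2, conj_mul, conj_mul, h.d1M g (subset_closure (by simp))]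

theorem ZS.typU (h : F.ZS g g' r r' d1 d2 η1 η2 a b false) (τE : F.t * r ∈ F.E) : False := by
  obtain ⟨g0, -, -, -, -, -, -, -, g128, -⟩ := ZS.gens F g r d1 a b
  have lt := fun c c' => (ZS.lt false c c').1
  have l26 : F.Sm g r d1 a b 26 ≤ F.Sm g r d1 a b 24 ⊓ F.Sm g r d1 a b 2 := fun x hx => by
    obtain ⟨k, hk, m, rfl⟩ := (h.memSm (by decide)).1 hx
    exact ⟨(h.elSm (by decide) hk).2 ((PUH.msk k hk).2.1 m).1, (h.elSm (by decide) hk).2 ((PUH.msk k hk).2.1 m).2⟩
  have cu : F.Sm g r d1 a b 26 ≤ centralizer {F.u1} := (l26.trans inf_le_left).trans h.sylu.le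
  refine F.trE (S := F.Sm g r d1 a b 2) (M := F.Sm g r d1 a b 130) (P := F.Sm g r d1 a b 26) (x0 := F.u1)
    (x := F.u1) (h.SE τE ▸ F.sylE h.syl3) (fun x hx => ?_) (g128 ▸ (h.elSm (by decide) (by decide)).2 (by decide))
    (fun m => absurd ((h.elSm (by decide) (by decide)).1 (g128 ▸ m : F.el g r d1 a b 128 ∈ _)) (by decide))
    (fun s hs => ?_) (h.pSm 26) ((l26.trans inf_le_right).trans (h.SE τE ▸ inf_le_right))
    (g128 ▸ (h.elSm (by decide) (by decide)).2 (by decide)) cu (fun y _ hy m => ?_)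
    (fun y _ m _ => by rw [F.u11, one_pow, mul_one, mul_inv_cancel]; exact one_mem _)
  · obtain ⟨k, hk, m, rfl⟩ := (h.memSm (by decide)).1 hx
    exact (h.elSm (by decide) hk).2 ((PUH.msk k hk).2.2 m)
  · obtain ⟨k, hk, m, rfl⟩ := (h.memSm (by decide)).1 hs
    have := (allLt_iff _ _).1 PUH.idx k hk
    simp only [bor_eq_true, Nat.beq_eq, Bool.not_eq_true', PUH.nb] at this
    rcases this with n | n | n
    · exact absurd m n
    · exact Or.inl ((h.elSm (by decide) hk).2 n)
    · exact Or.inr (by rw [← g128, ← h.mul]; exact (h.elSm (by decide) (lt _ _)).2 n)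
  · obtain ⟨k, hk, mk, e⟩ := (h.memSm (by decide)).1 m
    have hy' : ∀ x ∈ F.Sm g r d1 a b 26, y * x * y⁻¹ ∈ F.Sm g r d1 a b 2 := fun x hx => hy (cj_mem y hx)
    have B1 : ∀ {k y}, k ∈ [28, 796, 284, 540] → y * F.u1 * y⁻¹ = F.el g r d1 a b k → False := fun {k y} n e => by
      have := (allL_iff _ _).1 PUH.e1 k n
      simp only [band_eq_true, anyL_iff, Nat.beq_eq] at this
      obtain ⟨ev, _, n', rfl⟩ := this
      exact h.PU_B τE n' (y := η1 * y) (by rw [← h.eta ev, ← e]; group)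
    have := (allLt_iff _ _).1 PUH.cases k hk
    simp only [bor_eq_true, anyL_iff, Nat.beq_eq, Bool.not_eq_true', PUH.nb,
      decide_eq_true_eq] at this
    rcases this with n | n | n | ⟨_, n, rfl⟩ | ⟨_, n, rfl⟩ | ⟨_, n, rfl⟩ | ⟨s, hs, k', n, e'⟩ | ⟨l, hl, n⟩
    · exact n mk
    · exact n (h.inj (lt _ _) (by decide) (by rw [h.mul, ← e, cjsq F.u11, g0]))
    · exact h.uz y (e ▸ h.ids.1 ▸ (h.elSm (by decide) hk).2 n)
    · exact h.PU_B τE n e
    · exact B1 n e
    · have := (allL_iff _ _).1 PUH.e2 k n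
      simp only [band_eq_true, anyL_iff, Nat.beq_eq] at this
      obtain ⟨ev, _, n', rfl⟩ := this
      exact B1 n' (y := η1 * y) (by rw [← h.eta ev, ← e]; group)
    · have sS : F.el g r d1 a b s ∈ F.Sm g r d1 a b 2 := by
        simp only [List.mem_cons, List.not_mem_nil, or_false] at hs
        rcases hs with rfl | rfl | rfl | rfl <;> exact (h.elSm (by decide) (by decide)).2 (by decide)
      have h1 : ∀ x ∈ F.Sm g r d1 a b 26, F.el g r d1 a b s * y * x * (F.el g r d1 a b s * y)⁻¹ ∈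
          F.Sm g r d1 a b 2 := fun x hx => by
        have := mul_mem (mul_mem sS (hy' x hx)) (inv_mem sS)
        convert this using 1; group
      have h2 : F.el g r d1 a b s * y * F.u1 * (F.el g r d1 a b s * y)⁻¹ = F.el g r d1 a b k' := by
        rw [← e', h.cj, ← e]; group
      simp only [List.mem_cons, List.not_mem_nil, or_false] at n
      rcases n with rfl | rfl | rfl | rfl
      exacts [h.PU_D PUH.ok4 h1 h2, h.PU_D PUH.ok8 h1 h2, h.PU_D PUH.ok36 h1 h2, h.PU_D PUH.ok40 h1 h2]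
    · have c1 := h.small (H := F.Sm g r d1 a b 2) (c := k) (l := l) (fun s hs => by
        have : s < 1024 ∧ s &&& 2 = 0 := by
          revert s
          simp only [List.mem_cons, List.not_mem_nil, or_false] at hl
          rcases hl with rfl | rfl <;> decide
        exact (h.elSm (by decide) this.1).2 this.2) n
      have c2 : l.length = 5 := by
        simp only [List.mem_cons, List.not_mem_nil, or_false] at hl
        rcases hl with rfl | rfl <;> rfl
      have c3 : F.Sm g r d1 a b 26 ^ᶜ y ≤ F.Sm g r d1 a b 2 ⊓ centralizer {F.el g r d1 a b k} := fun x hx => by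
        refine ⟨hy hx, ?_⟩
        obtain ⟨w, hw, rfl⟩ := mem_cj'.1 hx
        refine mem_centralizer_singleton_iff.2 ?_
        rw [← e, conj_mul, conj_mul, mem_centralizer_singleton_iff.1 (cu hw)]
      have c4 := card_le_of_le c3
      have c5 : Nat.card (F.Sm g r d1 a b 2) = 512 := h.cardSm (by decide)
      have c6 : Nat.card (F.Sm g r d1 a b 26) = 128 := h.cardSm (by decide)
      rw [card_cj, c6] at c4
      rw [c2, c5] at c1
      omega

end Fr

end H25.A6
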