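import Mathlib
import Cfsg.Agent.Lib.A6S.PA
import Cfsg.Agent.Lib.A6S.PB1
import Cfsg.Agent.Lib.A6S.PB2
import Cfsg.Agent.Lib.A6S.PR
import Cfsg.Agent.Lib.A6S.PU
import Cfsg.Agent.Lib.A6S.PF1
import Cfsg.Agent.Lib.A6S.PF3
import Cfsg.Agent.Lib.A6S.PF4
import Cfsg.Agent.Lib.A6S.PF5

/-! Type `ZZ` in the case `CA`, `dl ≠ 1` is impossible. -/

set_option autoImplicit false

namespace H25.A6

open Subgroup H69 H36.SW

variable {G : Type*} [Group G] [Finite G]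

namespace Fr

theorem ZZ.pure {F : Fr G} {g g' r r' d1 d2 η1 η2 : G} (h : F.ZZ F.u1 g g' r r' d1 d2 η1 η2) (d : F.dl ≠ 1) : False := by
  obtain ⟨_, _, _, h1⟩ := h.zr d
  obtain ⟨_, h2⟩ := h1.zr1
  obtain ⟨_, h3⟩ := h2.zr2
  obtain ⟨_, _, _, e, k⟩ := h3.zs
  cases e
  · exact k.typU k.τE
  · obtain ⟨s, es⟩ := k.ux k.τE
    obtain ⟨o, h1, h2, h3, h4⟩ := k.odd k.τE ⟨s, es⟩
    obtain ⟨s', es'⟩ := k.dx h1 h2 h3 h4
    exact k.fin k.τE (s' * s) (by rw [← es', ← es]; group)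

end Fr

end H25.A6
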