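import Mathlib
import Cfsg.Agent.Lib.A6S.IIe
import Cfsg.Agent.Lib.A6S.PZ

/-! Case `IIb` is impossible. -/

set_option autoImplicit false

namespace H25.A6

open Subgroup H69 H36.SW

variable {G : Type*} [Group G] [Finite G]

namespace Fr

theorem CA.pure {F : Fr G} (c : F.CA) (d : F.dl ≠ 1) (x : F.XT) : False := by
  obtain ⟨g, g', r, r', d1, d2, η1, η2, h⟩ := c.pureZ d x
  exact h.pure d

end Fr

end H25.A6
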