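import Mathlib
import Cfsg.Agent.Lib.A6S.PD
import Cfsg.Agent.Lib.A6S.ZB
import Cfsg.Agent.Lib.A6S.ZC
import Cfsg.Agent.Lib.A6S.ZD
import Cfsg.Agent.Lib.A6S.ZE

/-! Type `ZZ`, case `CA`: the normaliser of `Q`. -/

set_option autoImplicit false
set_option linter.unusedSectionVars false
set_option linter.unusedSimpArgs false

namespace H25.A6

open Subgroup H69 H36.SW
open H25.A7 H80.PC H54 H25.PZ

variable {G : Type*} [Group G] [Finite G]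

namespace Fr
variable {F : Fr G} {g g' r r' d1 d2 η1 η2 a b : G} {P : Subgroup G} {e : Bool}

theorem ZZ.pa0_nv (h : F.ZZ F.u1 g g' r r' d1 d2 η1 η2) (m : G) (hm : m ∈ closure ({g, r, F.u1} : Set G))
    (o : F.Om (F.t * m)) : m ∈ closure ({g, F.u1} : Set G) :=
  let ⟨_, hρ⟩ := h.rho
  h.nv hρ (fun k => absurd k F.hu1) hm o

theorem ZZ.pa0_gu (h : F.ZZ F.u1 g g' r r' d1 d2 η1 η2) {m : G} (hm : m ∈ closure ({g, F.u1} : Set G)) :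
    m ∈ F.R g r d1 ∧ m * m ∈ F.V1 := by
  induction hm using closure_induction with
  | mem x hx =>
    rcases hx with rfl | rfl
    · exact ⟨h.zaG, h.gg ▸ F.b2_zV⟩
    · exact ⟨h.XR F.b2_uX, F.u11 ▸ one_mem _⟩
  | one => exact ⟨one_mem _, by rw [mul_one]; exact one_mem _⟩
  | mul x y _ _ hx hy => exact ⟨mul_mem hx.1 hy.1, by rw [ZA.mm (h.zac hx.1 hy.1)]; exact mul_mem hx.2 hy.2⟩
  | inv x _ hx => exact ⟨inv_mem hx.1, by rw [← mul_inv_rev]; exact inv_mem hx.2⟩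

theorem ZZ.pa0_X (h : F.ZZ F.u1 g g' r r' d1 d2 η1 η2) {n w : G} (hn : n ∈ 𝐍(F.R g r d1)) (hw : w ∈ F.X1) :
    n * w * n⁻¹ ∈ F.X1 :=
  (h.sq (conj_mem_of_mem_normalizer hn (h.XR hw))).2.1 (by
    rw [conj_mul, F.sqW1 (F.X1W1 hw), mul_one, mul_inv_cancel])

theorem ZZ.pa0_A (h : F.ZZ F.u1 g g' r r' d1 d2 η1 η2) {w m : G} (hw : w ∈ F.X1)
    (hm : m ∈ closure ({g, r, F.u1} : Set G)) (o : F.Om (F.t * (w * m))) : w * m * (w * m) ∈ F.V1 := by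
  obtain ⟨i, j, k, rfl⟩ := F.memX1.1 hw
  have f : F.z ^ (j : ℕ) * F.u1 ^ (k : ℕ) * m ∈ closure ({g, r, F.u1} : Set G) :=
    mul_mem (h.zaF (mul_mem (pow_mem (subset_closure (by simp)) _) (pow_mem (subset_closure (by simp)) _))) hm
  rw [mul_assoc (F.v1 ^ (i : ℕ)), mul_assoc (F.v1 ^ (i : ℕ))] at o ⊢
  generalize F.z ^ (j : ℕ) * F.u1 ^ (k : ℕ) * m = x at f o ⊢
  fin_cases i
  · simp only [Fin.zero_eta, Fin.val_zero, pow_zero, one_mul] at o ⊢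
    exact (h.pa0_gu (h.pa0_nv x f o)).2
  · simp only [Fin.mk_one, Fin.val_one, pow_one] at o ⊢
    rw [ZA.mm (h.zac h.ze_v1R (h.MR f)), F.v11, one_mul]
    refine (h.pa0_gu (h.pa0_nv x f (Om.of_cj d1 ?_))).2
    have e : d1 * (F.t * x) * d1⁻¹ = F.t * (F.v1 * x) := by
      rw [B2.cj_mul, h.zat h.zad, h.d11, B2.cj_of_comm (h.zac h.zad (h.MR f)), mul_assoc]
    rwa [e]

theorem ZZ.pa0_ηV (h : F.ZZ F.u1 g g' r r' d1 d2 η1 η2) : η1 ∈ 𝐍(F.V1) := (ZC.SP1 h (ZC.eta h).1).2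

theorem ZZ.omR (h : F.ZZ F.u1 g g' r r' d1 d2 η1 η2) {x : G} (hx : x ∈ F.R g r d1) (o : F.Om (F.t * x)) : x * x ∈ F.V1 := by
  have gM : g ∈ closure ({g, r, F.u1} : Set G) := subset_closure (by simp)
  have rM : r ∈ closure ({g, r, F.u1} : Set G) := subset_closure (by simp)
  obtain ⟨w, hw, i, j, k, rfl⟩ := h.memR.1 hx
  have ηr : η1 * r ^ (k : ℕ) * η1⁻¹ = r ^ (k : ℕ) := by rw [← conj_pow, B2.cj_of_comm h.η1r]
  have rk := pow_mem rM (k : ℕ)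
  generalize r ^ (k : ℕ) = s at o ηr rk ⊢
  fin_cases j
  · simp only [Fin.zero_eta, Fin.val_zero, pow_zero, mul_one] at o ⊢
    rw [mul_assoc w] at o ⊢
    exact h.pa0_A hw (mul_mem (pow_mem gM _) rk) o
  · simp only [Fin.mk_one, Fin.val_one, pow_one] at o ⊢
    fin_cases i
    · simp only [Fin.zero_eta, Fin.val_zero, pow_zero, mul_one] at o ⊢
      have e : η1 * (η1⁻¹ * w * η1⁻¹⁻¹ * (g * s)) * η1⁻¹ = w * d1 * s := by
        rw [B2.cj_mul, B2.cj_mul η1 g, h.η1g, ηr]; group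
      rw [← e, conj_mul]
      refine conj_mem_of_mem_normalizer h.pa0_ηV (h.pa0_A (h.pa0_X (inv_mem h.ηN) hw) (mul_mem gM rk) (Om.of_cj η1 ?_))
      rwa [B2.cj_mul, e, B2.cj_of_comm h.η1t]
    · simp only [Fin.mk_one, Fin.val_one, pow_one] at o ⊢
      have e : η1 * (w * g * d1 * s) * η1⁻¹ = η1 * w * η1⁻¹ * (g⁻¹ * s) := by
        rw [B2.cj_mul, B2.cj_mul, B2.cj_mul, h.η1g, h.η1d, ηr]; group
      have m := h.pa0_A (h.pa0_X h.ηN hw) (mul_mem (inv_mem gM) rk) (by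
        have := o.cj η1
        rwa [B2.cj_mul, e, B2.cj_of_comm h.η1t] at this)
      rw [← e, conj_mul] at m
      exact (mem_normalizer_iff.1 h.pa0_ηV _).2 m

theorem ZZ.NQ (h : F.ZZ F.u1 g g' r r' d1 d2 η1 η2) {n : G} (hn : n ∈ 𝐍(F.QZ g r d1)) : n ∈ 𝐍(F.R g r d1) ∧ ∃ x ∈ F.R g r d1, n * F.t * n⁻¹ = F.t * x := by
  have k : ∀ x ∈ F.R g r d1, x * x ≠ 1 → n * x * n⁻¹ ∈ F.R g r d1 := fun x hx h1 => by
    refine (ZD.memQ h (conj_mem_of_mem_normalizer hn (mem_sup_left hx))).resolve_right ?_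
    rintro ⟨e, he, e1⟩
    refine h1 (conj_eq_one_iff.1 (?_ : n * (x * x) * n⁻¹ = 1))
    rw [← conj_mul, e1]
    calc e * F.t * (e * F.t) = e * (F.t * e * F.t) := by group
      _ = 1 := by rw [h.inv he, mul_inv_cancel]
  have kr := k r h.zaR (h.rr ▸ F.hu1)
  have hR : n ∈ 𝐍(F.R g r d1) := ZA.nrm (by
    rintro _ (rfl | rfl | rfl | rfl)
    · exact k _ h.zaG (h.gg ▸ F.z1)
    · exact k _ h.zad (h.d11 ▸ F.b2_v1)
    · exact kr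
    · have := mul_mem kr kr
      rwa [conj_mul, h.rr] at this)
  refine ⟨hR, ?_⟩
  rcases ZD.memQ h (conj_mem_of_mem_normalizer hn (ZA.zr _ _)) with e | ⟨e, he, e1⟩
  · exact (F.tX1 ((h.sq ((mem_normalizer_iff.1 hR _).2 e)).2.1 F.tt)).elim
  · exact ⟨e⁻¹, inv_mem he, e1.trans (h.ze_ti he)⟩

theorem ZZ.pa0_rt (h : F.ZZ F.u1 g g' r r' d1 d2 η1 η2) {w : G} (hw : w ∈ F.X1) : ∃ a ∈ F.R g r d1, a * a = w := by
  obtain ⟨i, j, k, rfl⟩ := F.memX1.1 hw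
  exact ⟨_, h.memR.2 ⟨1, one_mem _, j, i, k, rfl⟩, h.zasq (one_mem _) j i k⟩

theorem ZZ.pa0_adj (h : F.ZZ F.u1 g g' r r' d1 d2 η1 η2) {e : G} (he : e ∈ F.R g r d1) (h4 : e * e = F.z) :
    ∃ a ∈ F.R g r d1, a * (F.t * e) * a⁻¹ = F.t * g := by
  obtain ⟨a, ha, e1⟩ := h.pa0_rt ((h.sq (mul_mem h.zaG (inv_mem he))).2.1 (by
    rw [ZA.mm (h.zac h.zaG (inv_mem he)), h.gg, ← mul_inv_rev, h4, mul_inv_cancel]))
  exact ⟨a, ha, by rw [B2.cj_mul, h.zat ha, e1, B2.cj_of_comm (h.zac ha he)]; group⟩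

theorem ZZ.pa0_og (h : F.ZZ F.u1 g g' r r' d1 d2 η1 η2) : F.Om (F.t * g) ∧ F.Om (F.t * d1) := by
  obtain ⟨ρ, hρ⟩ := h.rho
  obtain ⟨f, -, -, e, he, e1, e2⟩ := h.exf hρ
  obtain ⟨a, -, e3⟩ := h.pa0_adj he e2
  have o : F.Om (F.t * g) := e3 ▸ Om.cj ⟨f, e1⟩ a
  refine ⟨o, ?_⟩
  have := o.cj η1
  rwa [B2.cj_mul, B2.cj_of_comm h.η1t, h.η1g] at this

theorem ZZ.pa0_NV (h : F.ZZ F.u1 g g' r r' d1 d2 η1 η2) {n e : G} (hn : n ∈ 𝐍(F.R g r d1)) (he : e ∈ F.R g r d1)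
    (h1 : n * F.t * n⁻¹ = F.t * e) : n ∈ 𝐍(F.V1) := by
  have k : ∀ x ∈ F.R g r d1, F.Om (F.t * x) → n * (x * x) * n⁻¹ ∈ F.V1 := fun x hx o => by
    have m := conj_mem_of_mem_normalizer hn hx
    have o' := o.cj n
    rw [B2.cj_mul, h1, mul_assoc] at o'
    have := h.omR (mul_mem he m) o'
    rwa [ZA.mm (h.zac he m), mul_mem_cancel_left (h.omR he ⟨n, h1⟩), conj_mul] at this
  refine ZA.nrm ?_
  rintro _ (rfl | rfl)
  · have := k g h.zaG h.pa0_og.1; rwa [h.gg] at this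
  · have := k d1 h.zad h.pa0_og.2; rwa [h.d11] at this

theorem ZZ.exa (h : F.ZZ F.u1 g g' r r' d1 d2 η1 η2) : ∃ f ∈ 𝐍(F.R g r d1), f ∈ 𝐂(F.V1) ∧ f * F.t * f⁻¹ = F.t * g ∧ f * F.u1 * f⁻¹ = F.u1 * F.z := by
  obtain ⟨ρ, hρ⟩ := h.rho
  obtain ⟨f, h1, hf, e, he, h3, h4⟩ := h.exf hρ
  have hu := (h.kill h.pa0_nv h1 hf he h3 h4).2
  have fV := h.pa0_NV hf he h3
  have VR : F.V1 ≤ F.R g r d1 := F.V1X1.trans h.XR
  have zS : (F.R g r d1 ⊔ closure {F.t, F.v2} : Subgroup G) ≤ centralizer {F.z} :=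
    sup_le (fun x hx => mem_centralizer_singleton_iff.2 (h.zac hx (VR F.b2_zV))) ((closure_le _).2 (by
      rintro x (rfl | rfl)
      exacts [mem_centralizer_singleton_iff.2 F.zt.symm, mem_centralizer_singleton_iff.2 F.B1zv2.symm]))
  have fz : f * F.z = F.z * f := by
    have c := mem_centralizer_singleton_iff.1 (zS (conj_mem_of_mem_normalizer' h1
      (mem_sup_right (subset_closure (by simp)) : F.v2 ∈ (F.R g r d1 ⊔ closure {F.t, F.v2} : Subgroup G))))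
    have c' : F.v2 * (f * F.z * f⁻¹) = f * F.z * f⁻¹ * F.v2 := by
      calc F.v2 * (f * F.z * f⁻¹) = f * (f⁻¹ * F.v2 * f * F.z) * f⁻¹ := by group
        _ = _ := by rw [c]; group
    rcases F.memV1.1 (conj_mem_of_mem_normalizer fV F.b2_zV) with k | k | k | k
    · exact absurd (conj_eq_one_iff.1 k) F.z1
    · exact mul_inv_eq_iff_eq_mul.1 k
    · rw [k] at c'; exact absurd c' F.zanc
    · rw [k, ← mul_assoc, ← F.B1zv2, mul_assoc, mul_assoc, mul_right_inj] at c'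
      exact absurd c' F.zanc
  obtain ⟨f0, n0, c0, t0, u0⟩ : ∃ f0 ∈ 𝐍(F.R g r d1), f0 ∈ 𝐂(F.V1) ∧ f0 * F.t * f0⁻¹ = F.t * e ∧
      f0 * F.u1 * f0⁻¹ = F.u2 := by
    rcases F.b2_pure fz fV with k | k
    · exact ⟨f, hf, ZA.cen (by rintro _ (rfl | rfl); exacts [fz.symm, k.symm]), h3, hu⟩
    · refine ⟨f * F.v2, mul_mem hf h.v2N, ZA.cen ?_, ?_, ?_⟩
      · rintro _ (rfl | rfl)
        · rw [← mul_assoc, ← fz, mul_assoc, F.B1zv2, mul_assoc]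
        · exact k.1.symm
      · rw [← h3, mul_assoc f, ← F.tv2]; group
      · rw [← hu, mul_assoc f, ← F.u1v2]; group
  obtain ⟨a, aR, e1⟩ := h.pa0_adj he h4
  refine ⟨a * f0, mul_mem (le_normalizer aR) n0, mul_mem (centralizer_anti VR (h.ab aR)) c0, ?_, ?_⟩
  · calc a * f0 * F.t * (a * f0)⁻¹ = a * (f0 * F.t * f0⁻¹) * a⁻¹ := by group
      _ = _ := by rw [t0, e1]
  · calc a * f0 * F.u1 * (a * f0)⁻¹ = a * (f0 * F.u1 * f0⁻¹) * a⁻¹ := by group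
      _ = _ := by rw [u0, h.zac aR (h.XR F.u2X1), mul_inv_cancel_right, F.u2_eq F.hu1, F.zu1]

theorem ZZ.NQV (h : F.ZZ F.u1 g g' r r' d1 d2 η1 η2) {n : G} (hn : n ∈ 𝐍(F.QZ g r d1)) : n ∈ 𝐍(F.V1) := by
  obtain ⟨hR, x, hx, e⟩ := h.NQ hn
  exact h.pa0_NV hR hx e

theorem ZZ.pa0_p (h : F.ZZ F.u1 g g' r r' d1 d2 η1 η2) {w : G} (hw : w ∈ F.V1) :
    ∃ p ∈ 𝐂(F.V1), ZC.Pt (F.R g r d1) F.t p w ∧ p * F.u1 * p⁻¹ = F.u1 * w := by
  obtain ⟨f, fR, fV, ft, fu⟩ := h.exa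
  have pa : ZC.Pt (F.R g r d1) F.t f F.z := ⟨fR, g, h.zaG, ft, h.gg⟩
  have bV : η1 * f * η1⁻¹ ∈ 𝐂(F.V1) :=
    conj_mem_of_mem_normalizer (normalizer_le_normalizer_centralizer _ h.pa0_ηV) fV
  have bt : η1 * f * η1⁻¹ * F.t * (η1 * f * η1⁻¹)⁻¹ = F.t * d1 := by
    calc _ = η1 * f * η1⁻¹ * (η1 * F.t * η1⁻¹) * (η1 * f * η1⁻¹)⁻¹ := by rw [B2.cj_of_comm h.η1t]
      _ = η1 * (f * F.t * f⁻¹) * η1⁻¹ := by group
      _ = _ := by rw [ft, B2.cj_mul, h.η1g, B2.cj_of_comm h.η1t]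
  have bu : η1 * f * η1⁻¹ * F.u1 * (η1 * f * η1⁻¹)⁻¹ = F.u1 * F.v1 := by
    have ez : η1 * F.z * η1⁻¹ = F.v1 := by rw [← h.gg, ← conj_mul, h.η1g, h.d11]
    calc _ = η1 * f * η1⁻¹ * (η1 * F.u1 * η1⁻¹) * (η1 * f * η1⁻¹)⁻¹ := by rw [B2.cj_of_comm h.η1u]
      _ = η1 * (f * F.u1 * f⁻¹) * η1⁻¹ := by group
      _ = _ := by rw [fu, B2.cj_mul, ez, B2.cj_of_comm h.η1u]
  have pb : ZC.Pt (F.R g r d1) F.t (η1 * f * η1⁻¹) F.v1 :=
    ⟨mul_mem (mul_mem h.ηN fR) (inv_mem h.ηN), d1, h.zad, bt, h.d11⟩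
  generalize η1 * f * η1⁻¹ = b at bV bu pb
  have av : f * F.v1 = F.v1 * f := (fV _ F.b2_vV).symm
  rcases F.memV1.1 hw with rfl | rfl | rfl | rfl
  · exact ⟨1, one_mem _, ZC.Pt.one (one_mem _) (by rw [one_mul, mul_one]), by simp⟩
  · exact ⟨f, fV, pa, fu⟩
  · exact ⟨b, bV, pb, bu⟩
  · refine ⟨f * b, mul_mem fV bV, (ZC.Pt.mul h.ab pa pb).cg (by rw [ZC.kfix av]), ?_⟩
    calc f * b * F.u1 * (f * b)⁻¹ = f * (b * F.u1 * b⁻¹) * f⁻¹ := by group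
      _ = f * F.u1 * f⁻¹ * (f * F.v1 * f⁻¹) := by rw [bu]; group
      _ = _ := by rw [fu, av, mul_inv_cancel_right, mul_assoc]

theorem ZZ.full (h : F.ZZ F.u1 g g' r r' d1 d2 η1 η2) {n : G} (hn : n ∈ 𝐍(F.QZ g r d1)) (hX : n ∈ 𝐂(F.X1)) : ∃ q ∈ F.QZ g r d1, ∃ o ∈ 𝐂(F.QZ g r d1), Odd (orderOf o) ∧ n = q * o := by
  obtain ⟨hR, x, hx, e⟩ := h.NQ hn
  have hw := h.omR hx ⟨n, e⟩
  obtain ⟨p, pV, p1, p2⟩ := h.pa0_p hw
  have q : ZC.Pt (F.R g r d1) F.t n (x * x) := ⟨hR, x, hx, e, rfl⟩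
  have c := (ZC.SP1 h ((ZC.Pt.mul h.ab p1 q).cg (by
    rw [ZC.kfix (pV _ hw).symm, F.sqW1 (F.X1W1 (F.V1X1 hw))]))).1
  have c1 : F.u1 * n = n * F.u1 := hX _ F.b2_uX
  rw [mul_assoc, ← c1, ← mul_assoc, ← mul_assoc, mul_left_inj] at c
  rw [B2.cj_of_comm c] at p2
  exact h.SP' hR hx e (left_eq_mul.1 p2) (centralizer_anti F.V1X1 hX)

theorem ZZ.invr (h : F.ZZ F.u1 g g' r r' d1 d2 η1 η2) : F.ZZ F.u1 g g' r⁻¹ r' d1 d2 η1 η2 ∧ F.R g r⁻¹ d1 = F.R g r d1 := by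
  have e1 : closure ({g, r⁻¹, F.u1} : Set G) ≤ closure ({g, r, F.u1} : Set G) := (closure_le _).2 (by
    rintro _ (rfl | rfl | rfl)
    exacts [subset_closure (by simp), inv_mem (subset_closure (by simp)), subset_closure (by simp)])
  refine ⟨{ h with
    cs := ?_
    rr := by rw [← mul_inv_rev, h.rr, inv_eq_of_mul_eq_one_right F.u11]
    gr := (show Commute g r from h.gr).inv_right.eq
    rT := inv_mem h.rT
    tr := by rw [ZA.ci F.tt, h.tr]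
    d1M := centralizer_anti e1 h.d1M
    d2M := centralizer_anti e1 h.d2M
    η1r := (show Commute η1 r from h.η1r).inv_right.eq }, le_antisymm ((closure_le _).2 ?_) ((closure_le _).2 ?_)⟩
  · rcases h.cs with ⟨k, -⟩ | ⟨k1, k2, k3, k4⟩
    · exact absurd k F.hu1
    · refine .inr ⟨k1, k2, ?_, k4⟩
      rw [show (g * r⁻¹)⁻¹ * r' = r * r * ((g * r)⁻¹ * r') by group, h.rr]
      exact mul_mem (subset_closure (by simp)) k3
  · rintro _ (rfl | rfl | rfl | rfl)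
    exacts [h.zaG, h.zad, inv_mem h.zaR, h.XR F.b2_uX]
  · rintro x (rfl | rfl | rfl | rfl)
    exacts [subset_closure (by simp), subset_closure (by simp),
      (inv_mem_iff (H := F.R g x⁻¹ d1)).1 (subset_closure (by simp)), subset_closure (by simp)]

end Fr

end H25.A6
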