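import Mathlib
import Cfsg.Agent.Lib.A6S.PD
import Cfsg.Agent.Lib.A6S.ZA
import Cfsg.Agent.Lib.A6S.ZC

/-! Codes for `ZS`. -/

set_option autoImplicit false
set_option maxRecDepth 100000

namespace H25.A6

open Subgroup H69 H36.SW
open H25.A7 H80.PC H54 H25.PZ

variable {G : Type*} [Group G] [Finite G]

namespace PC_

omit [Finite G] in
theorem ic {x y : G} (h : x * y = y * x) : x⁻¹ * y * x = y := by rw [mul_assoc, ← h, inv_mul_cancel_left]

omit [Finite G] in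
theorem fl {x y w : G} (h : x * y * x⁻¹ = y * w) (c : x * w = w * x) (w2 : w * w = 1) : x⁻¹ * y * x = y * w := by
  calc x⁻¹ * y * x = x⁻¹ * (y * w) * (w * x) := by rw [mul_assoc _ (y * w), mul_assoc y, ← mul_assoc w, w2]; group
    _ = y * w := by rw [← c]; nth_rewrite 1 [← h]; group

omit [Finite G] in
theorem ii {x y w : G} (h : x * x = 1) (e : x * y * x = w) : x⁻¹ * y * x = w := by
  rw [inv_eq_of_mul_eq_one_left h, e]

omit [Finite G] in
theorem cm {x y : G} (k : G) (h : x * y = y * x) : k * x * k⁻¹ * (k * y * k⁻¹) = k * y * k⁻¹ * (k * x * k⁻¹) := by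
  calc _ = k * (x * y) * k⁻¹ := by group
    _ = _ := by rw [h]; group

omit [Finite G] in
theorem cc {x y w : G} (k : G) (h : x * y * x⁻¹ = w) : k * x * k⁻¹ * (k * y * k⁻¹) * (k * x * k⁻¹)⁻¹ = k * w * k⁻¹ := by
  rw [← h]; group

omit [Finite G] in
theorem cx (k x y : G) : k * (x * y) * k⁻¹ = k * x * k⁻¹ * (k * y * k⁻¹) := by group

theorem len : ∀ e : Bool, 2 ^ (PS e).length = 1024 := by decide +kernel

theorem act_lt (P : List Lv) : ∀ (im : List ℕ) (a : ℕ), act P im a < 2 ^ P.length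
  | [], _ => Nat.two_pow_pos _
  | c :: im, a => by
    rw [act_cons]
    split_ifs
    · exact mu_lt _ _ _
    · exact act_lt P im _

theorem dk : ∀ e : Bool, allLt (fun a => bor (Nat.beq a 0)
    (rch (PS e) [1, 2, 4, 8, 16, 32, 64, 128, 256] [512] 9 a)) 1024 = true := by decide +kernel

theorem i1 : ∀ e : Bool, H80.PC.iv (P1 e) 12 = cond e 396 12 := by decide +kernel

theorem i2 : ∀ e : Bool, H80.PC.iv (PS e) 24 = cond e 792 24 ∧ H80.PC.iv (PS e) 96 = 864 := by decide +kernel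

theorem c0 : ∀ e : Bool, allLt (fun a => Nat.beq (lk ((P0 e).headD (0, 0, 0)).2.2 a)
    (act (P1 e) (im0 e) a)) 512 = true := by decide +kernel

theorem c1 : ∀ e : Bool, allLt (fun a => Nat.beq (lk ((P1 e).headD (0, 0, 0)).2.2 a)
    (act (P2 e) (im1 e) a)) 256 = true := by decide +kernel

theorem c2 : ∀ e : Bool, allLt (fun a => Nat.beq (lk ((P2 e).headD (0, 0, 0)).2.2 a)
    (act (P3 e) (im2 e) a)) 128 = true := by decide +kernel

theorem c3 : ∀ e : Bool, allLt (fun a => Nat.beq (lk ((P3 e).headD (0, 0, 0)).2.2 a)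
    (act (P4 e) (im3 e) a)) 64 = true := by decide +kernel

theorem c4 : ∀ e : Bool, allLt (fun a => Nat.beq (lk ((P4 e).headD (0, 0, 0)).2.2 a)
    (act (P5 e) (im4 e) a)) 32 = true := by decide +kernel

theorem c5 : ∀ e : Bool, allLt (fun a => Nat.beq (lk ((P5 e).headD (0, 0, 0)).2.2 a)
    (act (P6 e) (im5 e) a)) 16 = true := by decide +kernel

theorem c6 : ∀ e : Bool, allLt (fun a => Nat.beq (lk ((P6 e).headD (0, 0, 0)).2.2 a)
    (act (P7 e) (im6 e) a)) 8 = true := by decide +kernel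

theorem c7 : ∀ e : Bool, allLt (fun a => Nat.beq (lk ((P7 e).headD (0, 0, 0)).2.2 a)
    (act (P8 e) (im7 e) a)) 4 = true := by decide +kernel

theorem c8 : ∀ e : Bool, allLt (fun a => Nat.beq (lk ((P8 e).headD (0, 0, 0)).2.2 a)
    (act (P9 e) (im8 e) a)) 2 = true := by decide +kernel

end PC_

open PC_

namespace Fr
variable {F : Fr G} {g g' r r' d1 d2 η1 η2 a b : G} {P : Subgroup G} {e : Bool}

set_option maxHeartbeats 1600000 in
theorem ZS.ok (h : F.ZS g g' r r' d1 d2 η1 η2 a b e) : Ok (F.LZ g r d1 a b) (PS e) := by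
  have z := h.toZZ
  have gR := z.zaG
  have dR := z.zad
  have rR := z.zaR
  have uR := z.XR F.b2_uX
  have vR := z.XR F.b2_vX
  have zR := z.XR F.b2_zX
  have c := @ZZ.zac _ _ _ _ _ _ _ _ _ _ _ _ _ z
  obtain ⟨-, ez, ev1, eu⟩ := ZC.eta z
  rw [MulAut.conj_apply] at ez ev1 eu
  have vz := F.zv1.symm
  have w2 : F.v1 * F.z * (F.v1 * F.z) = 1 := by
    rw [mul_assoc, ← mul_assoc F.z, F.zv1, mul_assoc, F.zz, mul_one, F.v11]
  have gi : g⁻¹ = g * F.z := inv_eq_of_mul_eq_one_right (by rw [← mul_assoc, h.gg, F.zz])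
  have di : d1⁻¹ = d1 * F.v1 := inv_eq_of_mul_eq_one_right (by rw [← mul_assoc, h.d11, F.v11])
  have ri : r⁻¹ = r * F.u1 := inv_eq_of_mul_eq_one_right (by rw [← mul_assoc, h.rr, F.u11])
  have et : η1 * F.t * η1⁻¹ = F.t := by rw [h.η1t, mul_inv_cancel_right]
  have er : η1 * r * η1⁻¹ = r := by rw [h.η1r, mul_inv_cancel_right]
  have bv : b * F.v1 = F.v1 * b := by simpa only [h.ηa, ez] using cm η1 h.az
  have bz : b * F.z = F.z * b := by
    have := cm η1 h.av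
    rw [h.ηa, ev1, ← mul_assoc, mul_assoc F.z, ← bv, ← mul_assoc] at this
    exact mul_right_cancel this
  have bd : b * d1 * b⁻¹ = d1 * F.v1 := by simpa only [cx, h.ηa, ez, h.η1g] using cc η1 h.ag
  have bu : b * F.u1 * b⁻¹ = F.u1 * F.v1 := by simpa only [cx, h.ηa, ez, eu] using cc η1 h.au
  have bt : b * F.t * b⁻¹ = F.t * d1 := by simpa only [cx, h.ηa, et, h.η1g] using cc η1 h.at'
  have bg : b * g * b⁻¹ = g * (F.v1 * F.z) := by
    have k := cc η1 h.ad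
    rw [cx η1 d1, cx η1 F.z, h.ηa, h.η1d, ez, ev1, ← mul_assoc F.v1, vz, mul_assoc F.z, F.v11, mul_one] at k
    calc b * g * b⁻¹ = (b * (g * d1)⁻¹ * b⁻¹)⁻¹ * (b * d1 * b⁻¹)⁻¹ := by group
      _ = F.z⁻¹ * g * (d1 * F.v1⁻¹ * d1⁻¹) := by rw [k, bd]; group
      _ = _ := by
        rw [inv_eq_of_mul_eq_one_left F.zz, inv_eq_of_mul_eq_one_left F.v11, c dR vR, mul_inv_cancel_right, c zR gR,
          mul_assoc, vz]
  have bb : b * b = cond e F.v1 1 := by
    rw [← h.ηa, ← cx, h.aa]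
    cases e
    · simp
    · exact ez
  have atr : a * (F.t * r) = F.t * r * a := by
    rw [← mul_inv_eq_iff_eq_mul, cx, h.at', h.ar, mul_assoc, ← mul_assoc g, c gR rR, mul_inv_cancel_right]
  have btr : b * (F.t * r) = F.t * r * b := by simpa only [cx, h.ηa, et, er] using cm η1 atr
  have tr2 : F.t * r * (F.t * r) = 1 := by rw [← mul_assoc, h.tr, inv_mul_cancel]
  have trc : ∀ x ∈ F.R g r d1, (F.t * r)⁻¹ * x * (F.t * r) = x⁻¹ := fun x hx => by
    calc _ = r⁻¹ * (F.t * x * F.t) * r := by rw [mul_inv_rev, inv_eq_of_mul_eq_one_left F.tt]; group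
      _ = _ := by rw [z.inv hx, ic (c rR (inv_mem hx))]
  have ui := inv_eq_of_mul_eq_one_left F.u11
  have vi := inv_eq_of_mul_eq_one_left F.v11
  have zi := inv_eq_of_mul_eq_one_left F.zz
  have v2m : ∀ {m : G}, m ∈ ({g, r, F.u1} : Set G) → F.v2 * m = m * F.v2 := fun hm => z.zav (subset_closure hm)
  have ag := fl h.ag h.az F.zz
  have bd' := fl bd bv F.v11
  have o9 : Ok [F.z] (P9 e) :=
    (show Ok ([] : List G) [] from trivial).cons (im := []) rfl F.zz .nil (by decide +kernel)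
  have o8 : Ok [F.v1, F.z] (P8 e) := o9.cons (im := im8 e) (by simp) (by simpa [ev] using F.v11)
    (by simpa [ev, im8] using ic vz) (c8 e)
  have o7 : Ok [F.u1, F.v1, F.z] (P7 e) := o8.cons (im := im7 e) (by simp) (by simpa [ev] using F.u11)
    (by simpa [ev, im7] using ⟨ic (c uR vR), ic (c uR zR)⟩) (c7 e)
  have o6 : Ok [d1, F.u1, F.v1, F.z] (P6 e) := o7.cons (im := im6 e) (by simp) (by simpa [ev] using h.d11)
    (by simpa [ev, im6] using ⟨ic (c dR uR), ic (c dR vR), ic (c dR zR)⟩) (c6 e)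
  have o5 : Ok [g, d1, F.u1, F.v1, F.z] (P5 e) := o6.cons (im := im5 e) (by simp) (by simpa [ev] using h.gg)
    (by simpa [ev, im5] using ⟨ic (c gR dR), ic (c gR uR), ic (c gR vR), ic (c gR zR)⟩)
    (c5 e)
  have o4 : Ok [b, g, d1, F.u1, F.v1, F.z] (P4 e) := o5.cons (im := im4 e) (by simp)
    (by rw [bb]; cases e <;> simp [ev])
    (by simpa [ev, im4] using ⟨fl bg (by rw [← mul_assoc, bv, mul_assoc, bz, mul_assoc]) w2, bd',
      fl bu bv F.v11, ic bv, ic bz⟩) (c4 e)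
  have o3 : Ok [a, b, g, d1, F.u1, F.v1, F.z] (P3 e) := o4.cons (im := im3 e) (by simp)
    (by rw [h.aa]; cases e <;> simp [ev])
    (by simpa [ev, im3] using ⟨ic h.ab', ag,
      fl (vz ▸ h.ad) (by rw [← mul_assoc, h.av, mul_assoc, h.az, mul_assoc]) w2,
      fl h.au h.az F.zz, ic h.av, ic h.az⟩) (c3 e)
  have o2 : Ok [F.t * r, a, b, g, d1, F.u1, F.v1, F.z] (P2 e) := o3.cons (im := im2 e) (by simp)
    (tr2.trans (ev_zero _).symm)
    (by simpa [ev, im2, -mul_inv_rev] using ⟨ic atr.symm, ic btr.symm, (trc g gR).trans gi, (trc _ dR).trans di,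
      (trc _ uR).trans ui, (trc _ vR).trans vi, (trc _ zR).trans zi⟩) (c2 e)
  have o1 : Ok [F.t, F.t * r, a, b, g, d1, F.u1, F.v1, F.z] (P1 e) := o2.cons (im := im1 e) (by simp)
    (F.tt.trans (ev_zero _).symm)
    (by
      have k1 : F.t * (F.t * r) * F.t = F.t * r * F.u1 := by
        rw [mul_assoc, mul_assoc, ← mul_assoc F.t r, h.tr, ri, mul_assoc]
      have k2 : F.t * a * F.t = a * (g * F.z) := by
        calc _ = F.t * (a * F.t * a⁻¹) * a := by group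
          _ = a * (a⁻¹ * g * a) := by rw [h.at', F.b2_tt]; group
          _ = _ := by rw [ag]
      have k3 : F.t * b * F.t = b * (d1 * F.v1) := by
        calc _ = F.t * (b * F.t * b⁻¹) * b := by group
          _ = b * (b⁻¹ * d1 * b) := by rw [bt, F.b2_tt]; group
          _ = _ := by rw [bd']
      simpa [ev, im1, -inv_mul_cancel_left] using ⟨ii F.tt k1, ii F.tt k2, ii F.tt k3, ii F.tt (h.tg.trans gi), ii F.tt (h.td1.trans di),
        ic F.tu1, ic F.tv1, ic F.zt.symm⟩) (c1 e)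
  refine o1.cons (im := im0 e) (by simp) (F.v22.trans (ev_zero _).symm) ?_ (c0 e)
  have k1 : F.v2 * (F.t * r) = F.t * r * F.v2 := by
    rw [← mul_assoc, ← F.tv2, mul_assoc, v2m (m := r) (by simp), mul_assoc]
  have k2 : F.v2⁻¹ * b * F.v2 = ev [F.t, F.t * r, a, b, g, d1, F.u1, F.v1, F.z] (cond e 396 12) := by
    rw [← i1, o1.inv, ii F.v22 h.vb]
    simp [ev]
  have k3 : F.v2 * d1 * F.v2 = g * (d1 * (F.v1 * F.z)) := by
    calc _ = d1 * (d1⁻¹ * F.v2 * d1) * F.v2 := by group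
      _ = d1 * g * (F.v2 * F.v1 * F.v2) := by rw [h.c1, v2m (m := g) (by simp)]; group
      _ = _ := by rw [F.zav2, c dR gR, vz, mul_assoc]
  have k4 : List.Forall₂ (fun y c => F.v2⁻¹ * y * F.v2 = ev [F.t, F.t * r, a, b, g, d1, F.u1, F.v1, F.z] c)
      [F.t, F.t * r, a, b, g, d1, F.u1, F.v1, F.z] [1, 2, 4, cond e 396 12, 16, 432, 64, 384, 256] := by
    refine .cons ?_ (.cons ?_ (.cons ?_ (.cons k2 ?_)))
    · simpa [ev] using ic F.tv2.symm
    · simpa [ev] using ic k1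
    · simpa [ev] using ic h.va
    · simpa [ev] using ⟨ic (v2m (m := g) (by simp)), ii F.v22 k3, ic F.u1v2.symm, ii F.v22 (F.zav2.trans vz.symm),
        ic F.B1zv2.symm⟩
  cases e <;> exact k4

theorem ZS.ker (h : F.ZS g g' r r' d1 d2 η1 η2 a b e) : Ker (F.LZ g r d1 a b) := by
  have nz : ∀ z ∈ [512], ev (F.LZ g r d1 a b) z ≠ 1 := by simpa [LZ, ev] using F.z1
  exact h.ok.ker nz (by simp [LZ]) (dk e)

theorem ZS.mul (h : F.ZS g g' r r' d1 d2 η1 η2 a b e) (c c' : ℕ) : F.el g r d1 a b (mu (PS e) c c') = F.el g r d1 a b c * F.el g r d1 a b c' := by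
  exact h.ok.mul c c'

theorem ZS.iv (h : F.ZS g g' r r' d1 d2 η1 η2 a b e) (c : ℕ) : F.el g r d1 a b (iv (PS e) c) = (F.el g r d1 a b c)⁻¹ := by
  exact h.ok.inv c

theorem ZS.cj (h : F.ZS g g' r r' d1 d2 η1 η2 a b e) (s c : ℕ) : F.el g r d1 a b (H80.PC.cj (PS e) s c) = F.el g r d1 a b s * F.el g r d1 a b c * (F.el g r d1 a b s)⁻¹ := by
  exact h.ok.cj s c

theorem ZS.cm (h : F.ZS g g' r r' d1 d2 η1 η2 a b e) (s c : ℕ) : F.el g r d1 a b (H80.PC.cm (PS e) s c) = F.el g r d1 a b s * F.el g r d1 a b c * (F.el g r d1 a b s)⁻¹ * (F.el g r d1 a b c)⁻¹ := by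
  exact h.ok.cm s c

theorem ZS.lt (e : Bool) (c c' : ℕ) : mu (PS e) c c' < 1024 ∧ H80.PC.iv (PS e) c < 1024 ∧ H80.PC.cj (PS e) c c' < 1024 ∧
    H80.PC.cm (PS e) c c' < 1024 ∧ eta e c < 1024 := by
  rw [← len e]
  exact ⟨mu_lt _ _ _, iv_lt _ _, cj_lt _ _ _, cm_lt _ _ _, act_lt _ _ _⟩

theorem ZS.inj (h : F.ZS g g' r r' d1 d2 η1 η2 a b e) {c c' : ℕ} (hc : c < 1024) (hc' : c' < 1024) (q : F.el g r d1 a b c = F.el g r d1 a b c') : c = c' := by
  have k : 2 ^ (F.LZ g r d1 a b).length = 1024 := by simp [LZ]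
  exact h.ok.inj h.ker (by rwa [k]) (by rwa [k]) q

theorem ZS.gens (F : Fr G) (g r d1 a b : G) : F.el g r d1 a b 0 = 1 ∧ F.el g r d1 a b 1 = F.v2 ∧ F.el g r d1 a b 2 = F.t ∧ F.el g r d1 a b 4 = F.t * r ∧ F.el g r d1 a b 8 = a ∧
    F.el g r d1 a b 16 = b ∧ F.el g r d1 a b 32 = g ∧ F.el g r d1 a b 64 = d1 ∧ F.el g r d1 a b 128 = F.u1 ∧ F.el g r d1 a b 256 = F.v1 ∧
    F.el g r d1 a b 512 = F.z ∧ F.el g r d1 a b 6 = r ∧ F.el g r d1 a b 3 = F.v2 * F.t ∧ F.el g r d1 a b 72 = a * d1 ∧ F.el g r d1 a b 136 = a * F.u1 := by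
  simp [el, LZ, ev, F.b2_tt]

theorem ZS.eta (h : F.ZS g g' r r' d1 d2 η1 η2 a b e) {c : ℕ} (hc : c % 2 = 0) : η1 * F.el g r d1 a b c * η1⁻¹ = F.el g r d1 a b (eta e c) := by
  obtain ⟨-, ez, ev1, eu⟩ := ZC.eta h.toZZ
  rw [MulAut.conj_apply] at ez ev1 eu
  have et : η1 * F.t * η1⁻¹ = F.t := by rw [h.η1t, mul_inv_cancel_right]
  have er : η1 * r * η1⁻¹ = r := by rw [h.η1r, mul_inv_cancel_right]
  have k2 : η1 * b * η1⁻¹ = ev (F.LZ g r d1 a b) (cond e 792 24) := by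
    rw [← (i2 e).1, h.ok.inv, h.ηb]
    simp [LZ, ev]
  have k3 : η1 * d1 * η1⁻¹ = ev (F.LZ g r d1 a b) 864 := by
    rw [← (i2 e).2, h.ok.inv, h.η1d]
    simp [LZ, ev]
  have k4 : List.Forall₂ (fun y c => y = ev (F.LZ g r d1 a b) c)
      ([F.t, F.t * r, a, b, g, d1, F.u1, F.v1, F.z].map (MulAut.conj η1).toMonoidHom)
      [2, 4, 16, cond e 792 24, 64, 864, 128, 768, 256] := by
    refine .cons ?_ (.cons ?_ (.cons ?_ (.cons k2 (.cons ?_ (.cons k3 ?_)))))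
    · simpa [LZ, ev] using et
    · show η1 * (F.t * r) * η1⁻¹ = _
      rw [cx, et, er]
      simp [LZ, ev]
    · simpa [LZ, ev] using h.ηa
    · simpa [LZ, ev] using h.η1g
    · simpa [LZ, ev] using ⟨eu, ev1.trans F.zv1, ez⟩
  have k5 : imE e = [2, 4, 16, cond e 792 24, 64, 864, 128, 768, 256] := by cases e <;> rfl
  have k6 : F.el g r d1 a b c = ev [F.t, F.t * r, a, b, g, d1, F.u1, F.v1, F.z] (c / 2) := by
    rw [← ev_bit0 F.v2, show 2 * (c / 2) = c by omega]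
    rfl
  rw [k6, H25.PZ.eta, k5, el, ← h.ok.act k4, ← ev_map]
  rfl

end Fr

end H25.A6
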