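import Mathlib
import Cfsg.Agent.Lib.A6S.Q9
import Cfsg.Agent.Lib.A6S.Q7
import Cfsg.Agent.Lib.Core.Coprime

/-! `t` and `t v2` act without fixed points on `qL` modulo the kernel. -/

set_option autoImplicit false

namespace H25.A6

open Subgroup H69 H36.SW H25.A7

variable {G : Type*} [Group G] [Finite G]

namespace Fr
variable {F : Fr G} {g g' r r' d1 d2 η1 η2 a b : G}

omit [Finite G] in
theorem Q10_mul {n m : G} (hn : n ∈ 𝐂(F.V1)) (h1 : F.qT g r d1 a b n) (h2 : F.qT g r d1 a b m) :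
    F.qT g r d1 a b (n * m) := fun x hx => by
  have e := conj_eq_of_mem_centralizer hn (h2 x hx)
  have : x⁻¹ * (n * m * x * (n * m)⁻¹) = x⁻¹ * (n * x * n⁻¹) * (n * (x⁻¹ * (m * x * m⁻¹)) * n⁻¹) := by group
  rw [this, e]
  exact mul_mem (h1 x hx) (h2 x hx)

omit [Finite G] in
theorem Q10_inv {n : G} (hn : n ∈ 𝐍(F.qE g r d1 a b)) (h1 : F.qT g r d1 a b n) : F.qT g r d1 a b n⁻¹ := fun x hx => by
  have e := inv_mem (h1 _ (conj_mem_of_mem_normalizer' hn hx))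
  have : x⁻¹ * (n⁻¹ * x * n⁻¹⁻¹) = ((n⁻¹ * x * n)⁻¹ * (n * (n⁻¹ * x * n) * n⁻¹))⁻¹ := by group
  rw [this]
  exact e

theorem Q10_self (h : F.QC g g' r r' d1 d2 η1 η2 a b) {p : G} (hp : p ∈ F.qE g r d1 a b) : F.qT g r d1 a b p :=
  fun x hx => by
    have e := (h.comm (inv_mem hx) hp).1
    rw [inv_inv] at e
    simpa only [mul_assoc] using e

theorem Q10_odd (F : Fr G) {c o : G} (hc : c * F.z = F.z * c) (ho : Odd (orderOf o))
    (ht : o * (c * F.t * c⁻¹) = c * F.t * c⁻¹ * o) (hz : o * F.z = F.z * o) {Y : Subgroup G} (hY : IsPGroup 2 Y)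
    (h1 : Y ≤ centralizer {c * F.t * c⁻¹}) (h2 : Y ≤ centralizer {F.z}) (hn : o ∈ 𝐍(Y)) : o ∈ 𝐂(Y) := by
  have ez : c⁻¹ * F.z * c⁻¹⁻¹ = F.z := by rw [inv_inv, mul_assoc, ← hc]; group
  have et : c⁻¹ * (c * F.t * c⁻¹) * c⁻¹⁻¹ = F.t := by group
  have k := F.qodd (o := c⁻¹ * o * c⁻¹⁻¹) (Y := Y ^ᶜ c⁻¹)
    (by rwa [← MulAut.conj_apply, MulEquiv.orderOf_eq])
    (by
      calc c⁻¹ * o * c⁻¹⁻¹ * F.t = c⁻¹ * (o * (c * F.t * c⁻¹)) * c := by group
        _ = _ := by rw [ht]; group)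
    (by
      calc c⁻¹ * o * c⁻¹⁻¹ * F.z = c⁻¹ * o * (c * F.z) := by group
        _ = c⁻¹ * (o * F.z) * c := by rw [hc]; group
        _ = (c⁻¹ * F.z * c⁻¹⁻¹) * (c⁻¹ * o * c⁻¹⁻¹) := by rw [hz]; group
        _ = _ := by rw [ez])
    (isPGroup_cj hY _)
    (by rw [← et, ← cj_centralizer_singleton]; exact cj_mono _ h1)
    (by rw [← ez, ← cj_centralizer_singleton]; exact cj_mono _ h2)
    (by rw [← cj_normalizer]; exact cj_mem _ hn)
  rw [← cj_centralizer] at k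
  exact cj_mem_iff.1 k

theorem QC.fpf (h : F.QC g g' r r' d1 d2 η1 η2 a b) {s n : G} (hs : s = F.t ∨ s = F.t * F.v2) (hn : n ∈ F.qL g r d1 a b)
    (e : F.qT g r d1 a b (s * n * s * n⁻¹)) : F.qT g r d1 a b n := by
  have tS : F.t ∈ F.qS g r d1 a b := subset_closure (by simp)
  have vS : F.v2 ∈ F.qS g r d1 a b := subset_closure (by simp)
  have EP : F.qE g r d1 a b ≤ F.qP g r d1 a b := fun x hx => h.memP.2 (Or.inl hx)
  have tP : F.t ∈ F.qP g r d1 a b := subset_closure (by simp)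
  have sS : s ∈ F.qS g r d1 a b := by
    rcases hs with rfl | rfl
    exacts [tS, mul_mem tS vS]
  have sE : s ∉ F.qE g r d1 a b := by
    rcases hs with rfl | rfl
    · exact h.nmem.2.2.2.2.1
    · intro k
      exact h.nmem.2.2.1 ((mul_mem_cancel_left tP).1 (EP k))
  have s2 : s * s = 1 := by
    rcases hs with rfl | rfl
    · exact F.tt
    · calc F.t * F.v2 * (F.t * F.v2) = F.t * (F.v2 * F.t) * F.v2 := by group
        _ = (F.t * F.t) * (F.v2 * F.v2) := by rw [← F.tv2]; group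
        _ = 1 := by rw [F.tt, F.v22, mul_one]
  obtain ⟨k, hk, kT, hy⟩ := h.corr sS sE s2 hn e
  have e1 : s * (s * (k * n * s * (k * n)⁻¹)) = k * n * s * (k * n)⁻¹ := by rw [← mul_assoc, s2, one_mul]
  have e2 : s * (s * (k * n * s * (k * n)⁻¹)) * (s * (s * (k * n * s * (k * n)⁻¹))) = 1 := by
    rw [e1]
    calc _ = k * n * (s * s) * (k * n)⁻¹ := by group
      _ = 1 := by rw [s2]; group
  obtain ⟨p, hp, ep⟩ : ∃ p ∈ F.qE g r d1 a b, s * (s * (k * n * s * (k * n)⁻¹)) = p * s * p⁻¹ := by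
    rcases hs with rfl | rfl
    exacts [h.clt hy e2, h.cls hy e2]
  rw [e1] at ep
  have hS := h.sylE
  have EL : F.qE g r d1 a b ≤ F.qL g r d1 a b := le_inf le_normalizer hS.le
  have mL : p⁻¹ * (k * n) ∈ F.qL g r d1 a b := mul_mem (inv_mem (EL hp)) (mul_mem hk hn)
  have mc : p⁻¹ * (k * n) ∈ centralizer {s} := mem_centralizer_singleton_iff.2 (by
    calc p⁻¹ * (k * n) * s = p⁻¹ * (k * n * s * (k * n)⁻¹) * (k * n) := by group
      _ = _ := by rw [ep]; group)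
  obtain ⟨i, h2, ho⟩ := B2.split (p⁻¹ * (k * n))
  have em := (mul_inv_cancel_left ((p⁻¹ * (k * n)) ^ i) (p⁻¹ * (k * n))).symm
  have t2 : F.qT g r d1 a b ((p⁻¹ * (k * n)) ^ i) :=
    Q10_self h (mem_of_P2_norm hS (pow_mem mL i).2 h2 (pow_mem mL i).1)
  have oL := mul_mem (inv_mem (pow_mem mL i)) mL
  have oc := mul_mem (inv_mem (pow_mem mc i)) mc
  generalize ((p⁻¹ * (k * n)) ^ i)⁻¹ * (p⁻¹ * (k * n)) = o at ho em oL oc
  have zV : F.z ∈ F.V1 := subset_closure (by simp)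
  obtain ⟨c, hc, ec⟩ : ∃ c, c * F.z = F.z * c ∧ s = c * F.t * c⁻¹ := by
    rcases hs with rfl | rfl
    · exact ⟨1, by group, by group⟩
    · have gc : g * d2 = d2 * g := mem_centralizer_iff_commute.1 h.zz.d2M g (subset_closure (by simp))
      refine ⟨d2⁻¹, ?_, ?_⟩
      · rw [← h.zz.gg, inv_mul_eq_iff_eq_mul, ← mul_assoc, eq_mul_inv_iff_mul_eq, mul_assoc, gc, ← mul_assoc, gc,
          mul_assoc]
      · rw [inv_inv, ← h.zz.td2, ← h.zz.d22, mul_assoc (F.t * d2), F.tt, mul_one, mul_assoc]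
  have oC : o ∈ 𝐂(F.qE g r d1 a b ⊓ centralizer {s}) := by
    refine Q10_odd F hc ho (ec ▸ mem_centralizer_singleton_iff.1 oc)
      (mem_centralizer_iff_commute.1 oL.2.1 _ zV).symm hS.isP.to_inf_left (ec ▸ inf_le_right)
      (fun x hx => mem_centralizer_singleton_iff.2 (mem_centralizer_iff_commute.1 (hS.le hx.1).1 _ zV).symm) ?_
    exact inf_normalizer_le_normalizer_inf ⟨oL.1, le_normalizer oc⟩
  have oE : zpowers o ≤ 𝐂(F.qE g r d1 a b) := by
    refine H2.thompson_PxQ (p := 2) (P := zpowers s) (P2.zpowers (P2.of_sq s2)) ?_ hS.isP ?_ ?_ ?_ ?_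
    · rw [Nat.card_zpowers]; exact (Nat.coprime_two_right.2 ho)
    · rw [centralizer_zpowers, zpowers_le]
      exact mem_centralizer_singleton_iff.2 (mem_centralizer_singleton_iff.1 oc).symm
    · rw [zpowers_le]; exact h.nrm.2.2.2.1 sS
    · rw [zpowers_le]; exact oL.1
    · rw [centralizer_zpowers, centralizer_zpowers]
      exact fun x hx => mem_centralizer_singleton_iff.2 (mem_centralizer_iff_commute.1 oC x hx)
  have t3 : F.qT g r d1 a b o := fun x hx => by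
    rw [conj_eq_of_mem_centralizer (oE (mem_zpowers o)) hx, inv_mul_cancel]
    exact one_mem _
  have t4 : F.qT g r d1 a b (p⁻¹ * (k * n)) := by
    rw [em]
    exact Q10_mul (pow_mem mL i).2.1 t2 t3
  have t5 := Q10_mul (inv_mem hk).2.1 (Q10_inv hk.1 kT) (Q10_mul (EL hp).2.1 (Q10_self h hp) t4)
  rwa [mul_inv_cancel_left, inv_mul_cancel_left] at t5

end Fr

end H25.A6
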