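import Mathlib
import Cfsg.Agent.Lib.A6S.Q10

/-! `v2` centralises `qL` modulo the kernel. -/

set_option autoImplicit false

namespace H25.A6

open Subgroup H69 H36.SW H25.A7

variable {G : Type*} [Group G] [Finite G]

namespace Q11

omit [Finite G] in
theorem stab (V : Subgroup G) (S : Set G) :
    ∃ H : Subgroup G, ∀ h, h ∈ H ↔ h ∈ 𝐍(V) ∧ ∀ y ∈ S, y⁻¹ * (h * y * h⁻¹) ∈ V := by
  refine ⟨{ carrier := {h | h ∈ 𝐍(V) ∧ ∀ y ∈ S, y⁻¹ * (h * y * h⁻¹) ∈ V}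
            one_mem' := ⟨one_mem _, fun y _ => by simp⟩
            mul_mem' := fun {h k} hh hk => ⟨mul_mem hh.1 hk.1, fun y hy => ?_⟩
            inv_mem' := fun {h} hh => ⟨inv_mem hh.1, fun y hy => ?_⟩ }, fun _ => Iff.rfl⟩
  · have := mul_mem (hh.2 y hy) (conj_mem_of_mem_normalizer hh.1 (hk.2 y hy))
    convert this using 1
    group
  · have := conj_mem_of_mem_normalizer' hh.1 (inv_mem (hh.2 y hy))
    convert this using 1
    group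

omit [Finite G] in
theorem sub (K : Subgroup G) {s : G} (ss : s * s = 1) :
    ∃ D : Subgroup G, ∀ x, x ∈ D ↔ x ∈ 𝐍(K) ∧ x⁻¹ * (s * x * s) ∈ K := by
  have si : s⁻¹ = s := inv_eq_of_mul_eq_one_right ss
  refine ⟨{ carrier := {x | x ∈ 𝐍(K) ∧ x⁻¹ * (s * x * s⁻¹) ∈ K}
            one_mem' := ⟨one_mem _, by simp⟩
            mul_mem' := fun {x y} hx hy => ⟨mul_mem hx.1 hy.1, ?_⟩
            inv_mem' := fun {x} hx => ⟨inv_mem hx.1, ?_⟩ }, fun x => ?_⟩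
  · have := mul_mem (conj_mem_of_mem_normalizer' hy.1 hx.2) hy.2
    convert this using 1
    group
  · have := conj_mem_of_mem_normalizer hx.1 (inv_mem hx.2)
    convert this using 1
    group
  · change x ∈ 𝐍(K) ∧ x⁻¹ * (s * x * s⁻¹) ∈ K ↔ _
    rw [si]

theorem inv_of_fpf {L K : Subgroup G} (hn : L ≤ 𝐍(K)) {s : G} (sL : s ∈ 𝐍(L)) (sK : s ∈ 𝐍(K))
    (ss : s * s = 1) (h : ∀ n ∈ L, s * n * s * n⁻¹ ∈ K → n ∈ K) {n : G} (hL : n ∈ L) : s * n * s * n ∈ K := by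
  have si : s⁻¹ = s := inv_eq_of_mul_eq_one_right ss
  haveI : (K.subgroupOf L).Normal := ⟨fun k hk g => conj_mem_of_mem_normalizer (A := K) (hn g.2) hk⟩
  obtain ⟨φ, hφ⟩ : ∃ φ : L →* L, ∀ x, (φ x : G) = s * x * s⁻¹ :=
    ⟨MonoidHom.mk' (fun x => ⟨s * x * s⁻¹, conj_mem_of_mem_normalizer sL x.2⟩) fun x y => Subtype.ext (by
      simp [mul_assoc]), fun _ => rfl⟩
  have hK : K.subgroupOf L ≤ (K.subgroupOf L).comap φ := fun x hx => by
    change (φ x : G) ∈ K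
    rw [hφ]
    exact conj_mem_of_mem_normalizer sK hx
  have f : MonoidHom.FixedPointFree (QuotientGroup.map _ _ φ hK) := fun q hq => by
    obtain ⟨x, rfl⟩ := QuotientGroup.mk_surjective q
    rw [QuotientGroup.map_mk, QuotientGroup.eq, mem_subgroupOf, Subgroup.coe_mul, Subgroup.coe_inv, hφ] at hq
    rw [QuotientGroup.eq_one_iff, mem_subgroupOf, ← inv_mem_iff]
    refine h _ (inv_mem x.2) ?_
    convert hq using 1
    nth_rewrite 2 [← si]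
    group
  have i : Function.Involutive (QuotientGroup.map _ _ φ hK) := fun q => by
    obtain ⟨x, rfl⟩ := QuotientGroup.mk_surjective q
    rw [QuotientGroup.map_mk, QuotientGroup.map_mk]
    congr 1
    refine Subtype.ext ?_
    rw [hφ, hφ, si]
    calc _ = s * s * x * (s * s) := by group
      _ = _ := by rw [ss]; group
  have e := congrFun (f.coe_eq_inv_of_involutive i) (QuotientGroup.mk ⟨n, hL⟩)
  rw [QuotientGroup.map_mk, ← QuotientGroup.mk_inv, QuotientGroup.eq, mem_subgroupOf, Subgroup.coe_mul,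
    Subgroup.coe_inv, hφ] at e
  have := conj_mem_of_mem_normalizer' (hn hL) (inv_mem e)
  convert this using 1
  nth_rewrite 2 [← si]
  simp [mul_assoc]

omit [Finite G] in
theorem ext0 {D : Subgroup G} {A B c : G} {m : Fin 2} (hA : A ∈ D) (hB : B ∈ D) (hc : c ∉ D)
    (h : A * c ^ (m : ℕ) * B ∈ D) : m = 0 := by
  fin_cases m
  · rfl
  · exact absurd (by simpa using (mul_mem_cancel_left hA).1 ((mul_mem_cancel_right hB).1 h)) hc

variable {F : Fr G} {g g' r r' d1 d2 η1 η2 a b : G} (h : F.QC g g' r r' d1 d2 η1 η2 a b)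
include h

theorem qES : F.qE g r d1 a b ≤ F.qS g r d1 a b := fun _ hx => h.memS''.2 (.inl (h.memM.2 (.inl hx)))

theorem ηK : η1 ∈ 𝐍(F.K4 g d1) := B2.norm_gen (by
  rintro _ (rfl | rfl)
  · rw [h.zz.η1g]; exact subset_closure (by simp)
  · rw [h.zz.η1d]; exact inv_mem (mul_mem (subset_closure (by simp)) (subset_closure (by simp))))

theorem ηV : η1 ∈ 𝐍(F.V1) := B2.norm_gen (by
  rintro _ (rfl | rfl)
  · change _ ∈ F.V1
    rw [← h.zz.gg, B2.cj_mul, h.zz.η1g, h.zz.d11]; exact F.b2_vV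
  · change _ ∈ F.V1
    rw [← h.zz.d11, B2.cj_mul, h.zz.η1d]
    have m : (g * d1)⁻¹ ∈ F.qE g r d1 a b :=
      inv_mem (mul_mem (subset_closure (by simp)) (subset_closure (by simp)))
    exact (h.comm m m).2)

omit h in
theorem LN {s : G} (h1 : s ∈ 𝐍(F.qE g r d1 a b)) (h2 : s ∈ 𝐍(F.V1)) : s ∈ 𝐍(F.qL g r d1 a b) := by
  refine mem_normalizer_of_cj_le ?_
  rintro _ ⟨n, hn, rfl⟩
  exact ⟨Subgroup.mul_mem _ (Subgroup.mul_mem _ h1 hn.1) (Subgroup.inv_mem _ h1),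
    conj_mem_of_mem_normalizer (normalizer_le_normalizer_centralizer _ h2) hn.2.1, F.En.conj_mem n hn.2.2 s⟩

end Q11

open Q11

namespace Fr
variable {F : Fr G} {g g' r r' d1 d2 η1 η2 a b : G}

theorem QC.cv2 (h : F.QC g g' r r' d1 d2 η1 η2 a b) {n : G} (hn : n ∈ F.qL g r d1 a b) : F.qT g r d1 a b (F.v2 * n * F.v2 * n⁻¹) := by
  obtain ⟨K, hK⟩ := stab F.V1 (F.qE g r d1 a b)
  obtain ⟨-, -, -, n4, n5, -⟩ := h.nrm
  have nK : ∀ s ∈ 𝐍(F.qE g r d1 a b), s ∈ 𝐍(F.V1) → s ∈ 𝐍(K) := fun s h1 h2 => mem_normalizer_of_cj_le (by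
    rintro _ ⟨k, hk, rfl⟩
    obtain ⟨k1, k2⟩ := (hK k).1 hk
    refine (hK _).2 ⟨mul_mem (mul_mem h2 k1) (inv_mem h2), fun y hy => ?_⟩
    have := conj_mem_of_mem_normalizer h2 (k2 _ (conj_mem_of_mem_normalizer' h1 hy))
    convert this using 1
    change y⁻¹ * (s * k * s⁻¹ * y * (s * k * s⁻¹)⁻¹) = _
    group)
  have LK : F.qL g r d1 a b ≤ 𝐍(K) := fun s hs => nK s hs.1 (centralizer_le_normalizer _ hs.2.1)
  have tS : F.t ∈ F.qS g r d1 a b := subset_closure (by simp)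
  have vS : F.v2 ∈ F.qS g r d1 a b := subset_closure (by simp)
  have key : ∀ s ∈ F.qS g r d1 a b, s * s = 1 → (s = F.t ∨ s = F.t * F.v2) → ∀ n ∈ F.qL g r d1 a b,
      s * n * s * n ∈ K :=
    fun s hs ss e n hn => inv_of_fpf LK (LN (n4 hs) (n5 hs)) (nK s (n4 hs) (n5 hs)) ss (fun m hm k =>
      (hK m).2 ⟨centralizer_le_normalizer _ hm.2.1, h.fpf e hm ((hK _).1 k).2⟩) hn
  have c : Commute F.t F.v2 := F.tv2
  have k1 := key _ tS F.tt (.inl rfl) _ (inv_mem hn)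
  have k2 := key _ (mul_mem tS vS) (by rw [c.symm.mul_mul_mul_comm, F.tt, F.v22, one_mul]) (.inr rfl) _ hn
  have k3 := mul_mem (conj_mem_of_mem_normalizer' (nK _ (n4 tS) (n5 tS)) k2) k1
  refine ((hK _).1 ?_).2
  convert k3 using 1
  calc _ = F.v2 * n * (F.t * F.v2 * F.t⁻¹) * n⁻¹ := by rw [c.eq, mul_inv_cancel_right]
    _ = F.v2 * n * (F.t * F.v2) * n * (F.t * F.t) * n⁻¹ * F.t * n⁻¹ := by
      rw [F.tt, inv_eq_of_mul_eq_one_right F.tt]; group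
    _ = _ := by group

theorem QC.fixuv (h : F.QC g g' r r' d1 d2 η1 η2 a b) {x : G} (hx : x ∈ F.qE g r d1 a b) (h1 : x⁻¹ * (F.v2 * x * F.v2) ∈ F.V1)
    (h2 : x⁻¹ * (η1 * F.v2 * η1⁻¹ * x * (η1 * F.v2 * η1⁻¹)) ∈ F.V1) : x ∈ F.X1 ⊔ zpowers (F.t * r) := by
  obtain ⟨D, hD⟩ := sub (F.K4 g d1) F.v22
  obtain ⟨C, hC⟩ := sub F.V1 F.v22
  obtain ⟨n1, -, -, n4, n5, -, -, n8, -⟩ := h.nrm
  have vS : F.v2 ∈ F.qS g r d1 a b := subset_closure (by simp)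
  have VK : F.V1 ≤ F.K4 g d1 := fun w hw => h.memK.2 ⟨w, hw, 0, 0, by simp⟩
  have gE : g ∈ F.qE g r d1 a b := subset_closure (by simp)
  have aE : a ∈ F.qE g r d1 a b := subset_closure (by simp)
  have bE : b ∈ F.qE g r d1 a b := subset_closure (by simp)
  have uE : F.u1 ∈ F.qE g r d1 a b := subset_closure (by simp)
  have vE : F.t * r ∈ F.qE g r d1 a b := subset_closure (by simp)
  have gK : g ∈ F.K4 g d1 := subset_closure (by simp)
  have dK : d1 ∈ F.K4 g d1 := subset_closure (by simp)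
  have le : ∀ {K : Subgroup G}, F.v2 ∈ 𝐍(K) → ∀ y ∈ K, y ∈ 𝐍(K) ∧ y⁻¹ * (F.v2 * y * F.v2) ∈ K := fun hK y hy =>
    ⟨le_normalizer hy, mul_mem (inv_mem hy) (by simpa only [F.b2_v2i] using conj_mem_of_mem_normalizer hK hy)⟩
  have cm : ∀ y ∈ F.qE g r d1 a b, F.v2 * y = y * F.v2 → y ∈ C := fun y hy e => (hC y).2 ⟨n5 (qES h hy), by
    rw [e, mul_assoc, F.v22, mul_one, inv_mul_cancel]; exact one_mem _⟩
  have CD : ∀ y ∈ F.qE g r d1 a b, y ∈ C → y ∈ D := fun y hy k => (hD y).2 ⟨n1 (qES h hy), VK ((hC y).1 k).2⟩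
  have KD : F.K4 g d1 ≤ D := fun y hy => (hD y).2 (le (n1 vS) y hy)
  have VC : F.V1 ≤ C := fun y hy => (hC y).2 (le (n5 vS) y hy)
  have gC : g ∈ C := cm g gE (h.zz.gT _ (subset_closure (by simp)))
  have uC : F.u1 ∈ C := cm _ uE F.u1v2.symm
  have vC : F.t * r ∈ C := cm _ vE (Commute.mul_right F.tv2.symm (h.zz.rT _ (subset_closure (by simp))))
  have aD : a ∈ D := (hD a).2 ⟨h.aK, by
    have := conj_mem_of_mem_normalizer' h.aK h.va
    convert this using 1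
    group⟩
  have bD : b ∉ D := fun k => by
    have k1 := mul_mem (inv_mem h.vb) (conj_mem_of_mem_normalizer h.bV.2.1 ((hD b).1 k).2)
    have k2 : a ∈ F.K4 g d1 := by
      convert k1 using 1
      group
    exact absurd (h.ind (i := 1) (j := 0) (l := 0) (m := 0) (n := 0) (p := 0) (by simpa using k2)).1 (by decide)
  have dC : d1 ∉ C := fun k => by
    have k1 := ((hC d1).1 k).2
    rw [← mul_assoc, ← mul_assoc, h.zz.c1, mul_assoc F.v2] at k1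
    have k2 : g * F.v1 ∈ F.V1 := (mem_normalizer_iff.1 (n5 vS) _).2 (by rwa [F.b2_v2i])
    exact h.nmem.2.2.2.2.2.2 (mem_sup_left (F.V1X1 ((mul_mem_cancel_right F.b2_vV).1 k2)))
  have KD' : F.K4 g d1 ≤ D ^ᶜ η1 := (cj_eq_of_mem_normalizer (ηK h)).ge.trans (cj_mono η1 KD)
  have VC' : F.V1 ≤ C ^ᶜ η1 := (cj_eq_of_mem_normalizer (ηV h)).ge.trans (cj_mono η1 VC)
  have eu : η1 * F.u1 * η1⁻¹ = F.u1 := B2.cj_of_comm h.zz.η1u
  have ev : η1 * (F.t * r) * η1⁻¹ = F.t * r := B2.cj_of_comm (Commute.mul_right h.zz.η1t h.zz.η1r)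
  have uC' : F.u1 ∈ C ^ᶜ η1 := eu ▸ cj_mem η1 uC
  have vC' : F.t * r ∈ C ^ᶜ η1 := ev ▸ cj_mem η1 vC
  have uD' : F.u1 ∈ D ^ᶜ η1 := eu ▸ cj_mem η1 (CD _ uE uC)
  have vD' : F.t * r ∈ D ^ᶜ η1 := ev ▸ cj_mem η1 (CD _ vE vC)
  have bD' : b ∈ D ^ᶜ η1 := h.ηa ▸ cj_mem η1 aD
  have dC' : d1 ∈ C ^ᶜ η1 := h.zz.η1g ▸ cj_mem η1 gC
  have aD' : a ∉ D ^ᶜ η1 := fun k => bD (by
    simpa [mul_assoc] using mem_cj.1 ((mul_mem_cancel_left (mul_mem k bD')).1 (KD' h.ηb)))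
  have gC' : g ∉ C ^ᶜ η1 := fun k => dC (by
    have := inv_mem (mul_mem k dC')
    rw [← h.zz.η1d] at this
    simpa [mul_assoc] using mem_cj.1 this)
  have xE' := conj_mem_of_mem_normalizer' n8 hx
  have xC : x ∈ C := (hC x).2 ⟨n5 (qES h hx), h1⟩
  have xC0 : η1⁻¹ * x * η1 ∈ C := (hC _).2 ⟨n5 (qES h xE'), by
    have := conj_mem_of_mem_normalizer' (ηV h) h2
    convert this using 1
    group⟩
  have xC' : x ∈ C ^ᶜ η1 := mem_cj.2 xC0
  have xD := CD x hx xC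
  have xD' : x ∈ D ^ᶜ η1 := mem_cj.2 (CD _ xE' xC0)
  clear xE' xC0 h1 h2
  obtain ⟨w, hw, i, j, l, m, n, p, rfl⟩ := h.memE'.1 hx
  have yK : w * g ^ (i : ℕ) * d1 ^ (j : ℕ) ∈ F.K4 g d1 :=
    mul_mem (mul_mem (VK hw) (pow_mem gK _)) (pow_mem dK _)
  obtain rfl : m = 0 := ext0 (mul_mem (KD yK) (pow_mem aD _))
    (mul_mem (pow_mem (CD _ uE uC) (n : ℕ)) (pow_mem (CD _ vE vC) (p : ℕ))) bD (by rwa [← mul_assoc])
  obtain rfl : l = 0 := ext0 (KD' yK) (mul_mem (pow_mem uD' (n : ℕ)) (pow_mem vD' (p : ℕ))) aD'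
    (by simpa [← mul_assoc] using xD')
  obtain rfl : j = 0 := ext0 (mul_mem (VC hw) (pow_mem gC (i : ℕ)))
    (mul_mem (pow_mem uC (n : ℕ)) (pow_mem vC (p : ℕ))) dC (by simpa [← mul_assoc] using xC)
  obtain rfl : i = 0 := ext0 (VC' hw) (mul_mem (pow_mem uC' (n : ℕ)) (pow_mem vC' (p : ℕ))) gC'
    (by simpa [← mul_assoc] using xC')
  simpa using mul_mem (mem_sup_left (mul_mem (F.V1X1 hw) (pow_mem F.b2_uX (n : ℕ))))
    (mem_sup_right (pow_mem (mem_zpowers (F.t * r)) (p : ℕ)))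

theorem QC.star1 (h : F.QC g g' r r' d1 d2 η1 η2 a b) {c : G} (hc : c ∈ 𝐂(F.V1) ⊓ F.E) (e : c * F.u1 * c⁻¹ ∈ F.qE g r d1 a b) :
    c * F.u1 * c⁻¹ ∈ F.X1 ⊔ zpowers (F.t * r) ∧
      ∃ n ∈ F.qL g r d1 a b, (c * F.u1 * c⁻¹)⁻¹ * (n * F.u1 * n⁻¹) ∈ F.V1 := by
  obtain ⟨H, hH⟩ := stab F.V1 {c * F.u1 * c⁻¹}
  have uE : F.u1 ∈ F.qE g r d1 a b := subset_closure (by simp)
  have cm : ∀ x ∈ F.qE g r d1 a b, ∀ y ∈ F.qE g r d1 a b, y⁻¹ * (x * y * x⁻¹) ∈ F.V1 := fun x hx y hy => by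
    simpa [mul_assoc] using (h.comm (inv_mem hy) hx).1
  have cN := centralizer_le_normalizer _ hc.1
  have s1 : IsSylowIn 2 (F.qE g r d1 a b) (H ⊓ (𝐂(F.V1) ⊓ F.E)) := h.sylE.mono (le_inf (fun x hx => (hH x).2
    ⟨centralizer_le_normalizer _ (h.sylE.le hx).1, by rintro _ rfl; exact cm x hx _ e⟩) h.sylE.le) inf_le_right
  have s0 := h.sylE.cj_of_mem hc
  have s2 : IsSylowIn 2 (F.qE g r d1 a b ^ᶜ c) (H ⊓ (𝐂(F.V1) ⊓ F.E)) := s0.mono (le_inf (fun x hx => (hH x).2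
    ⟨centralizer_le_normalizer _ (s0.le hx).1, by
      rintro _ rfl
      obtain ⟨y, hy, rfl⟩ := mem_cj'.1 hx
      have := conj_mem_of_mem_normalizer cN (cm y hy _ uE)
      convert this using 1
      group⟩) s0.le) inf_le_right
  obtain ⟨k, hk, e1⟩ := s2.conj s1
  rw [cj_cj, cj_eq_self_iff] at e1
  have nL : k * c ∈ F.qL g r d1 a b := ⟨e1, mul_mem hk.2 hc⟩
  have m : (c * F.u1 * c⁻¹)⁻¹ * (k * c * F.u1 * (k * c)⁻¹) ∈ F.V1 := by
    have := ((hH k).1 hk.1).2 _ rfl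
    convert this using 1
    group
  have f : ∀ n ∈ F.qL g r d1 a b, (n * F.u1 * n⁻¹)⁻¹ * (F.v2 * (n * F.u1 * n⁻¹) * F.v2) ∈ F.V1 := fun n hn => by
    have := h.cv2 hn _ (conj_mem_of_mem_normalizer hn.1 uE)
    convert this using 2
    calc _ = F.v2 * n * (F.u1 * F.v2 * F.v2⁻¹) * n⁻¹ * F.v2⁻¹ := by rw [mul_inv_cancel_right, F.b2_v2i]; group
      _ = _ := by rw [F.u1v2]; group
  refine ⟨?_, _, nL, m⟩
  have f2 := conj_mem_of_mem_normalizer (ηV h) (f _ (conj_mem_of_mem_normalizer' (LN h.nrm.2.2.2.2.2.2.2.1 (ηV h)) nL))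
  have x := h.fixuv (conj_mem_of_mem_normalizer e1 uE) (f _ nL) (by
    have eu : η1 * F.u1 * η1⁻¹ = F.u1 := B2.cj_of_comm h.zz.η1u
    convert f2 using 1
    conv_lhs => rw [← eu]
    group)
  exact (mul_mem_cancel_right (mem_sup_left (F.V1X1 m))).1 (by rwa [mul_inv_cancel_left])

end Fr

end H25.A6
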