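import Mathlib
import Cfsg.Agent.Lib.A6S.Q11
import Cfsg.Agent.Lib.A6S.Q12

/-! Conjugates of `u1` in `qE` under `C_E(V1)`. -/

set_option autoImplicit false
set_option linter.unusedSectionVars false

namespace H25.A6

open Subgroup H69 H36.SW H25.A7

variable {G : Type*} [Group G] [Finite G]

namespace Fr
variable {F : Fr G} {g g' r r' d1 d2 η1 η2 a b : G}

theorem ZZ.q13_sq (h : F.ZZ F.u1 g g' r r' d1 d2 η1 η2) {w : G} (hw : w ∈ F.X1) :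
    ∃ e ∈ F.R g r d1, e * e = w := by
  obtain ⟨j, i, k, rfl⟩ := F.memX1.1 hw
  exact ⟨_, h.memR.2 ⟨1, one_mem _, i, j, k, rfl⟩, h.zasq (one_mem _) i j k⟩

theorem ZZ.q13_vv (h : F.ZZ F.u1 g g' r r' d1 d2 η1 η2) : F.t * r * (F.t * r) = 1 := by
  rw [← mul_assoc, h.tr, inv_mul_cancel]

theorem ZZ.q13_vX (h : F.ZZ F.u1 g g' r r' d1 d2 η1 η2) {w : G} (hw : w ∈ F.X1) :
    w * (F.t * r) = F.t * r * w := by
  rw [← mul_assoc, ZD.tX F w hw, mul_assoc, h.zac (h.XR hw) h.zaR, mul_assoc]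

theorem ZZ.q13_cj (h : F.ZZ F.u1 g g' r r' d1 d2 η1 η2) {w : G} (hw : w ∈ F.X1) :
    IsConj (F.t * r) (w * (F.t * r)) := by
  obtain ⟨e, he, rfl⟩ := h.q13_sq hw
  refine isConj_iff.2 ⟨e, ?_⟩
  calc e * (F.t * r) * e⁻¹ = e * F.t * e⁻¹ * (e * r * e⁻¹) := by group
    _ = _ := by rw [h.zat he, h.zac he h.zaR, mul_inv_cancel_right, ← ZD.tX F _ hw, mul_assoc]

theorem q13_F0 (F : Fr G) {w : G} (hw : w ∈ F.X1) (e : w * F.v2 = F.v2 * w) : w ∈ F.F0 := by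
  have zF : F.z ∈ F.F0 := subset_closure (by simp)
  have uF : F.u1 ∈ F.F0 := subset_closure (by simp)
  obtain ⟨j, i, k, rfl⟩ := F.memX1.1 hw
  have c : Commute (F.z ^ (i : ℕ) * F.u1 ^ (k : ℕ)) F.v2 :=
    (Commute.pow_left F.B1zv2 _).mul_left (Commute.pow_left F.u1v2 _)
  fin_cases j
  · simpa using mul_mem (pow_mem zF i) (pow_mem uF k)
  · simp only [pow_one, mul_assoc] at e
    rw [← mul_assoc (F.z ^ _), c.eq, ← mul_assoc, ← mul_assoc F.v2] at e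
    exact absurd (mul_right_cancel e) F.B1nc

theorem QC.q13_XE (h : F.QC g g' r r' d1 d2 η1 η2 a b) : F.X1 ≤ F.qE g r d1 a b := (closure_le _).2 (by
  have hg : g ∈ F.qE g r d1 a b := subset_closure (by simp)
  have hd : d1 ∈ F.qE g r d1 a b := subset_closure (by simp)
  rintro _ (rfl | rfl | rfl)
  exacts [h.zz.gg ▸ mul_mem hg hg, h.zz.d11 ▸ mul_mem hd hd, subset_closure (by simp)])

/-- an element of `C_E(v1, v2)` does not conjugate `u1` into `X1 v` -/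
theorem QC.q13_no (h : F.QC g g' r r' d1 d2 η1 η2 a b) {m w : G} (hE : m ∈ F.E) (h1 : m * F.v1 = F.v1 * m)
    (h2 : m * F.v2 = F.v2 * m) (hw : w ∈ F.X1) (e : m * F.u1 * m⁻¹ = w * (F.t * r)) : False := by
  have zz := h.zz
  have c2 : Commute (F.t * r) F.v2 :=
    Commute.mul_left F.tv2 (zz.rT F.v2 (subset_closure (by simp))).symm
  have c3 : Commute (w * (F.t * r)) F.v2 :=
    e ▸ ((Commute.mul_left h2 F.u1v2).mul_left (Commute.inv_left h2))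
  have wF : w ∈ F.F0 := F.q13_F0 hw (by
    simpa only [mul_inv_cancel_right] using (c3.mul_left c2.inv_left).eq)
  obtain ⟨κ, kt, k1, k2, k3, k4, k5⟩ := zz.qκ h.d
  have kz : κ * F.z * κ⁻¹ = F.z := by
    conv_lhs => rw [← F.hz]
    rw [← conj_mul, ← conj_mul, ← conj_mul, k1, k2, F.hz']
  have kF : κ ∈ 𝐍(F.F0) := ZA.nrm (by
    rintro _ (rfl | rfl | rfl)
    exacts [kz.symm ▸ subset_closure (by simp), k3.symm ▸ subset_closure (by simp),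
      k4.symm ▸ subset_closure (by simp)])
  have m1 : Commute (κ * m * κ⁻¹) F.v1 := k2 ▸ (Commute.conj h2 κ)
  have m2 : Commute (κ * m * κ⁻¹) F.v2 := k1 ▸ (Commute.conj h1 κ)
  have mz : Commute (κ * m * κ⁻¹) F.z := F.hz ▸ ((m1.mul_right m2).mul_right m1).mul_right m2
  have mV : κ * m * κ⁻¹ ∈ 𝐂(F.V1) := ZA.cen (by rintro _ (rfl | rfl); exacts [mz.symm, m1.symm])
  have uz : F.u1 = F.z * F.u2 := by rw [F.u2_eq F.hu1, ← mul_assoc, F.zz, one_mul]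
  have wX := F.F0X1 ((mem_normalizer_iff.1 kF w).1 wF)
  have key : κ * m * κ⁻¹ * F.u1 * (κ * m * κ⁻¹)⁻¹ =
      F.z * (κ * w * κ⁻¹) * (g⁻¹ * (F.t * r)) * ((g * r)⁻¹ * (κ * r * κ⁻¹)) := by
    conv_lhs => rw [uz, ← conj_mul, mz.eq, mul_inv_cancel_right, ← k3]
    calc _ = F.z * (κ * (m * F.u1 * m⁻¹) * κ⁻¹) := by group
      _ = F.z * (κ * w * κ⁻¹) * (κ * F.t * κ⁻¹) * (κ * r * κ⁻¹) := by rw [e]; group
      _ = F.z * (κ * w * κ⁻¹) * (F.t * g * (F.t * F.t) * r) * ((g * r)⁻¹ * (κ * r * κ⁻¹)) := by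
        rw [kt, mul_inv_cancel_right, F.tt]; group
      _ = _ := by rw [← zz.tg]; group
  have hg : g ∈ F.qE g r d1 a b := subset_closure (by simp)
  have hv : F.t * r ∈ F.qE g r d1 a b := subset_closure (by simp)
  have s := (h.star1 ⟨mV, F.En.conj_mem m hE κ⟩ (key ▸ mul_mem (mul_mem (h.q13_XE (mul_mem F.b2_zX wX))
    (mul_mem (inv_mem hg) hv)) (h.q13_XE (F.F0X1 k5)))).1
  rw [key, mul_mem_cancel_right (mem_sup_left (F.F0X1 k5)), mul_mem_cancel_left (mem_sup_left (mul_mem F.b2_zX wX)),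
    mul_mem_cancel_right (mem_sup_right (mem_zpowers _)), inv_mem_iff] at s
  exact h.nmem.2.2.2.2.2.2 s

theorem QC.star (h : F.QC g g' r r' d1 d2 η1 η2 a b) {c : G} (hc : c ∈ 𝐂(F.V1) ⊓ F.E) (e : c * F.u1 * c⁻¹ ∈ F.qE g r d1 a b) :
    F.u1 * (c * F.u1 * c⁻¹) ∈ F.V1 := by
  have zz := h.zz
  obtain ⟨h1, n, hn, h2⟩ := h.star1 hc e
  have vN : F.t * r ∈ 𝐍(F.X1) := mem_normalizer_fintype fun x hx => by
    rwa [← zz.q13_vX hx, mul_inv_cancel_right]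
  obtain ⟨w, hw, i, ew⟩ := ZA.adj vN (zz.q13_vv ▸ one_mem _) h1
  fin_cases i
  · simp only [pow_zero, mul_one] at ew
    rcases ZD.Xmem F (ew ▸ hw) with k | k
    · exact absurd k (h.uz c)
    · rwa [ew, zz.zac (zz.XR hw) (zz.XR F.b2_uX), ← ew] at k
  exfalso
  simp only [pow_one] at ew
  have uv : IsConj F.u1 (F.t * r) := (isConj_iff.2 ⟨c, ew⟩).trans (zz.q13_cj hw).symm
  have nz : ¬ IsConj F.u1 F.v2 := fun k => by
    obtain ⟨s, hs⟩ := isConj_iff.1 (k.trans (isConj_iff.2 ⟨F.y2, F.y2z⟩).symm)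
    exact h.uz s (hs ▸ ZC.zV F)
  have EM : F.qE g r d1 a b ≤ F.qM g r d1 a b := fun x hx => h.memM.2 (.inl hx)
  have EP : F.qE g r d1 a b ≤ F.qP g r d1 a b := fun x hx => h.memP.2 (.inl hx)
  have EL : F.qE g r d1 a b ≤ F.qL g r d1 a b := le_inf le_normalizer h.sylE.le
  obtain ⟨k, hk, kT, ek⟩ := h.corr (s := F.v2) (subset_closure (by simp)) (fun x => h.nmem.2.2.1 (EP x)) F.v22 hn
    (h.cv2 hn)
  have e0 : F.v2 * (F.v2 * (k * n * F.v2 * (k * n)⁻¹)) = k * n * F.v2 * (k * n)⁻¹ := by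
    rw [← mul_assoc, F.v22, one_mul]
  obtain ⟨p, hp, x, hx, ex⟩ := h.clv ek (by rw [e0, conj_mul, F.v22]; group)
  rw [e0] at ex
  have cx : IsConj F.v2 (F.v2 * x) := (isConj_iff.2 ⟨k * n, ex⟩).trans (isConj_iff.2 ⟨p, rfl⟩).symm
  have uF : F.u1 ∈ F.F0 := subset_closure (by simp)
  rcases hx with rfl | rfl | rfl | rfl
  rotate_left
  · exact nz ((isConj_iff.2 (zz.qcv h.d (one_mem _)).2).trans cx.symm)
  · exact nz ((uv.trans (isConj_iff.2 (by simpa using (zz.qcv h.d (one_mem _)).1))).trans cx.symm)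
  · exact nz ((uv.trans (isConj_iff.2 (zz.qcv h.d uF).1)).trans cx.symm)
  have mL : p⁻¹ * (k * n) ∈ F.qL g r d1 a b := mul_mem (inv_mem (EL hp)) (mul_mem hk hn)
  have uE : F.u1 ∈ F.qE g r d1 a b := subset_closure (by simp)
  have nE : n * F.u1 * n⁻¹ ∈ F.qE g r d1 a b := (mem_normalizer_iff.1 hn.1 _).1 uE
  have kE : k * (n * F.u1 * n⁻¹) * k⁻¹ ∈ F.qE g r d1 a b := (mem_normalizer_iff.1 hk.1 _).1 nE
  have w1 := F.V1X1 h2
  have w2 := F.V1X1 (kT _ nE)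
  have w3 := F.V1X1 (h.comm (inv_mem hp) kE).1
  refine h.q13_no mL.2.2 (mL.2.1 _ (ZC.vV F)).symm ?_ (mul_mem w3 (mul_mem hw (mul_mem w1 w2))) ?_
  · rw [mul_one] at ex
    calc p⁻¹ * (k * n) * F.v2 = p⁻¹ * (k * n * F.v2 * (k * n)⁻¹) * (k * n) := by group
      _ = _ := by rw [ex]; group
  · rw [mul_assoc _ _ (F.t * r), mul_assoc w, zz.q13_vX (mul_mem w1 w2), ← mul_assoc w, ← ew]
    group

end Fr

end H25.A6
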