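import Mathlib
import Cfsg.Agent.Lib.A6S.Q13
import Cfsg.Agent.Lib.A6S.Q14

/-! The end of `IIb`, type `ZZ`. -/

set_option autoImplicit false

namespace H25.A6

open Subgroup H69 H36.SW H25.A7

variable {G : Type*} [Group G] [Finite G]

namespace Fr
variable {F : Fr G} {g g' r r' d1 d2 η1 η2 a b : G}

theorem q15_adj (F : Fr G) {H : Subgroup G} (hH : H ≤ 𝐍(F.V1)) (hv : F.v2 ∈ H) {θ : G} (hθ : θ ∈ H)
    (e1 : θ * F.v1 * θ⁻¹ = F.z) (e2 : θ * (F.z * F.v1) * θ⁻¹ = F.v1) {y : G} (hy : y ∈ 𝐍(F.V1)) :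
    ∃ s ∈ H, s * y ∈ 𝐂(F.V1) := by
  have key : ∀ s ∈ H, s * (y * F.z * y⁻¹) * s⁻¹ = F.z → ∃ s ∈ H, s * y ∈ 𝐂(F.V1) := fun s hs e => by
    have hz : s * y * F.z = F.z * (s * y) := B2.comm_of_cj (.trans (by group) e)
    rcases F.b2_pure hz (mul_mem (hH hs) hy) with c | ⟨-, c⟩
    · exact ⟨s, hs, ZC.cenV (ZC.kfix hz) (ZC.kfix c)⟩
    · refine ⟨F.v2⁻¹ * s, mul_mem (inv_mem hv) hs, ZC.cenV (ZC.kfix ?_) (ZC.kfix (by rwa [mul_assoc F.v2⁻¹ s y]))⟩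
      rw [F.b2_v2i, mul_assoc F.v2 s y, mul_assoc, hz, ← mul_assoc, ← F.B1zv2, mul_assoc]
  rcases F.memV1.1 (ZC.cm hy F.b2_zV) with e | e | e | e
  · exact absurd (conj_eq_one_iff.1 e) F.z1
  · exact key 1 (one_mem _) (by rw [e]; group)
  · exact key θ hθ (by rw [e, e1])
  · exact key (θ * θ) (mul_mem hθ hθ) (by
      rw [e, show θ * θ * (F.z * F.v1) * (θ * θ)⁻¹ = θ * (θ * (F.z * F.v1) * θ⁻¹) * θ⁻¹ by group, e2, e1])

theorem QC.q15_le (_ : F.QC g g' r r' d1 d2 η1 η2 a b) : F.qK g d1 ≤ F.qM g r d1 a b ∧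
    F.qN g r d1 a b ≤ F.qM g r d1 a b ∧ F.qE g r d1 a b ≤ F.qM g r d1 a b := by
  refine ⟨closure_mono ?_, closure_mono ?_, closure_mono ?_⟩ <;> intro x hx <;>
    simp only [Set.mem_insert_iff, Set.mem_singleton_iff] at hx ⊢ <;> tauto

theorem QC.q15_E (h : F.QC g g' r r' d1 d2 η1 η2 a b) {x : G} (hx : x ∈ F.qM g r d1 a b) (hc : x ∈ 𝐂(F.V1)) :
    x ∈ F.qE g r d1 a b := by
  have MS : F.qM g r d1 a b ≤ F.qS g r d1 a b := h.ME ▸ inf_le_left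
  have hP : x ∈ F.qP g r d1 a b := h.nrm.2.2.2.2.2.2.2.2.1 ▸ (⟨MS hx, hc⟩ : x ∈ F.qS g r d1 a b ⊓ 𝐂(F.V1))
  refine (h.memM.1 hx).resolve_right fun k => h.nmem.2.2.1 ?_
  exact (mul_mem_cancel_left hP).1 (h.memP.2 (.inl k))

theorem QC.false (h : F.QC g g' r r' d1 d2 η1 η2 a b) : False := by
  obtain ⟨l1, l2, -⟩ := h.q15_le
  have MS : F.qM g r d1 a b ≤ F.qS g r d1 a b := h.ME ▸ inf_le_left
  have uK : F.u1 ∈ F.qK g d1 := subset_closure (by simp)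
  have vS : F.v2 ∈ F.qS g r d1 a b := subset_closure (by simp)
  have uC : F.u1 ∈ 𝐂(F.V1) := centralizer_anti F.V1X1
    (centralizer_anti F.X1W1 (F.b2_WC (F.X1W1 F.b2_uX)))
  obtain ⟨p, e1, e2, -⟩ := ZC.eta h.zz
  rw [MulAut.conj_apply] at e1 e2
  have e3 : η1 * (F.z * F.v1) * η1⁻¹ = F.z := by
    rw [B2.cj_mul, e1, e2, ← mul_assoc, ← F.zv1, mul_assoc, F.v11, mul_one]
  have ηV := (ZC.SP1 h.zz p).2
  have ηE := h.nrm.2.2.2.2.2.2.2.1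
  refine F.trE h.sylM l2 (l1 uK) (by simpa using h.nmem.2.2.2.1 1 (one_mem _)) (fun _ hs => h.memM'.1 hs)
    (h.isPS.to_le (l1.trans MS)) (l1.trans h.sylM.le) uK ((closure_le _).2 ?_) (fun y yE hy hm => ?_)
    fun y _ m _ => ?_
  · rintro _ (rfl | rfl | rfl) <;> refine mem_centralizer_singleton_iff.2 ?_
    exacts [(h.zz.gT _ (subset_closure (by simp))).symm, (h.zz.d1M _ (subset_closure (by simp))).symm, rfl]
  · have yV := h.iso hy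
    have yC : y * F.u1 * y⁻¹ ∈ 𝐂(F.V1) := fun x hx => by
      have := uC _ (ZC.cm (inv_mem yV) hx)
      calc x * (y * F.u1 * y⁻¹) = y * (y⁻¹ * x * y⁻¹⁻¹ * F.u1) * y⁻¹ := by group
        _ = _ := by rw [this]; group
    have yM := h.q15_E (l2 hm) yC
    obtain ⟨s, ⟨⟨sE, sN⟩, sV, su⟩, c⟩ := F.q15_adj
      (H := (F.E ⊓ 𝐍(F.qE g r d1 a b)) ⊓ (𝐍(F.V1) ⊓ centralizer {F.u1})) (inf_le_right.trans inf_le_left)
      ⟨⟨F.v2E, h.nrm.2.2.2.1 vS⟩, h.nrm.2.2.2.2.1 vS, mem_centralizer_singleton_iff.2 F.u1v2.symm⟩ (θ := η1 * η1)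
      ⟨⟨F.sq_mem η1, mul_mem ηE ηE⟩, mul_mem ηV ηV,
        mul_mem (mem_centralizer_singleton_iff.2 h.zz.η1u) (mem_centralizer_singleton_iff.2 h.zz.η1u)⟩
      (by rw [← e3, ← e2]; group) (by conv_rhs => rw [← e1, ← e3]
                                      group) yV
    have su' : s * F.u1 = F.u1 * s := mem_centralizer_singleton_iff.1 su
    have e : s * y * F.u1 * (s * y)⁻¹ = s * (y * F.u1 * y⁻¹) * s⁻¹ := by group
    have k := h.star ⟨c, mul_mem sE yE⟩ (e ▸ ZC.cm sN yM)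
    have k' : F.u1 * (y * F.u1 * y⁻¹) ∈ F.V1 := by
      have := ZC.cm (inv_mem sV) k
      rwa [e, show s⁻¹ * (F.u1 * (s * (y * F.u1 * y⁻¹) * s⁻¹)) * s⁻¹⁻¹ =
        s⁻¹ * (F.u1 * s) * (y * F.u1 * y⁻¹) by group, ← su', inv_mul_cancel_left] at this
    exact h.nmem.2.2.2.1 _ k' (by rwa [← mul_assoc, F.u11, one_mul])
  · rw [F.u11, one_pow, mul_one, mul_inv_cancel]
    exact one_mem _

end Fr

end H25.A6
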