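import Mathlib
import Cfsg.Agent.Lib.A6S.Q2
import Cfsg.Agent.Lib.A6S.Q2c
import Cfsg.Agent.Lib.A6S.Q15

/-! Case `IIb`, type `ZZ`, is impossible. -/

set_option autoImplicit false

namespace H25.A6

open Subgroup H69 H36.SW

variable {G : Type*} [Group G] [Finite G]

namespace Fr

theorem ZZ.pureQ {F : Fr G} {g g' r r' d1 d2 η1 η2 : G} (h : F.ZZ F.u1 g g' r r' d1 d2 η1 η2) (d : F.dl ≠ 1) : False := by
  obtain ⟨η1, a, b, q⟩ := h.qa d
  obtain ⟨a, b, q⟩ := q.qb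
  obtain ⟨a, b, q⟩ := q.qc
  exact q.false

end Fr

end H25.A6
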