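import Mathlib
import Cfsg.Agent.Lib.A6S.Bas3
import Cfsg.Agent.Lib.Tech58.Harada

/-! The case `dl ≠ 1`, `t z ∉ t^G`. -/

set_option autoImplicit false

namespace H25.A6

open Subgroup H69 H36.SW

variable {G : Type*} [Group G] [Finite G]

namespace RkD

omit [Finite G] in
theorem four {t z x : G} (tt : t * t = 1) (zz : z * z = 1) (c : z * t = t * z) (h : x ∈ closure ({t, z} : Set G)) :
    x = 1 ∨ x = t ∨ x = z ∨ x = t * z := by
  have e1 : ∀ y, t * (t * y) = y := fun y => by rw [← mul_assoc, tt, one_mul]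
  have e2 : ∀ y, z * (t * y) = t * (z * y) := fun y => by rw [← mul_assoc, c, mul_assoc]
  have i1 : t⁻¹ = t := inv_eq_of_mul_eq_one_right tt
  have i2 : z⁻¹ = z := inv_eq_of_mul_eq_one_right zz
  induction h using closure_induction with
  | mem x hx => rcases hx with rfl | rfl <;> simp
  | one => simp
  | mul x y _ _ hx hy =>
    rcases hx with hx | hx | hx | hx <;> rcases hy with hy | hy | hy | hy <;>
      simp [hx, hy, mul_assoc, e1, e2, tt, zz, c]
  | inv x _ hx => rcases hx with hx | hx | hx | hx <;> simp [hx, i1, i2, c]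

end RkD

namespace Fr

theorem rkD (F : Fr G) (d : F.dl ≠ 1) (h : ¬ F.Om (F.t * F.z)) : Cfsg.SectionalPRankLE 2 4 F.E := by
  have hN : ⊤ ⊓ 𝐍(F.TD) ≤ centralizer {F.t} := by
    rintro k ⟨-, hk⟩
    have k1 : k ∈ 𝐍(F.T) := F.wcT (cj_le_of_mem_normalizer F.TTD hk)
    have k2 : k * F.t * k⁻¹ ∈ F.W1 := F.ZTW1 ((mem_normalizer_iff.1 (F.NZT k1) _).1 F.b2_tZ)
    have k3 : k⁻¹ * F.dl * k ∈ F.TD := by
      have := (mem_normalizer_iff.1 (inv_mem hk) _).1 F.dlTD
      rwa [inv_inv] at this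
    have k4 := mem_centralizer_singleton_iff.1 (F.sylTD.le k3)
    have k5 : F.dl * 1 * (k * F.t * k⁻¹) = k * F.t * k⁻¹ * (F.dl * 1) := by
      calc _ = k * (k⁻¹ * F.dl * k * F.t) * k⁻¹ := by group
        _ = _ := by rw [k4]; group
    have o : F.Om (k * F.t * k⁻¹) := ⟨k, rfl⟩
    rcases RkD.four F.tt F.zz F.zt (F.cenD d (one_mem _) k2 k5) with e | e | e | e
    · exact absurd e o.sq.2
    · exact mem_centralizer_singleton_iff.2 (mul_inv_eq_iff_eq_mul.1 e)
    · exact absurd (e ▸ o) F.nz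
    · exact absurd (e ▸ o) h
  have hS : IsSylowIn 2 F.TD ⊤ :=
    isSylowIn_of_normalizer le_top (F.sylTD.mono (le_inf le_top le_normalizer) hN)
  obtain ⟨d1, -, -, -, d2⟩ := F.hdl.resolve_left d
  have s2 : (F.dl * F.v1) ^ 2 = F.v2 * (F.dl * F.dl) * F.v1 := by rw [← d1, sq]; group
  have s4 : (F.dl * F.v1) ^ 2 ^ 2 = F.z := by
    rw [show 2 ^ 2 = 2 * 2 from rfl, pow_mul, s2, sq, ← F.hz']
    rcases d2 with e | e
    · rw [e]; group
    · rw [e, ← F.tv2]
      calc _ = F.t * (F.v2 * (F.v1 * F.t)) * F.v2 * F.v1 := by group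
        _ = _ := by rw [← F.tv1, ← mul_assoc F.v2, ← F.tv2, mul_assoc F.t F.v2, F.b2_tt]
  have s8 : orderOf (F.dl * F.v1) = 2 ^ (2 + 1) :=
    orderOf_eq_prime_pow (by rw [s4]; exact F.z1) (by rw [pow_succ, pow_mul, s4, sq, F.zz])
  exact H83.sr_iff.1 ((H83.sr_iff.2 (H58.Har.sr_of_sylow hS fun H K h1 _ h3 =>
    H58.Har.card_le_of_cyclic (c := 8) (mul_mem F.dlTD (F.TTD F.b2_v1T))
      (by rw [F.cardTD d, s8]; rfl) h1 h3)).subgroup _)

end Fr

end H25.A6
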