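import Mathlib
import Cfsg.Agent.Lib.A6S.HX
import Cfsg.Agent.Lib.A6S.HS
import Cfsg.Agent.Lib.A6S.HB
import Cfsg.Agent.Lib.A6S.HZ
import Cfsg.Agent.Lib.A6S.Y3

/-! Case `SZ` is impossible. -/

set_option autoImplicit false

namespace H25.A6

open Subgroup H69 H36.SW H25.A7

variable {G : Type*} [Group G] [Finite G]

namespace Fr
variable {F : Fr G} {u0 g v d1 d2 η κ γ : G}

theorem SZ.false (c : F.SZ γ) : False := by
  rcases c.ci.split' with ⟨g, d1, d2, η, h, tr⟩ | ⟨g, g', d1, d2, η1, η2, h⟩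
  · obtain ⟨d2, κ, e⟩ := h.esZ tr c
    obtain ⟨d2, κ, k, s, w⟩ := e.sy
    exact s.sz w c.d1
  · exact h.sz c

end Fr

end H25.A6
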