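import Mathlib
import Cfsg.Agent.Lib.A6S.UF
import Cfsg.Agent.Lib.A7S.HQ

/-! The unitary case: squares, commutators and actions in `P`. -/

set_option autoImplicit false
set_option linter.unusedSectionVars false

namespace H25.A7

open Subgroup H69 H36.SW

variable {G : Type*} [Group G] [Finite G]

open HQ

namespace UQ

/-- the squaring map -/
def Qu (a : V4) : V4 :=
  (a.1 + a.1 * a.2.2.1 + a.1 * a.2.2.2 + a.2.1 * a.2.2.1,
   a.2.1 + a.1 * a.2.2.2 + a.2.1 * a.2.2.1 + a.2.1 * a.2.2.2,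
   a.1 + a.2.1 + a.1 * a.2.1,
   a.2.2.1 + a.2.2.2 + a.1 * a.2.2.2 + a.2.1 * a.2.2.1 + a.2.2.1 * a.2.2.2)

theorem eqns : True := by
  have := @Qu.eq_1
  trivial

variable {F : Fr G} {g d v η h θ e : G} {P : Subgroup G}

theorem cx (b : F.UP g d v η h P θ e) : Cx P (F.Y v) g d (h * d * h⁻¹) e where
  YP := b.YP
  cen := b.cen
  sq := b.sq
  sqY := fun _ => b.toUB.sqY
  cm := fun _ hx _ hy => b.comm hx hy
  gP := b.gP
  dP := b.dP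
  DP := b.d'P
  eP := b.eP

theorem yadd (b : F.UP g d v η h P θ e) (x y : V4) :
    n4 F.z F.v1 F.u1 v x * n4 F.z F.v1 F.u1 v y = n4 F.z F.v1 F.u1 v (x + y) :=
  let ⟨h1, h2, h3, h4⟩ := F.HQm v
  (n4_add (cx b).sqY h1 h2 h3 h4 x y).symm

theorem ymem (b : F.UP g d v η h P θ e) {x : G} (hx : x ∈ F.Y v) : ∃ a, x = n4 F.z F.v1 F.u1 v a := by
  induction hx using closure_induction with
  | mem x hx =>
    rcases hx with rfl | rfl | rfl | rfl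
    exacts [⟨(1, 0, 0, 0), by simp [n4]⟩, ⟨(0, 1, 0, 0), by simp [n4]⟩, ⟨(0, 0, 1, 0), by simp [n4]⟩,
      ⟨(0, 0, 0, 1), by simp [n4]⟩]
  | one => exact ⟨0, (n4_zero _ _ _ _).symm⟩
  | mul x y _ _ hx hy =>
    obtain ⟨a, rfl⟩ := hx
    obtain ⟨c, rfl⟩ := hy
    exact ⟨_, yadd b a c⟩
  | inv x m hx => rwa [inv_eq_of_mul_eq_one_right (b.toUB.sqY m)]

theorem yone (b : F.UP g d v η h P θ e) {x : V4} (k : n4 F.z F.v1 F.u1 v x = 1) : x = 0 := by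
  obtain ⟨i, j, l, m⟩ := x
  have h4 : m = 0 := by
    by_contra n
    obtain rfl : m = 1 := by omega
    apply b.toUB.vX
    have : v = (F.z ^ (i : ℕ) * F.v1 ^ (j : ℕ) * F.u1 ^ (l : ℕ))⁻¹ := by
      rw [eq_comm, inv_eq_iff_mul_eq_one, ← k]
      simp [n4]
    rw [this]
    exact inv_mem (mul_mem (mul_mem (pow_mem (subset_closure (by simp)) _)
      (pow_mem (subset_closure (by simp)) _)) (pow_mem (subset_closure (by simp)) _))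
  subst h4
  obtain ⟨-, h1, -, h2, h3⟩ := F.ind (a := 0) (b := j) (c := 0) (d := i) (e := l) (by
    rw [← k, n4, ((show Commute F.z F.v1 from F.zv1).pow_pow _ _).eq]
    simp)
  rw [h1, h2, h3.resolve_right b.ca.u1]
  rfl

theorem yinj (b : F.UP g d v η h P θ e) {x y : V4}
    (k : n4 F.z F.v1 F.u1 v x = n4 F.z F.v1 F.u1 v y) : x = y := by
  have : x + y = 0 := yone b (by
    rw [← yadd b, k, yadd b, show y + y = 0 by clear k; revert y; decide, n4_zero])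
  clear k
  revert x y
  decide

theorem yh (b : F.UP g d v η h P θ e) (x : V4) :
    h * n4 F.z F.v1 F.u1 v x * h⁻¹ =
      n4 F.z F.v1 F.u1 v (x.2.1 + x.2.2.1, x.2.2.2, x.1 + x.2.2.2, x.2.1) := by
  obtain ⟨m1, -, -, m4⟩ := F.HQm v
  have k : ∀ {x y}, h * x * h⁻¹ = y → (MulAut.conj h) x = y := id
  have hv : h * F.v1 * h⁻¹ = F.z * v := b.hv.trans (comm_of_sq (fun _ => b.toUB.sqY) m4 m1)
  have c : Commute F.z v := comm_of_sq (fun _ => b.toUB.sqY) m1 m4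
  change (MulAut.conj h) _ = _
  rw [show (x.2.1 + x.2.2.1, x.2.2.2, x.1 + x.2.2.2, x.2.1) = ((0, 0, x.1, 0) + (x.2.1, 0, 0, x.2.1) +
    (x.2.2.1, 0, 0, 0) + (0, x.2.2.2, x.2.2.2, 0) : V4) by simp, ← yadd b, ← yadd b, ← yadd b]
  simp only [n4, map_mul, map_pow, k b.hz, k b.hu, k hv, k b.toUB.hv', c.mul_pow,
    (show Commute F.v1 F.u1 from F.u1v1.symm).mul_pow]
  simp

theorem yθ (b : F.UP g d v η h P θ e) (x : V4) :
    θ * n4 F.z F.v1 F.u1 v x * θ⁻¹ = n4 F.z F.v1 F.u1 v (x.2.1, x.1 + x.2.1, x.2.2.1, x.2.2.2) := by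
  obtain ⟨h1, h2, h3, h4, -⟩ := b.θact
  have k : ∀ {x y}, θ * x * θ⁻¹ = y → (MulAut.conj θ) x = y := id
  change (MulAut.conj θ) _ = _
  rw [show (x.2.1, x.1 + x.2.1, x.2.2.1, x.2.2.2) = ((0, x.1, 0, 0) + (x.2.1, x.2.1, 0, 0) +
    (0, 0, x.2.2.1, 0) + (0, 0, 0, x.2.2.2) : V4) by simp, ← yadd b, ← yadd b, ← yadd b]
  simp only [n4, map_mul, map_pow, k h1, k h2, k h3, k h4, (show Commute F.z F.v1 from F.zv1).mul_pow]
  simp

theorem base (b : F.UP g d v η h P θ e) :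
    (g * g = n4 F.z F.v1 F.u1 v (1, 0, 1, 0) ∧ d * d = n4 F.z F.v1 F.u1 v (0, 1, 1, 0) ∧
      h * d * h⁻¹ * (h * d * h⁻¹) = n4 F.z F.v1 F.u1 v (0, 0, 0, 1) ∧ e * e = n4 F.z F.v1 F.u1 v (0, 0, 0, 1)) ∧
    bt g d = n4 F.z F.v1 F.u1 v (0, 0, 1, 0) ∧ bt g (h * d * h⁻¹) = n4 F.z F.v1 F.u1 v (1, 0, 0, 0) ∧
    bt g e = n4 F.z F.v1 F.u1 v (1, 1, 0, 1) ∧ bt d (h * d * h⁻¹) = n4 F.z F.v1 F.u1 v (1, 1, 0, 1) ∧
    bt d e = n4 F.z F.v1 F.u1 v (0, 1, 0, 0) ∧ bt (h * d * h⁻¹) e = n4 F.z F.v1 F.u1 v (0, 0, 0, 1) := by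
  have c := cx b
  obtain ⟨s1, s2, s3⟩ := b.toUB.sqs
  obtain ⟨-, -, -, -, -, t1, t2, t3⟩ := b.θact
  obtain ⟨k1, k2⟩ := b.hact
  have he := b.he
  generalize hD : h * d * h⁻¹ = D at *
  have cj : ∀ s x : G, s * x * s⁻¹ * (s * x * s⁻¹) = s * (x * x) * s⁻¹ := fun s x => by group
  have qg : g * g = n4 F.z F.v1 F.u1 v (1, 0, 1, 0) := by simp [n4, s1]
  have qd : d * d = n4 F.z F.v1 F.u1 v (0, 1, 1, 0) := by simp [n4, s2]
  have qD : D * D = n4 F.z F.v1 F.u1 v (0, 0, 0, 1) := by rw [← hD, cj, qd, yh b]; rfl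
  have qe : e * e = n4 F.z F.v1 F.u1 v (0, 0, 0, 1) := by rw [he, cj, qD, yθ b]; rfl
  have sol : ∀ {x y : G} {p q r : V4}, x ∈ P → y ∈ P → x * x = n4 F.z F.v1 F.u1 v p →
      y * y = n4 F.z F.v1 F.u1 v q → x * y * (x * y) = n4 F.z F.v1 F.u1 v r →
      bt x y = n4 F.z F.v1 F.u1 v (p + q + r) := fun {x y p q r} hx hy e1 e2 e3 => by
    obtain ⟨m, hm⟩ := ymem b (c.cm x hx y hy)
    rw [c.qm hx hy, e1, e2, hm, yadd b, yadd b] at e3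
    rw [hm, ← yinj b e3]
    congr 1
    clear * -
    revert p q m
    decide +kernel
  have gd : bt g d = n4 F.z F.v1 F.u1 v (0, 0, 1, 0) :=
    sol (r := (1, 1, 1, 0)) c.gP c.dP qg qd (by simp [n4, s3])
  have gD : bt g D = n4 F.z F.v1 F.u1 v (1, 0, 0, 0) := by
    rw [← c.bl_eq c.gP k1 c.DP, ← hD, ← bt_cj, gd, yh b]; rfl
  have de : bt d e = n4 F.z F.v1 F.u1 v (0, 1, 0, 0) := by
    rw [← t1, he, ← bt_cj, gD, yθ b]; rfl
  have De : bt D e = n4 F.z F.v1 F.u1 v (0, 0, 0, 1) :=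
    sol (r := (0, 0, 0, 1)) c.DP c.eP qD qe (by
      rw [← c.sq_eq (mul_mem c.DP c.eP) t3, cj, qe, yθ b]; rfl)
  obtain ⟨m, dD⟩ := ymem b (c.cm d c.dP D c.DP)
  obtain ⟨n, ge⟩ := ymem b (c.cm g c.gP e c.eP)
  have gdP := mul_mem c.gP c.dP
  have DeP := mul_mem c.DP c.eP
  have r1 := yh b m
  rw [← dD, bt_cj, hD, k2, c.sy c.DP c.dP, dD] at r1
  have r2 := yθ b n
  rw [← ge, bt_cj, t1, c.br_eq DeP t3 c.dP, c.br c.DP c.eP c.dP, dD, de, yadd b] at r2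
  have r3 := yθ b (0, 1, 0, 0)
  rw [← de, bt_cj, t2, c.br_eq DeP t3 (inv_mem gdP),
    c.bl_eq gdP (by simpa using inv_mem (c.sq _ gdP)) DeP, c.bl c.gP c.dP DeP, c.br c.DP c.eP c.gP,
    c.br c.DP c.eP c.dP, gD, ge, dD, de, yadd b, yadd b, yadd b] at r3
  have r : m = (1, 1, 0, 1) ∧ n = (1, 1, 0, 1) := by
    have r1 := yinj b r1
    have r2 := yinj b r2
    have r3 := yinj b r3
    clear * - r1 r2 r3
    revert m n
    decide +kernel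
  obtain ⟨rfl, rfl⟩ := r
  exact ⟨⟨qg, qd, qD, qe⟩, gd, gD, ge, dD, de, De⟩

theorem Q0 (b : F.UP g d v η h P θ e) (a : V4) :
    n4 g d (h * d * h⁻¹) e a * n4 g d (h * d * h⁻¹) e a = n4 F.z F.v1 F.u1 v (Qu a) := by
  have c := cx b
  obtain ⟨⟨qg, qd, qD, qe⟩, gd, gD, ge, dD, de, De⟩ := base b
  generalize h * d * h⁻¹ = D at c qD gD dD De ⊢
  obtain ⟨i, j, k, l⟩ := a
  have p1 := pow_mem c.gP (i : ℕ)
  have p2 := pow_mem c.dP (j : ℕ)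
  have p3 := pow_mem c.DP (k : ℕ)
  have p4 := pow_mem c.eP (l : ℕ)
  rw [n4.eq_1 g, c.qm (mul_mem (mul_mem p1 p2) p3) p4, c.qm (mul_mem p1 p2) p3, c.qm p1 p2,
    c.bl (mul_mem p1 p2) p3 p4, c.bl p1 p2 p4, c.bl p1 p2 p3]
  simp only [bp, qp, qg, qd, qD, qe, gd, gD, de, De, dD, ge, np, yadd b]
  congr 1
  clear * -
  revert i j k l
  decide +kernel

theorem Q (b : F.UP g d v η h P θ e) {x : G} {a : V4} (k : Cl (F.Y v) g d (h * d * h⁻¹) e x a) :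
    x * x = n4 F.z F.v1 F.u1 v (Qu a) :=
  ((cx b).sq_eq ((cx b).wP a) k.out).trans (Q0 b a)

theorem cls (b : F.UP g d v η h P θ e) {x : G} (hx : x ∈ P) :
    ∃ a, Cl (F.Y v) g d (h * d * h⁻¹) e x a := by
  obtain ⟨y, hy, i, j, k, l, rfl⟩ := b.memP.1 hx
  refine ⟨(i, j, k, l), ⟨?_⟩⟩
  have := (cx b).cc ((cx b).wP (i, j, k, l)) hy
  simp only [n4, ← mul_assoc] at this
  rw [this, n4, inv_mul_cancel_left]
  exact hy

theorem of_bt (b : F.UP g d v η h P θ e) {x y w : G} (hx : x ∈ P) (hy : y ∈ P) (k : bt x y = w) :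
    x * y = y * x * w := by
  rw [← (cx b).cc (mul_mem hy hx) (k ▸ (cx b).cm x hx y hy), ← k, bt]
  group

/-- The class of a conjugate of `e`. -/
theorem cge (b : F.UP g d v η h P θ e) {s : G} (hs : s ∈ 𝐍(P)) {p p' q : V4}
    (h1 : g⁻¹ * (s * g * s⁻¹) ∈ F.Y v) (h2 : s * v * s⁻¹ = n4 F.z F.v1 F.u1 v p)
    (h3 : s * (F.v1 * F.u1) * s⁻¹ = n4 F.z F.v1 F.u1 v p')
    (h4 : ∀ a, Qu a = p → Qu ((1, 0, 0, 0) + a) = p' → a = q) :
    Cl (F.Y v) g d (h * d * h⁻¹) e (s * e * s⁻¹) q := by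
  have c := cx b
  obtain ⟨c1, -, -, c4⟩ := Fr.HQc (F.Y v) g d (h * d * h⁻¹) e
  obtain ⟨a, ha⟩ := cls b (conj_mem_of_mem_normalizer hs c.eP)
  have m : ∀ x y : G, s * x * s⁻¹ * (s * y * s⁻¹) = s * (x * y) * s⁻¹ := fun x y => by group
  have e1 : e * e = v := (Q b c4).trans (by simp [n4, Qu])
  have e2 : g * e * (g * e) = F.v1 * F.u1 :=
    (Q b (c.mul c1 c4)).trans (by
      rw [show Qu ((1, 0, 0, 0) + (0, 0, 0, 1)) = (0, 1, 1, 0) by decide]; simp [n4])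
  refine h4 a (yinj b ?_) (yinj b ?_) ▸ ha
  · rw [← Q b ha, m, e1, h2]
  · rw [← Q b (c.mul (Cx.of c1 h1) ha), m, m, e2, h3]

end UQ

namespace Fr
variable {F : Fr G} {g d v η h θ e : G} {P : Subgroup G}

theorem UP.sqs (b : F.UP g d v η h P θ e) : g * g = F.z * F.u1 ∧ d * d = F.v1 * F.u1 ∧
    h * d * h⁻¹ * (h * d * h⁻¹) = v ∧ e * e = v := by
  obtain ⟨⟨h1, h2, h3, h4⟩, -⟩ := UQ.base b
  exact ⟨h1.trans (by simp [n4]), h2.trans (by simp [n4]), h3.trans (by simp [n4]), h4.trans (by simp [n4])⟩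

theorem UP.cms (b : F.UP g d v η h P θ e) : g * d = d * g * F.u1 ∧ g * (h * d * h⁻¹) = h * d * h⁻¹ * g * F.z ∧
    g * e = e * g * (F.z * F.v1 * v) ∧ d * (h * d * h⁻¹) = h * d * h⁻¹ * d * (F.z * F.v1 * v) ∧
    d * e = e * d * F.v1 ∧ h * d * h⁻¹ * e = e * (h * d * h⁻¹) * v := by
  obtain ⟨-, h1, h2, h3, h4, h5, h6⟩ := UQ.base b
  exact ⟨UQ.of_bt b b.gP b.dP (h1.trans (by simp [n4])), UQ.of_bt b b.gP b.d'P (h2.trans (by simp [n4])),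
    UQ.of_bt b b.gP b.eP (h3.trans (by simp [n4])), UQ.of_bt b b.dP b.d'P (h4.trans (by simp [n4])),
    UQ.of_bt b b.dP b.eP (h5.trans (by simp [n4])), UQ.of_bt b b.d'P b.eP (h6.trans (by simp [n4]))⟩

theorem UP.acts (b : F.UP g d v η h P θ e) : (g * e)⁻¹ * (h * e * h⁻¹) ∈ F.Y v ∧
    (g * d * (h * d * h⁻¹) * e)⁻¹ * (F.v2 * e * F.v2) ∈ F.Y v := by
  have c := UQ.cx b
  obtain ⟨c1, c2, c3, c4⟩ := HQc (F.Y v) g d (h * d * h⁻¹) e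
  have iv : F.v2⁻¹ = F.v2 := inv_eq_of_mul_eq_one_right F.v22
  have a1 := UQ.cge b b.hN (p := (0, 1, 1, 0)) (p' := (0, 0, 0, 1)) (q := (1, 0, 0, 1)) b.hact.1
    (b.toUB.hv'.trans (by simp [n4]))
    (by rw [show F.v1 * F.u1 = n4 F.z F.v1 F.u1 v (0, 1, 1, 0) by simp [n4], UQ.yh b]; rfl) (by decide +kernel)
  obtain ⟨-, -, m3, m4⟩ := F.HQm v
  have a2 := UQ.cge b b.v2N (p := (0, 0, 1, 1)) (p' := (1, 1, 1, 0)) (q := (1, 1, 1, 1))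
    (by rw [iv]; exact b.vact.1)
    (by rw [iv, b.v2v, comm_of_sq (fun _ => b.toUB.sqY) m4 m3]; simp [n4])
    (by
      rw [← conj_mul, F.b2_v2v, ← F.u1v2, mul_inv_cancel_right]
      simp [n4]) (by decide +kernel)
  rw [iv] at a2
  exact ⟨Cx.rel (c.mul' c1 c4) a1, Cx.rel (c.mul' (c.mul (c.mul c1 c2) c3) c4) a2⟩

end Fr

end H25.A7
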