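import Mathlib
import Cfsg.Agent.Lib.A6S.HN

/-! Type `ZZ` in case `SZ`: the analogue of `ZZ.kill`. -/

set_option autoImplicit false

namespace H25.A6

open Subgroup H69 H36.SW H25.A7

variable {G : Type*} [Group G] [Finite G]

namespace Fr
variable {F : Fr G} {u0 g g' v d1 d2 η η1 η2 κ k a b γ r r' : G}

theorem ZZ.y2_adj (h : F.ZZ u0 g g' r r' d1 d2 η1 η2)
    {f e : G}
    (h1 : f ∈ 𝐍((F.R g r d1 ⊔ closure {F.t, F.v2} : Subgroup G))) (h2 : f ∈ 𝐍(F.R g r d1))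
    (he : e ∈ F.R g r d1) (h3 : f * F.t * f⁻¹ = F.t * e) :
    ∃ m ∈ closure ({g, r, F.u1} : Set G), f * (F.t * F.v2) * f⁻¹ = F.t * F.v2 * m := by
  have tS : F.t ∈ (F.R g r d1 ⊔ closure {F.t, F.v2} : Subgroup G) :=
    mem_sup_right (subset_closure (by simp))
  have vS : F.v2 ∈ (F.R g r d1 ⊔ closure {F.t, F.v2} : Subgroup G) :=
    mem_sup_right (subset_closure (by simp))
  have o0 : F.Om (F.t * F.v2) := Om.of_cj d2 (by rw [h.ze_r0]; exact F.om_t)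
  have o := o0.cj f
  have xx := o.sq.1
  obtain ⟨e1, he1, a, c, hx⟩ := h.memS.1 (conj_mem_of_mem_normalizer h1 (mul_mem tS vS))
  fin_cases a <;> fin_cases c
  · exfalso
    simp only [Fin.zero_eta, Fin.val_zero, pow_zero, one_mul] at hx
    have m := conj_mem_of_mem_normalizer' h2 (hx ▸ he1)
    have := h.indS (a := 1) (b := 1) (by simpa [mul_assoc] using m)
    exact absurd this.1 (by decide)
  · exfalso
    simp only [Fin.zero_eta, Fin.val_zero, pow_zero, one_mul, Fin.mk_one, Fin.val_one, pow_one] at hx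
    rw [hx] at o xx
    have i : F.v2 * e1 * F.v2 = e1⁻¹ := by
      rw [eq_inv_iff_mul_eq_one, ← xx]; group
    rcases (h.cv2 he1).2 i with m | m
    · exact h.ze_nX2 m o
    · refine h.ze_nX2 m (Om.of_cj d1⁻¹ ?_)
      have c := h.ze_cm (h.XR (F.F0X1 m)) h.ze_dR
      have : d1⁻¹ * (F.v2 * ((g * F.v1)⁻¹ * e1)) * d1⁻¹⁻¹ = F.v2 * e1 := by
        calc _ = d1⁻¹ * F.v2 * ((g * F.v1)⁻¹ * e1 * d1) := by group
          _ = d1⁻¹ * F.v2 * d1 * ((g * F.v1)⁻¹ * e1) := by rw [c]; group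
          _ = _ := by rw [h.c1]; group
      rwa [this]
  · exfalso
    simp only [Fin.zero_eta, Fin.val_zero, pow_zero, mul_one, Fin.mk_one, Fin.val_one, pow_one] at hx
    have : f * F.v2 * f⁻¹ = e⁻¹ * e1 := by
      calc _ = (f * F.t * f⁻¹)⁻¹ * (f * (F.t * F.v2) * f⁻¹) := by group
        _ = _ := by rw [h3, hx]; group
    have m := conj_mem_of_mem_normalizer' h2 (this ▸ mul_mem (inv_mem he) he1)
    have := h.indS (a := 0) (b := 1) (by simpa [mul_assoc] using m)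
    exact absurd this.2 (by decide)
  · simp only [Fin.mk_one, Fin.val_one, pow_one] at hx
    rw [hx] at o xx ⊢
    have c : e1 * F.v2 = F.v2 * e1 := by
      have i : F.t * F.v2 * e1 * (F.t * F.v2 * e1) = F.v2 * e1⁻¹ * F.v2 * e1 := by
        calc _ = F.t * F.v2 * (e1 * F.t) * F.v2 * e1 := by group
          _ = F.t * (F.v2 * F.t) * e1⁻¹ * F.v2 * e1 := by rw [h.ze_ti he1]; group
          _ = _ := by rw [← F.tv2, ← mul_assoc, F.tt, one_mul]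
      rw [i] at xx
      have i2 : F.v2⁻¹ = F.v2 := inv_eq_of_mul_eq_one_right F.v22
      calc e1 * F.v2 = e1 * F.v2⁻¹ * (F.v2 * e1⁻¹ * F.v2 * e1) := by rw [xx, i2, mul_one]
        _ = _ := by group
    exact ⟨e1, (h.cv2 he1).1 c, rfl⟩

theorem ZZ.y2_A (h : F.ZZ u0 g g' r r' d1 d2 η1 η2) {k ε : G}
    (k1 : k ∈ 𝐍((F.R g r d1 ⊔ closure {F.t, F.v2} : Subgroup G))) (k2 : k ∈ 𝐍(F.R g r d1))
    (hE : ε ∈ F.R g r d1) (k3 : k * F.t * k⁻¹ = F.t * ε) (k4 : ε * ε = F.z)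
    (k5 : k * (F.t * F.v2) * k⁻¹ = F.t * F.v2) : F.dl ≠ 1 := by
  have ct : d2 * k * d2⁻¹ * F.t = F.t * (d2 * k * d2⁻¹) := by
    rw [← mul_inv_eq_iff_eq_mul]
    calc d2 * k * d2⁻¹ * F.t * (d2 * k * d2⁻¹)⁻¹
        = d2 * k * d2⁻¹ * (d2 * (F.t * F.v2) * d2⁻¹) * (d2 * k * d2⁻¹)⁻¹ := by rw [h.ze_r0]
      _ = d2 * (k * (F.t * F.v2) * k⁻¹) * d2⁻¹ := by group
      _ = _ := by rw [k5, h.ze_r0]
  have nT : d2 * k * d2⁻¹ ∈ 𝐍(F.T) := by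
    rw [← h.ze_T, ← cj_eq_self_iff, cj_inf, cj_centralizer_singleton, ct, mul_inv_cancel_right]
    congr 1
    rw [cj_eq_self_iff, ← cj_normalizer]
    exact cj_mem d2 k1
  rcases F.swu ct nT with nN | ⟨dd, -⟩
  swap
  · exact dd
  exfalso
  have kz : k * F.z * k⁻¹ = F.z := by
    have a1 := F.Nz nT
    have a2 : d2⁻¹ * F.z * d2 = F.z := by
      have := conj_eq_of_mem_centralizer (inv_mem h.d2M) (a := F.z)
        (by rw [← h.gg]; exact mul_mem (subset_closure (by simp)) (subset_closure (by simp)))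
      rwa [inv_inv] at this
    calc k * F.z * k⁻¹ = k * (d2⁻¹ * F.z * d2) * k⁻¹ := by rw [a2]
      _ = d2⁻¹ * (d2 * k * d2⁻¹ * F.z) * d2 * k⁻¹ := by group
      _ = d2⁻¹ * F.z * d2 := by rw [a1]; group
      _ = _ := a2
  have pt : ∀ i : ℕ, ∃ x ∈ F.R g r d1, k ^ i * F.t * (k ^ i)⁻¹ = F.t * x ∧ x * x = F.z ^ i := by
    intro i
    induction i with
    | zero => exact ⟨1, one_mem _, by simp, by simp⟩
    | succ i ih =>
      obtain ⟨x, hx, a1, a2⟩ := ih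
      have m := conj_mem_of_mem_normalizer k2 hx
      refine ⟨ε * (k * x * k⁻¹), mul_mem hE m, ?_, ?_⟩
      · calc k ^ (i + 1) * F.t * (k ^ (i + 1))⁻¹ = k * (k ^ i * F.t * (k ^ i)⁻¹) * k⁻¹ := by group
          _ = k * F.t * k⁻¹ * (k * x * k⁻¹) := by rw [a1]; group
          _ = _ := by rw [k3, mul_assoc]
      · have c := h.ze_cm m hE
        calc ε * (k * x * k⁻¹) * (ε * (k * x * k⁻¹)) = ε * (k * x * k⁻¹ * ε) * (k * x * k⁻¹) := by group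
          _ = ε * ε * (k * (x * x) * k⁻¹) := by rw [c]; group
          _ = _ := by rw [k4, a2, ← conj_pow, kz, pow_succ']
  obtain ⟨n, hn, p2⟩ := exists_odd_P2 k
  have mT : d2 * k ^ n * d2⁻¹ ∈ F.T := by
    refine F.p2T ?_ ?_ ?_ (p2.conj d2)
    · rw [← conj_pow]; exact ((show Commute (d2 * k * d2⁻¹) F.t from ct).pow_left n).eq
    · rw [← conj_pow]; exact Subgroup.pow_mem _ nT n
    · rw [← conj_pow]; exact Subgroup.pow_mem _ nN.2.1 n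
  rw [← h.ze_T] at mT
  obtain ⟨x, -, a1, a2⟩ := pt n
  have := h.ze_ptS (cj_mem_iff.1 mT.1) a1
  rw [a2, pow_odd_of_sq F.zz hn] at this
  exact F.z1 this

theorem SZ.y2_v (c : F.SZ γ) {x : G} (nT : x ∈ 𝐍(F.T)) (xt : x * F.t * x⁻¹ = F.t * F.u1) :
    x * F.u1 * x⁻¹ = F.u2 ∧ ∃ w ∈ F.V1, (w = 1 ∨ w = F.z) ∧ x * F.v2 * x⁻¹ = w * F.v1 := by
  obtain ⟨s1, s2⟩ : F.W1 ^ᶜ x = F.W2 ∧ F.W2 ^ᶜ x = F.W1 := by
    refine (F.permW nT).resolve_left fun q => ?_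
    rcases c.ci.tz (F.mem_NN nT q.1) with e | e
    · rw [xt, mul_eq_left] at e
      exact F.hu1 e
    · rw [xt, mul_right_inj] at e
      exact F.b2_uV F.hu1 (e ▸ F.b2_zV)
  have xz := F.Nz nT
  constructor
  · have n : γ⁻¹ * x ∈ F.NN := F.mem_NN (mul_mem (inv_mem c.γT) nT) (by
      rw [← cj_eq_self_iff, ← cj_cj, s1, ← c.γW, cj_cj_inv])
    have := c.ci.fx1 _ n
    calc x * F.u1 * x⁻¹ = γ * (γ⁻¹ * x * F.u1) * x⁻¹ := by group
      _ = γ * F.u1 * γ⁻¹ := by rw [this]; group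
      _ = _ := c.γu
  obtain ⟨σ, hσ, σt⟩ := c.ci.sz
  have σu := B2.cj_of_comm (c.ci.fx1 σ hσ)
  have n0 : F.y1 * σ * F.y1⁻¹ ∈ 𝐍(F.W1) := mul_mem (mul_mem F.y1N hσ.2.1) (inv_mem F.y1N)
  have e0 : F.y1 * σ * F.y1⁻¹ * (F.t * F.u1) * (F.y1 * σ * F.y1⁻¹)⁻¹ = F.t * F.u1 * F.v1 := by
    have a1 : F.y1⁻¹ * (F.t * F.u1) * F.y1 = F.t * F.u1 := by
      rw [mul_assoc, mul_assoc, ← F.y1u, ← mul_assoc F.t, ← F.y1t]; group
    calc _ = F.y1 * (σ * (F.y1⁻¹ * (F.t * F.u1) * F.y1) * σ⁻¹) * F.y1⁻¹ := by group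
      _ = F.y1 * (F.t * F.z * F.u1) * F.y1⁻¹ := by rw [a1, B2.cj_mul σ, σt, σu]
      _ = _ := by
        rw [B2.cj_mul, B2.cj_mul, B2.cj_of_comm F.y1t, B2.cj_of_comm F.y1u, F.y1z, mul_assoc, ← F.u1v1, mul_assoc]
  have m := c.ci.orb2 _ (B2.norm_cj (g := x⁻¹) (by rw [← s2, cj_cj_inv]) n0)
  have e1 : x⁻¹ * (F.y1 * σ * F.y1⁻¹) * x⁻¹⁻¹ * F.t * (x⁻¹ * (F.y1 * σ * F.y1⁻¹) * x⁻¹⁻¹)⁻¹ = F.t * (x⁻¹ * F.v1 * x) := by
    calc _ = x⁻¹ * (F.y1 * σ * F.y1⁻¹ * (x * F.t * x⁻¹) * (F.y1 * σ * F.y1⁻¹)⁻¹) * x := by group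
      _ = x⁻¹ * (x * F.t * x⁻¹ * F.v1) * x := by rw [xt, e0]
      _ = _ := by group
  rw [e1, F.b2_tt] at m
  have xz' := B2.cj_of_comm xz
  have bk : F.v1 = x * (x⁻¹ * F.v1 * x) * x⁻¹ := by group
  rcases F.sw.memV1.1 m with e | e | e | e
  · rw [e] at bk
    exact absurd (by rw [bk]; group) F.b2_v1
  · rw [e] at bk
    exact absurd (bk.trans xz') F.b2_vz
  · rw [e] at bk
    exact ⟨1, one_mem _, Or.inl rfl, by rw [one_mul]; exact bk.symm⟩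
  · rw [e] at bk
    refine ⟨F.z, F.b2_zV, Or.inr rfl, ?_⟩
    have bk' : F.v1 = x * (F.z * F.v2) * x⁻¹ := bk
    rw [bk', B2.cj_mul, xz', F.b2_zz]

theorem ZZ.y2_B (h : F.ZZ 1 g g' 1 1 d1 d2 η1 η2) (c : F.SZ γ) {k ε : G}
    (k1 : k ∈ 𝐍((F.R g 1 d1 ⊔ closure {F.t, F.v2} : Subgroup G)))
    (k3 : k * F.t * k⁻¹ = F.t * ε) (k5 : k * (F.t * F.v2) * k⁻¹ = F.t * F.v2 * F.u1) :
    k * F.u1 * k⁻¹ = F.u2 ∧ (g' * F.u1)⁻¹ * ε ∈ F.V1 := by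
  have uM : F.u1 ∈ closure ({g, 1, F.u1} : Set G) := subset_closure (by simp)
  have du := conj_eq_of_mem_centralizer h.d2M uM
  have xt : d2 * k * d2⁻¹ * F.t * (d2 * k * d2⁻¹)⁻¹ = F.t * F.u1 := by
    calc _ = d2 * k * d2⁻¹ * (d2 * (F.t * F.v2) * d2⁻¹) * (d2 * k * d2⁻¹)⁻¹ := by rw [h.ze_r0]
      _ = d2 * (k * (F.t * F.v2) * k⁻¹) * d2⁻¹ := by group
      _ = _ := by rw [k5, B2.cj_mul, h.ze_r0, du]
  have Su : (F.R g 1 d1 ⊔ closure {F.t, F.v2} : Subgroup G) ≤ centralizer {F.u1} :=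
    sup_le (fun x hx => mem_centralizer_singleton_iff.2 (h.ze_cm hx (h.MR uM))) ((closure_le _).2 (by
      rintro x (rfl | rfl)
      exacts [mem_centralizer_singleton_iff.2 F.tu1, mem_centralizer_singleton_iff.2 F.u1v2.symm]))
  have Su' : (F.R g 1 d1 ⊔ closure {F.t, F.v2} : Subgroup G) ^ᶜ d2 ≤ centralizer {F.u1} := by
    have := cj_mono d2 Su
    rwa [cj_centralizer_singleton, du] at this
  have nT : d2 * k * d2⁻¹ ∈ 𝐍(F.T) := by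
    have nS : ((F.R g 1 d1 ⊔ closure {F.t, F.v2} : Subgroup G) ^ᶜ d2) ^ᶜ (d2 * k * d2⁻¹) =
        (F.R g 1 d1 ⊔ closure {F.t, F.v2} : Subgroup G) ^ᶜ d2 := by
      rw [cj_eq_self_iff, ← cj_normalizer]
      exact cj_mem d2 k1
    rw [← h.ze_T, ← cj_eq_self_iff, cj_inf, cj_centralizer_singleton, xt, nS]
    ext y
    rw [mem_inf, mem_inf, mem_centralizer_singleton_iff, mem_centralizer_singleton_iff]
    refine and_congr_right fun hy => ?_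
    rw [mul_assoc, ← mem_centralizer_singleton_iff.1 (Su' hy), ← mul_assoc, ← mul_assoc, mul_left_inj]
  obtain ⟨a1, w, hw, hw', a2⟩ := c.y2_v nT xt
  have FM : ∀ x ∈ F.F0, d2⁻¹ * x * d2 = x := fun x hx => by
    have := conj_eq_of_mem_centralizer (inv_mem h.d2M) (a := x) (h.zaF hx)
    rwa [inv_inv] at this
  constructor
  · rw [← FM F.u2 (subset_closure (by simp)), ← a1]
    conv_lhs => rw [← FM F.u1 (subset_closure (by simp))]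
    group
  have dv : d2⁻¹ * F.v2 * d2 = F.v2 := by rw [← h.d22]; group
  have dw : d2⁻¹ * w * d2 = w := FM w (F.memF0.2 (by tauto))
  have b1 : k * F.v2 * k⁻¹ = w * (F.v1 * g' * F.v2) := by
    calc _ = k * (d2⁻¹ * F.v2 * d2) * k⁻¹ := by rw [dv]
      _ = d2⁻¹ * (d2 * k * d2⁻¹ * F.v2 * (d2 * k * d2⁻¹)⁻¹) * d2 := by group
      _ = d2⁻¹ * w * d2 * (d2⁻¹ * F.v1 * d2) := by rw [a2]; group
      _ = _ := by rw [dw, h.c2]
  have b2 : k * F.v2 * k⁻¹ = ε⁻¹ * F.u1 * F.v2 := by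
    calc _ = (k * F.t * k⁻¹)⁻¹ * (k * (F.t * F.v2) * k⁻¹) := by group
      _ = ε⁻¹ * (F.v2 * F.u1) := by rw [k3, k5]; group
      _ = _ := by rw [← F.u1v2, mul_assoc]
  have b3 : ε = F.u1 * (w * F.v1 * g')⁻¹ := by
    have : ε⁻¹ * F.u1 = w * F.v1 * g' := by
      apply mul_right_cancel (b := F.v2)
      rw [← b2, b1]; group
    rw [← this]; group
  have cg : g' * F.u1 = F.u1 * g' := h.ze_cm (h.MR h.zag) (h.MR uM)
  have : (g' * F.u1)⁻¹ * ε = (g' * g')⁻¹ * (w * F.v1)⁻¹ := by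
    rw [cg, b3]; group
  rw [this, h.zaM.1]
  exact mul_mem (inv_mem F.b2_zV) (inv_mem (mul_mem hw F.b2_vV))

theorem ZZ.killB (h : F.ZZ 1 g g' 1 1 d1 d2 η1 η2) (c : F.SZ γ) {f e : G}
    (h1 : f ∈ 𝐍((F.R g 1 d1 ⊔ closure {F.t, F.v2} : Subgroup G))) (hf : f ∈ 𝐍(F.R g 1 d1)) (he : e ∈ F.R g 1 d1)
    (h3 : f * F.t * f⁻¹ = F.t * e) (h4 : e * e = F.z) :
    f * F.u1 * f⁻¹ = F.u2 ∧ (g' * F.u1)⁻¹ * e ∈ F.V1 := by
  obtain ⟨m, hm, h5⟩ := h.y2_adj h1 hf he h3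
  have uR : F.u1 ∈ F.R g 1 d1 := h.XR F.b2_uX
  have gM : g ∈ closure ({g, 1} : Set G) := subset_closure (by simp)
  have zM : F.z ∈ closure ({g, 1} : Set G) := h.gg ▸ mul_mem gM gM
  obtain ⟨m', hm', u, hu, rfl⟩ : ∃ m' ∈ closure ({g, 1} : Set G), ∃ u, (u = 1 ∨ u = F.u1) ∧ m = m' * u := by
    obtain ⟨f0, hf0, i, j, rfl⟩ := h.memM.1 hm
    have cu : F.u1 * g ^ (i : ℕ) = g ^ (i : ℕ) * F.u1 := h.ze_cm uR (Subgroup.pow_mem _ h.ze_gR _)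
    have gi := Subgroup.pow_mem _ gM (i : ℕ)
    rw [one_pow, mul_one]
    rcases F.memF0.1 hf0 with rfl | rfl | rfl | rfl
    · exact ⟨_, gi, 1, Or.inl rfl, by rw [one_mul, mul_one]⟩
    · exact ⟨_, mul_mem zM gi, 1, Or.inl rfl, by rw [mul_one]⟩
    · exact ⟨_, gi, _, Or.inr rfl, cu⟩
    · exact ⟨_, mul_mem zM gi, _, Or.inr rfl, by rw [mul_assoc, cu, mul_assoc]⟩
  obtain ⟨-, e', he', h6⟩ := h.ze_cj hm'
  obtain ⟨k, hk⟩ : ∃ k, k = e'⁻¹ * f := ⟨_, rfl⟩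
  have k1 : k ∈ 𝐍((F.R g 1 d1 ⊔ closure {F.t, F.v2} : Subgroup G)) :=
    hk ▸ mul_mem (inv_mem (le_normalizer (mem_sup_left he'))) h1
  have k2 : k ∈ 𝐍(F.R g 1 d1) := hk ▸ mul_mem (inv_mem (le_normalizer he')) hf
  have ce := h.ze_cm he' he
  have k3 : k * F.t * k⁻¹ = F.t * (e * (e' * e')) := by
    have i : e'⁻¹ * F.t = F.t * e' := by simpa using h.ze_ti (inv_mem he')
    calc k * F.t * k⁻¹ = e'⁻¹ * (f * F.t * f⁻¹) * e' := by rw [hk]; group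
      _ = e'⁻¹ * F.t * e * e' := by rw [h3]; group
      _ = F.t * (e' * e) * e' := by rw [i]; group
      _ = _ := by rw [ce]; group
  have sV : e' * e' ∈ F.V1 := by
    obtain ⟨w, hw, i, j, l, rfl⟩ := h.memR.1 he'
    rw [h.zasq hw, one_pow, mul_one]
    exact mul_mem (Subgroup.pow_mem _ F.b2_vV _) (Subgroup.pow_mem _ F.b2_zV _)
  have uR' : u ∈ F.R g 1 d1 := by rcases hu with rfl | rfl; exacts [one_mem _, uR]
  have k5 : k * (F.t * F.v2) * k⁻¹ = F.t * F.v2 * u := by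
    calc _ = e'⁻¹ * (f * (F.t * F.v2) * f⁻¹) * e' := by rw [hk]; group
      _ = e'⁻¹ * (F.t * F.v2 * m') * (u * e') := by rw [h5]; group
      _ = _ := by rw [← h6, h.ze_cm uR' he']; group
  rcases hu with rfl | rfl
  · refine absurd c.d1 (h.y2_A k1 k2 (mul_mem he (mul_mem he' he')) k3 ?_ (by rw [k5, mul_one]))
    rw [ZA.mm (h.ze_cm he (mul_mem he' he')), h4, F.sqW1 (F.X1W1 (F.V1X1 sV)), mul_one]
  obtain ⟨a1, a2⟩ := h.y2_B c k1 k3 k5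
  constructor
  · have b := B2.cj_of_comm (h.ze_cm he' (h.XR F.u2X1))
    rw [← b, ← a1, hk]; group
  · have := mul_mem a2 (inv_mem sV)
    rwa [mul_assoc, mul_inv_cancel_right] at this

end Fr

end H25.A6
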